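import Cfsg.Statements.S1757
import Cfsg.Agent.H9.Basic

set_option autoImplicit false
open Cfsg

namespace Cfsg.Agent.S1757

open Cfsg.Agent.H9 Subgroup

/-- Let p be a prime and A, B p-subgroups of the finite group G, each of which meets every conjugate of itself other than itself trivially. Suppose the order of A is at most that of B, A and B intersect trivially, and B normalizes A. Then A and B commute elementwise. -/
theorem result {G : Type*} [Group G] [Finite G] (p : ℕ) [Fact p.Prime] (A B : Subgroup G)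
    (hA : IsPGroup p ↥A) (hB : IsPGroup p ↥B)
    (hAti : ∀ g : G, A.map (MulAut.conj g).toMonoidHom = A ∨ A.map (MulAut.conj g).toMonoidHom ⊓ A = ⊥)
    (hBti : ∀ g : G, B.map (MulAut.conj g).toMonoidHom = B ∨ B.map (MulAut.conj g).toMonoidHom ⊓ B = ⊥)
    (hle : Nat.card ↥A ≤ Nat.card ↥B) (hAB : A ⊓ B = ⊥) (hN : B ≤ Subgroup.normalizer (A : Set G)) : ⁅A, B⁆ = ⊥ := by
  have hP : IsPGroup p (B ⊔ A : Subgroup G) := hB.to_sup_of_normal_right' hA hN
  by_cases hAN : A ≤ normalizer (B : Set G)
  · rw [eq_bot_iff, ← hAB]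
    exact le_inf (le_normalizer_iff_commutator_le_left.1 hN)
      (le_normalizer_iff_commutator_le_right.1 hAN)
  exfalso
  set N : Subgroup G := normalizer (B : Set G) ⊓ (B ⊔ A) with hNdef
  have hne : ¬ B ⊔ A ≤ N := fun h => hAN (le_sup_right.trans (h.trans inf_le_left))
  obtain ⟨g, hg, hgN, hgn⟩ := exists_mem_normalizer_not_mem hP.isNilpotent
    (inf_le_right : N ≤ B ⊔ A) hne
  have hBN : B ≤ N := le_inf le_normalizer le_sup_left
  have hBg : B.map (MulAut.conj g).toMonoidHom ≤ N := by
    rw [map_conj_le_iff]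
    exact fun x hx => conj_mem_of_mem_normalizer hgn (hBN hx)
  rcases hBti g with h | h
  · exact hgN ⟨map_conj_eq_iff.1 h, hg⟩
  · have h1 := card_mul_card_le_of_disjoint hBg hBN h
    rw [card_map_conj] at h1
    have h2 : Nat.card N < Nat.card (B ⊔ A : Subgroup G) :=
      card_lt_of_lt (inf_le_right : N ≤ B ⊔ A) hne
    have h3 := card_sup_le_of_le_normalizer hN
    have h4 : Nat.card B * Nat.card A ≤ Nat.card B * Nat.card B := Nat.mul_le_mul_left _ hle
    omega

end Cfsg.Agent.S1757
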