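import Cfsg.Statements.S1782
import Cfsg.Agent.H9.Extra
import Cfsg.Agent.S1757

set_option autoImplicit false
open Cfsg

namespace Cfsg.Agent.S1782

open Subgroup Cfsg.Agent.H9

theorem exists_proper_normal {S : Type*} [Group S] [Finite S] (hS : IsPGroup 2 S)
    {R H : Subgroup S} (hRH : R ≤ H) (hne : ¬ H ≤ R) :
    ∃ M : Subgroup S, Nat.card M < Nat.card H ∧
      ∀ h ∈ H, R.map (MulAut.conj h).toMonoidHom ≤ M := by
  obtain ⟨M, h1, h2, h3⟩ := Cfsg.Agent.H5.exists_le_index_eq_prime (hS.to_subgroup H)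
    (H := R.subgroupOf H) (by rwa [Ne, subgroupOf_eq_top])
  refine ⟨M.map H.subtype, ?_, fun h hh => ?_⟩
  · rw [card_map_of_injective H.subtype_injective]
    exact Cfsg.Agent.H5.card_lt_of_ne_top (by rintro rfl; simp at h3)
  · rw [map_conj_le_iff]
    intro x hx
    exact ⟨_, h2.conj_mem ⟨x, hRH hx⟩ (h1 hx) ⟨h, hh⟩, rfl⟩

/-- Let S be a finite 2-group and Δ a set of subgroups of S closed under conjugation by S, all of the same order, each with nontrivial Frattini subgroup, and such that two distinct members of Δ meet trivially. Then any two distinct members of Δ commute elementwise. -/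
theorem result {S : Type*} [Group S] [Finite S] (hS : IsPGroup 2 S)
    (Δ : Set (Subgroup S)) (hinv : ∀ s : S, ∀ R ∈ Δ, R.map (MulAut.conj s).toMonoidHom ∈ Δ)
    (hΦ : ∀ R ∈ Δ, frattini ↥R ≠ ⊥) (hord : ∀ R ∈ Δ, ∀ T ∈ Δ, Nat.card ↥R = Nat.card ↥T)
    (hti : ∀ R ∈ Δ, ∀ T ∈ Δ, R = T ∨ R ⊓ T = ⊥) :
    ∀ R ∈ Δ, ∀ T ∈ Δ, R ≠ T → ⁅R, T⁆ = ⊥ := by
  have key : ∀ n, ∀ H : Subgroup S, Nat.card H = n → ∀ R ∈ Δ, ∀ T ∈ Δ, R ≤ H → T ≤ H → R ≠ T →
      ⁅R, T⁆ = ⊥ := by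
    intro n
    induction n using Nat.strong_induction_on with
    | _ n ih =>
    intro H hH
    have hconj : ∀ R ∈ Δ, R ≤ H → ¬ H ≤ R → ∀ h ∈ H, h ∉ normalizer (R : Set S) →
        (∀ a ∈ R, ∀ b ∈ R, a * (h * b * h⁻¹) = h * b * h⁻¹ * a) ∧
        ∀ a ∈ R, h * a * h⁻¹ ∈ R → a = 1 := by
      intro R hR hRH hne h hh hn
      obtain ⟨M, hM, hM'⟩ := exists_proper_normal hS hRH hne
      have hne' : R ≠ R.map (MulAut.conj h).toMonoidHom := fun e => hn (map_conj_eq_iff.mp e.symm)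
      have := ih _ (hH ▸ hM) M rfl R hR _ (hinv h R hR) (map_conj_one R ▸ hM' 1 (one_mem _))
        (hM' h hh) hne'
      rw [commutator_eq_bot_iff_comm] at this
      refine ⟨fun a ha b hb => this a ha _ (conj_mem_map_conj h hb), fun a ha ha' => ?_⟩
      have h1 := (hti R hR _ (hinv h R hR)).resolve_left hne'
      have h2 : h * a * h⁻¹ = 1 := mem_bot.mp (h1 ▸ mem_inf.mpr ⟨ha', conj_mem_map_conj h ha⟩)
      simpa using h2
    have hti' : ∀ R ∈ Δ, ∀ g : S, R.map (MulAut.conj g).toMonoidHom = R ∨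
        R.map (MulAut.conj g).toMonoidHom ⊓ R = ⊥ := fun R hR g => hti _ (hinv g R hR) R hR
    have hlt : ∀ R ∈ Δ, ∀ T ∈ Δ, T ≤ H → R ≠ T → ¬ H ≤ R := fun R hR T hT hTH hne h =>
      hne (Cfsg.Agent.H5.eq_of_le_of_card_le (hTH.trans h) (hord R hR T hT).le).symm
    have hnorm : ∀ R ∈ Δ, ∀ T ∈ Δ, R ≠ T → T ≤ normalizer (R : Set S) → ⁅R, T⁆ = ⊥ :=
      fun R hR T hT hne h => Cfsg.Agent.S1757.result 2 R T (hS.to_subgroup _) (hS.to_subgroup _)
        (hti' R hR) (hti' T hT) (hord R hR T hT).le ((hti R hR T hT).resolve_left hne) h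
    have hT0 : ∀ R ∈ Δ, ∀ T ∈ Δ, R ≤ H → T ≤ H → R ≠ T → ⁅R, T⁆ ≠ ⊥ →
        ∀ x ∈ T, x ∈ normalizer (R : Set S) → x = 1 := by
      intro R hR T hT hRH hTH hne hc x0 hx0 hx0'
      by_contra hx1
      obtain ⟨t, ht, ht0, htn⟩ := exists_mem_normalizer_not_mem (K := T)
        (H := T ⊓ normalizer (R : Set S)) (hS.to_subgroup T).isNilpotent inf_le_left
        (fun h => hc (hnorm R hR T hT hne (h.trans inf_le_right)))
      obtain ⟨x, hx, hx1, hxt, -⟩ := exists_ne_one_centralized (P := zpowers t)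
        (hS.to_subgroup _) (hS.to_subgroup (T ⊓ normalizer (R : Set S))) (zpowers_le.mpr htn)
        (fun h => hx1 (mem_bot.mp (h ▸ mem_inf.mpr ⟨hx0, hx0'⟩)))
      have hxt' := hxt t (mem_zpowers t)
      obtain ⟨r, hr, hrn⟩ := SetLike.not_le_iff_exists.mp (fun h => hc (by
        rw [commutator_comm]; exact hnorm T hT R hR hne.symm h))
      obtain ⟨h1, h2⟩ := hconj T hT hTH (hlt T hT R hR hRH hne.symm) r (hRH hr) hrn
      obtain ⟨-, h4⟩ := hconj R hR hRH (hlt R hR T hT hTH hne) t (hTH ht)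
        (fun h => ht0 ⟨ht, h⟩)
      have hd : r * x * r⁻¹ * x⁻¹ ∈ R := by
        rw [mul_assoc, mul_assoc, ← mul_assoc x]
        exact mul_mem hr (conj_mem_of_mem_normalizer hx.2 (inv_mem hr))
      have hd1 := h4 _ hd (by
        rw [← mul_assoc, h1 t ht x hx.1, mul_assoc _ t, (Commute.inv_right hxt').eq, ← mul_assoc,
          mul_inv_cancel_right]
        exact hd)
      exact hx1 (h2 x hx.1 (by rw [mul_inv_eq_one.mp hd1]; exact hx.1))
    intro R hR T hT hRH hTH hne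
    by_contra hc
    obtain ⟨r, hr, hr2⟩ := exists_sq_ne_one_of_frattini (hΦ R hR)
    obtain ⟨t, ht, ht1, ht2⟩ := exists_involution_of_ne_bot (hS.to_subgroup T) (by
      rintro rfl; exact hc (commutator_bot_right _))
    obtain ⟨h1, -⟩ := hconj T hT hTH (hlt T hT R hR hRH hne.symm) r (hRH hr) (fun h => hr2 (by
      rw [hT0 T hT R hR hTH hRH hne.symm (by rwa [commutator_comm]) r hr h, one_mul]))
    obtain ⟨h3, h4⟩ := hconj R hR hRH (hlt R hR T hT hTH hne) t (hTH ht)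
      (fun h => ht1 (hT0 R hR T hT hRH hTH hne hc t ht h))
    apply hr2
    apply h4 _ (mul_mem hr hr)
    have e1 := h1 t ht t ht
    have e2 := h3 r hr r⁻¹ (inv_mem hr)
    have hti' : t⁻¹ = t := inv_eq_of_mul_eq_one_right ht2
    have e3 : r * (t * r⁻¹ * t⁻¹) * (r * (t * r⁻¹ * t⁻¹)) = 1 := by
      calc r * (t * r⁻¹ * t⁻¹) * (r * (t * r⁻¹ * t⁻¹))
          = (r * t * r⁻¹) * (t * (r * t * r⁻¹)) * t := by rw [hti']; group
        _ = r * (t * t) * r⁻¹ * (t * t) := by rw [e1]; group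
        _ = 1 := by rw [ht2]; group
    have e4 : t * (r * r) * t⁻¹ = r * r := by
      calc t * (r * r) * t⁻¹ = r * (t * r⁻¹ * t⁻¹) * (r * (t * r⁻¹ * t⁻¹)) * (t * (r * r) * t⁻¹) := by
            rw [e3, one_mul]
        _ = r * ((t * r⁻¹ * t⁻¹) * r) * (t * r * t⁻¹) := by group
        _ = r * r := by rw [← e2]; group
    rw [e4]; exact mul_mem hr hr
  exact fun R hR T hT => key _ ⊤ rfl R hR T hT le_top le_top

end Cfsg.Agent.S1782
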