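import Cfsg.Statements.S1783
import Cfsg.Agent.H9.Extra
import Cfsg.Agent.S1782
import Cfsg.Agent.H7.FStar
import Cfsg.Agent.H8.PxQ
import Cfsg.Agent.H4.BaerSuzuki

set_option autoImplicit false
open Cfsg

namespace Cfsg.Agent.S1783

open Subgroup Cfsg.Agent.H9

theorem amb {G : Type*} [Group G] [Finite G] (S : Subgroup G) (hS : IsPGroup 2 S)
    (A : Subgroup G) (H : Subgroup G) (hSH : S ≤ H)
    (hle : ∀ g ∈ H, A.map (MulAut.conj g).toMonoidHom ≤ S)
    (hΦ : ∃ a ∈ A, a * a ≠ 1) (hA : ∀ a ∈ A, ∀ b ∈ A, a * b = b * a)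
    (hti : ∀ h : G, A.map (MulAut.conj h).toMonoidHom = A ∨
      A.map (MulAut.conj h).toMonoidHom ⊓ A = ⊥) :
    ∀ g ∈ H, ∀ a ∈ A, ∀ b ∈ A, a * (g * b * g⁻¹) = g * b * g⁻¹ * a := by
  have key := Cfsg.Agent.S1782.result hS
    {R | ∃ g ∈ H, R.map S.subtype = A.map (MulAut.conj g).toMonoidHom} ?_ ?_ ?_ ?_
  · intro g hg a ha b hb
    by_cases h : A.map (MulAut.conj g).toMonoidHom = A
    · exact hA a ha _ (h ▸ conj_mem_map_conj g hb)
    have hAS : A ≤ S := map_conj_one A ▸ hle 1 (one_mem _)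
    have := key (A.subgroupOf S) ⟨1, one_mem _, by
      rw [map_conj_one, subgroupOf_map_subtype, inf_eq_left.mpr hAS]⟩
      ((A.map (MulAut.conj g).toMonoidHom).subgroupOf S) ⟨g, hg, by
      rw [subgroupOf_map_subtype, inf_eq_left.mpr (hle g hg)]⟩ (fun e => h (by
        have := congrArg (map S.subtype) e
        rwa [subgroupOf_map_subtype, subgroupOf_map_subtype, inf_eq_left.mpr (hle g hg),
          inf_eq_left.mpr hAS, eq_comm] at this))
    rw [commutator_eq_bot_iff_comm] at this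
    exact congrArg Subtype.val (this ⟨a, hAS ha⟩ ha ⟨_, hle g hg (conj_mem_map_conj g hb)⟩
      (conj_mem_map_conj g hb))
  · rintro s R ⟨g, hg, hR⟩
    refine ⟨s * g, mul_mem (hSH s.2) hg, ?_⟩
    rw [← map_conj_map_conj, ← hR, map_map, map_map]
    congr 1
  · rintro R ⟨g, hg, hR⟩ h
    obtain ⟨a, ha, ha2⟩ := hΦ
    obtain ⟨r, hr, hr'⟩ := hR ▸ conj_mem_map_conj g ha
    have := Cfsg.Agent.H5.pow_mem_frattini (hS.to_subgroup R) ⟨r, hr⟩
    rw [h, mem_bot] at this
    have h2 : (r : G) ^ 2 = 1 := congrArg (fun x => x.1.1) this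
    rw [show (r : G) = g * a * g⁻¹ from hr', conj_pow] at h2
    exact ha2 (by simpa [pow_two] using h2)
  · rintro R ⟨g, hg, hR⟩ T ⟨g', hg', hT⟩
    rw [← card_map_of_injective S.subtype_injective, ← card_map_of_injective (K := T)
      S.subtype_injective, hR, hT, card_map_conj, card_map_conj]
  · rintro R ⟨g, hg, hR⟩ T ⟨g', hg', hT⟩
    rcases hti (g'⁻¹ * g) with h | h
    · left
      apply map_injective S.subtype_injective
      rw [hR, hT]
      nth_rewrite 2 [← h]
      rw [map_conj_map_conj, mul_inv_cancel_left]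
    · right
      rw [eq_bot_iff] at h ⊢
      intro x hx
      have h1 := mem_map_conj.mp (hR ▸ mem_map_of_mem S.subtype hx.1)
      have h2 := mem_map_conj.mp (hT ▸ mem_map_of_mem S.subtype hx.2)
      have := mem_bot.mp (h ⟨mem_map_conj.mpr (by simpa [mul_assoc] using h1), h2⟩)
      rw [mem_bot]
      ext
      have e : (x : G) = g' * (g'⁻¹ * S.subtype x * g') * g'⁻¹ := by simp [mul_assoc]
      rw [e, this]; simp

theorem mem_pCore_of {X : Type*} [Group X] [Finite X]
    (hX : Cfsg.generalizedFittingSubgroup X = Cfsg.pCore 2 X) {b : X}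
    (hb : ∀ q ∈ Cfsg.pCore 2 X, q * b * q⁻¹ * b⁻¹ ∈
      (frattini (Cfsg.pCore 2 X)).map (Cfsg.pCore 2 X).subtype) : b ∈ Cfsg.pCore 2 X := by
  have hC := Cfsg.Agent.H7.fstar_eq_pCore_iff_centralizer_le.mp hX
  have hQ := Cfsg.Agent.H4.isPGroup_pCore 2 X
  haveI hΦ : ((frattini (Cfsg.pCore 2 X)).map (Cfsg.pCore 2 X).subtype).Normal := inferInstance
  have hn : (Cfsg.pCore 2 X).Normal := inferInstance
  let D : Subgroup X :=
    { carrier := {b | ∀ q ∈ Cfsg.pCore 2 X, q * b * q⁻¹ * b⁻¹ ∈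
        (frattini (Cfsg.pCore 2 X)).map (Cfsg.pCore 2 X).subtype}
      mul_mem' := by
        intro a b ha hb q hq
        have := mul_mem (ha q hq) (hΦ.conj_mem _ (hb q hq) a)
        convert this using 1; group
      one_mem' := by intro q hq; simp
      inv_mem' := by
        intro a ha q hq
        have := inv_mem (hΦ.conj_mem _ (ha q hq) a⁻¹)
        convert this using 1; group }
  have hDn : D.Normal := ⟨fun a ha g q hq => by
    have := hΦ.conj_mem _ (ha _ (hn.conj_mem q hq g⁻¹)) g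
    convert this using 1; group⟩
  refine Cfsg.Agent.H4.le_pCore hDn ?_ (show b ∈ D from hb)
  rintro ⟨x, hx⟩
  obtain ⟨k, m, hm, h⟩ := Nat.exists_eq_pow_mul_and_not_dvd (orderOf_pos x).ne' 2 (by norm_num)
  have hodd : ¬ 2 ∣ Nat.card (zpowers (x ^ 2 ^ k)) := by
    rw [Nat.card_zpowers]
    exact fun h' => hm (h'.trans (orderOf_dvd_of_pow_eq_one (by
      rw [← pow_mul, ← h, pow_orderOf_eq_one])))
  have h1 := (Cfsg.Agent.H8.CopAct.of_pgroup_right hodd hQ (by
    rw [normalizer_eq_top]; exact le_top)).le_centralizer_of_commutator_le_frattini (by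
      rw [commutator_le]
      intro q hq y hy
      exact (zpowers_le.mpr (pow_mem hx (2 ^ k)) : zpowers _ ≤ D) hy q hq)
  have h2 : x ^ 2 ^ k ∈ Cfsg.pCore 2 X := hC fun q hq => (h1 hq _ (mem_zpowers _)).symm
  obtain ⟨j, hj⟩ := exists_pow_eq_one_of_mem hQ h2
  exact ⟨k + j, Subtype.ext (by simpa [pow_add, pow_mul] using hj)⟩

/-- Let X be a finite group whose generalized Fitting subgroup equals its largest normal 2-subgroup Q, and let A be an abelian 2-subgroup of X such that every conjugate of A equals A or meets A trivially. Let B be the subgroup generated by the squares of the elements of A. Then B lies in Q, and if B is not an elementary abelian 2-group then the normal closure of B in X is commutative. -/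
theorem result {X : Type*} [Group X] [Finite X]
    (hX : Cfsg.generalizedFittingSubgroup X = Cfsg.pCore 2 X) (A : Subgroup X) (hA2 : IsPGroup 2 ↥A) (hAa : IsMulCommutative ↥A)
    (hti : ∀ h : X, A.map (MulAut.conj h).toMonoidHom = A ∨ A.map (MulAut.conj h).toMonoidHom ⊓ A = ⊥) :
    Subgroup.closure ((fun a : X => a ^ 2) '' (A : Set X)) ≤ Cfsg.pCore 2 X ∧
      (¬ Cfsg.IsElementaryAbelian 2 (Subgroup.closure ((fun a : X => a ^ 2) '' (A : Set X))) →
        IsMulCommutative ↥(Subgroup.normalClosure ((fun a : X => a ^ 2) '' (A : Set X)))) := by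
  have hQ := Cfsg.Agent.H4.isPGroup_pCore 2 X
  have hn : (Cfsg.pCore 2 X).Normal := inferInstance
  have hAc : ∀ a ∈ A, ∀ b ∈ A, a * b = b * a := fun a ha b hb => comm_of_isMulCommutative hAa ha hb
  have h1 : closure ((fun a : X => a ^ 2) '' (A : Set X)) ≤ Cfsg.pCore 2 X := by
    rw [closure_le]
    rintro _ ⟨a, ha, rfl⟩
    by_cases ha2 : a * a = 1
    · show a ^ 2 ∈ _
      rw [pow_two, ha2]; exact one_mem _
    apply mem_pCore_of hX
    intro q hq
    have := amb (A ⊔ Cfsg.pCore 2 X) (hA2.to_sup_of_normal_right hQ) A _ le_rfl (fun g hg => by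
      rw [map_conj_le_iff]
      exact fun x hx => mul_mem (mul_mem hg (mem_sup_left hx)) (inv_mem hg)) ⟨a, ha, ha2⟩ hAc hti
      q (mem_sup_right hq) a⁻¹ (inv_mem ha) a ha
    have hc : q * a * q⁻¹ * a⁻¹ ∈ Cfsg.pCore 2 X := by
      have := mul_mem hq (hn.conj_mem _ (inv_mem hq) a)
      simpa [mul_assoc] using this
    have h2 := mul_self_mem_map_frattini hQ hc
    rw [mul_assoc, ← mul_assoc a⁻¹, this] at h2
    convert h2 using 1
    simp only [pow_two]; group
  refine ⟨h1, fun hne => ?_⟩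
  have hB : ∀ b, b ∈ closure ((fun a : X => a ^ 2) '' (A : Set X)) ↔ ∃ a ∈ A, a ^ 2 = b := by
    intro b
    refine ⟨fun hb => ?_, fun ⟨a, ha, h⟩ => subset_closure ⟨a, ha, h⟩⟩
    induction hb using closure_induction with
    | mem x hx => exact hx
    | one => exact ⟨1, one_mem _, by simp⟩
    | mul x y _ _ hx hy =>
      obtain ⟨a, ha, rfl⟩ := hx
      obtain ⟨b, hb, rfl⟩ := hy
      exact ⟨a * b, mul_mem ha hb, Commute.mul_pow (hAc a ha b hb) 2⟩
    | inv x _ hx =>
      obtain ⟨a, ha, rfl⟩ := hx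
      exact ⟨a⁻¹, inv_mem ha, by simp⟩
  have hBA : closure ((fun a : X => a ^ 2) '' (A : Set X)) ≤ A := by
    intro b hb
    obtain ⟨a, ha, rfl⟩ := (hB b).mp hb
    exact pow_mem ha 2
  rw [isElementaryAbelian_two_iff] at hne
  push Not at hne
  have key := amb (Cfsg.pCore 2 X) hQ (closure ((fun a : X => a ^ 2) '' (A : Set X))) ⊤ le_top
    (fun g _ => map_conj_le_iff.mpr fun x hx => hn.conj_mem x (h1 hx) g)
    (by simpa [pow_two] using hne) (fun a ha b hb => hAc a (hBA ha) b (hBA hb)) (by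
      intro h
      rcases hti h with e | e
      · left
        apply map_conj_eq_iff.mpr
        apply mem_normalizer_of_conj_mem
        intro x hx
        obtain ⟨a, ha, rfl⟩ := (hB x).mp hx
        exact (hB _).mpr ⟨_, conj_mem_of_mem_normalizer (map_conj_eq_iff.mp e) ha, conj_pow⟩
      · right
        rw [eq_bot_iff, ← e]
        exact inf_le_inf (map_mono hBA) hBA)
  apply isMulCommutative_closure
  intro x hx y hy
  obtain ⟨a, ha, hx⟩ := Group.mem_conjugatesOfSet_iff.mp hx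
  obtain ⟨b, hb, hy⟩ := Group.mem_conjugatesOfSet_iff.mp hy
  obtain ⟨g, rfl⟩ := isConj_iff.mp hx
  obtain ⟨g', rfl⟩ := isConj_iff.mp hy
  have := key (g⁻¹ * g') (mem_top _) a (subset_closure ha) b (subset_closure hb)
  calc g * a * g⁻¹ * (g' * b * g'⁻¹) = g * (a * (g⁻¹ * g' * b * (g⁻¹ * g')⁻¹)) * g⁻¹ := by group
    _ = _ := by rw [this]; group

end Cfsg.Agent.S1783
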