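import Cfsg.Statements.S0998
import Cfsg.Agent.H6.Tuan

set_option autoImplicit false
open Cfsg

namespace Cfsg.Agent.S0998

theorem eq_two {q r b : ℕ} (hq : q.Prime) (hr : r.Prime) (h : 4 ∣ q ^ b * r) : q = 2 := by
  by_contra h1
  have h2 := (Nat.Coprime.pow 2 b ((Nat.coprime_primes Nat.prime_two hq).mpr
    (Ne.symm h1))).dvd_of_dvd_mul_left h
  rcases (Nat.dvd_prime hr).mp h2 with h | h
  · omega
  · exact absurd (h ▸ hr) (by norm_num)

theorem dvd_of_odd {u b r : ℕ} (hu : ¬ 2 ∣ u) (h : u ∣ 2 ^ b * r) : u ∣ r :=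
  (Nat.Coprime.pow_right b ((Nat.Prime.coprime_iff_not_dvd Nat.prime_two).mpr
    hu).symm).dvd_of_dvd_mul_left h

theorem aux {G : Type*} [Group G] [Finite G] [IsSimpleGroup G] (hG : ¬ IsCyclic G) (p q r b : ℕ) (hp : p.Prime) (hq : q.Prime) (hr : r.Prime) (hpq : p ≠ q) (hpr : r < p) (hqr : q ≠ r) (hG' : Nat.card G = p * r * q ^ b) : (∃ (F : Type) (_ : Field F) (_ : Fintype F), Fintype.card F = 5 ∧ Nonempty (G ≃* Matrix.ProjectiveSpecialLinearGroup (Fin 2) F)) ∨ (∃ (F : Type) (_ : Field F) (_ : Fintype F), Fintype.card F = 7 ∧ Nonempty (G ≃* Matrix.ProjectiveSpecialLinearGroup (Fin 2) F)) := by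
  have := Fact.mk hp
  have h0 := H6.not_isMulCommutative_of_not_isCyclic hG
  by_cases h : r < p - 1
  swap
  · exfalso
    obtain rfl : r = 2 := by
      by_contra h1
      have := hp.eq_two_or_odd
      have := hr.eq_two_or_odd
      have := hr.two_le
      omega
    obtain rfl : p = 3 := by omega
    obtain ⟨s, c, hs, -, -, h1, h2, h3⟩ := H6.exists_prime_dvd_pow_sub_one (p := 2)
      (H6.perfect_of_simple h0) (hG' ▸ (dvd_mul_left _ _).mul_right _)
    obtain rfl : c = 1 := by
      by_contra h4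
      have h5 := (pow_dvd_pow 2 (show 2 ≤ c by omega)).trans h2
      have h6 : ¬ 2 ∣ q ^ b := fun h => hqr ((Nat.prime_dvd_prime_iff_eq Nat.prime_two hq).mp
        (Nat.prime_two.dvd_of_dvd_pow h)).symm
      omega
    exact hs.not_dvd_one h3
  obtain ⟨h1, m, ⟨-, h2, h3⟩ | ⟨h2, h3, -⟩⟩ :=
    H6.tuan.{_, 0} h0 (b := b) hq hpq (by rw [hG']; ring) h
  · obtain ⟨k, hk⟩ : ∃ k, p = 2 * k + 1 := (hp.eq_two_or_odd'.resolve_left (by omega))
    have h4 : q ^ b * r = 2 * (k * (k + 1)) := by
      rw [hG', show p - 1 = 2 * k by omega, show p + 1 = 2 * (k + 1) by omega] at h2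
      exact Nat.eq_of_mul_eq_mul_left (show 0 < 2 * p by omega) (by linarith)
    obtain rfl := eq_two hq hr (h4 ▸ Nat.mul_dvd_mul_left 2 (Nat.even_mul_succ_self k).two_dvd)
    obtain rfl : 3 = r := by
      refine (Nat.prime_dvd_prime_iff_eq Nat.prime_three hr).mp (dvd_of_odd (b := b) (by norm_num) ?_)
      have h5 : ¬ 3 ∣ p := fun h => by
        have := (Nat.prime_dvd_prime_iff_eq Nat.prime_three hp).mp h
        omega
      rw [h4]
      have : 3 ∣ k ∨ 3 ∣ k + 1 := by
        rcases (show k % 3 = 0 ∨ k % 3 = 1 ∨ k % 3 = 2 by omega) with h | h | h <;> omega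
      exact ((Nat.Prime.dvd_mul Nat.prime_three).mpr this).mul_left _
    have h5 : k ≤ 3 := by
      by_cases h5 : 2 ∣ k
      · have := Nat.le_of_dvd (by norm_num) (dvd_of_odd (u := k + 1) (b := b) (r := 3) (by omega)
          (by rw [h4]; exact (dvd_mul_left _ _).mul_left _))
        omega
      · exact Nat.le_of_dvd (by norm_num) (dvd_of_odd (b := b) h5
          (by rw [h4]; exact (dvd_mul_right _ _).mul_left _))
    have h6 : p = 5 ∨ p = 7 := by omega
    rcases h6 with rfl | rfl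
    · exact Or.inl ⟨ZMod 5, inferInstance, inferInstance, ZMod.card 5, h3 _ (ZMod.card 5)⟩
    · exact Or.inr ⟨ZMod 7, inferInstance, inferInstance, ZMod.card 7, h3 _ (ZMod.card 7)⟩
  · have h4 : q ^ b * r = 2 ^ m * (p - 2) := by
      rw [hG', show p - 1 = 2 ^ m by omega] at h3
      exact Nat.eq_of_mul_eq_mul_left hp.pos (by linarith)
    have h5 : 4 ∣ 2 ^ m := pow_dvd_pow 2 (show 2 ≤ m by
      by_contra h
      interval_cases m <;> omega)
    obtain rfl := eq_two hq hr (h4 ▸ h5.mul_right _)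
    have h6 := ((Nat.dvd_prime hr).mp (dvd_of_odd (u := p - 2) (b := b) (by omega)
      (by rw [h4]; exact dvd_mul_left _ _))).resolve_left (by omega)
    obtain rfl : 3 = r := by
      refine (Nat.prime_dvd_prime_iff_eq Nat.prime_three hr).mp ?_
      have h5 : ¬ 3 ∣ p := fun h => by
        have := (Nat.prime_dvd_prime_iff_eq Nat.prime_three hp).mp h
        omega
      have h7 : ¬ 3 ∣ 2 ^ m := fun h => absurd (Nat.prime_three.dvd_of_dvd_pow h) (by norm_num)
      rcases (show r % 3 = 0 ∨ r % 3 = 1 ∨ r % 3 = 2 by omega) with h | h | h <;> omega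
    obtain rfl : p = 5 := by omega
    refine Or.inl ⟨ZMod 5, inferInstance, inferInstance, ZMod.card 5,
      H6.psl_of_card_sylow (ZMod.card 5) h0 ?_ (by rw [h3])⟩
    have h7 := H6.card_sylow_dvd_of (p := 5) (k := 1) (m := 12) h3 (by norm_num)
    have h8 := H6.card_sylow_ne_one h0 (p := 5) (by rw [h3]; norm_num)
    have h9 := card_sylow_modEq_one 5 G
    have h10 := Nat.le_of_dvd (by norm_num) h7
    unfold Nat.ModEq at h9
    generalize Nat.card (Sylow 5 G) = n at *
    interval_cases n <;> omega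

/-- A non-cyclic finite simple group whose order has the form p * r * q^b for distinct primes p, q, r is isomorphic to the projective special linear group of dimension 2 over the field with 5 or with 7 elements. -/
theorem result {G : Type*} [Group G] [Finite G] [IsSimpleGroup G] (hG : ¬ IsCyclic G) (p q r b : ℕ) (hp : p.Prime) (hq : q.Prime) (hr : r.Prime) (hpq : p ≠ q) (hpr : p ≠ r) (hqr : q ≠ r) (hG' : Nat.card G = p * r * q ^ b) : (∃ (F : Type) (_ : Field F) (_ : Fintype F), Fintype.card F = 5 ∧ Nonempty (G ≃* Matrix.ProjectiveSpecialLinearGroup (Fin 2) F)) ∨ (∃ (F : Type) (_ : Field F) (_ : Fintype F), Fintype.card F = 7 ∧ Nonempty (G ≃* Matrix.ProjectiveSpecialLinearGroup (Fin 2) F)) := by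
  rcases lt_or_gt_of_ne hpr with h | h
  · exact aux hG r q p b hr hq hp hqr.symm h hpq.symm (by rw [hG', mul_comm p])
  · exact aux hG p q r b hp hq hr hpq h hqr hG'

end Cfsg.Agent.S0998
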