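import Cfsg.Statements.S0371
import Cfsg.Agent.H1.M24

set_option autoImplicit false
open Cfsg

namespace Cfsg.Agent.S0371

theorem aux : ∀ r : ZMod 23, r ≠ 0 → ∃ c ∈ [984818244535754528103549039458486304,
    983435072843990828779021698901151808, 982051901153124072706648311500937312,
    980668730378935070469623699575545984, 977903326592794432676351619257413824,
    975166140090675008210365318152896768, 973782968399780250007192978068752672,
    970567384681219435340729552166356352, 969184212989482915311201746032266656,
    965063883269089610517257152230401536, 962298451038133363011374430748423744],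
    H1.inM24 c = true ∧ ∀ p : GolayPt, H1.ix (p.map fun x => r * r * x) = H1.ap c (H1.ix p) := by
  decide +kernel

/-- Multiplication by a nonzero square residue modulo 23, fixing the extra point, lies in the group of the length-24 code. -/
theorem result (u : (ZMod 23)ˣ) (hu : IsSquare u) : Equiv.optionCongr (Units.mulLeft u) ∈ Cfsg.M24 := by
  obtain ⟨r, rfl⟩ := hu
  haveI : Fact (Nat.Prime 23) := ⟨by norm_num⟩
  obtain ⟨c, -, h1, h2⟩ := aux r r.ne_zero
  exact H1.Rep.mem_M24 (c := c) h2 h1

end Cfsg.Agent.S0371
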