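import Cfsg.Statements.S0375
import Cfsg.Agent.H2.GolayLike
import Cfsg.Agent.H1.Golay

set_option autoImplicit false
open Cfsg

namespace Cfsg.Agent.S0375

/-- A doubly even self-dual binary code of length 24 with no words of weight 4 is equivalent to the length-24 code built from the squares modulo 23. -/
theorem result (C : Submodule (ZMod 2) (Fin 24 → ZMod 2)) (hdim : Module.finrank (ZMod 2) C = 12) (horth : ∀ v ∈ C, ∀ w ∈ C, ∑ i, v i * w i = 0) (h4 : ∀ w ∈ C, 4 ∣ hammingNorm w) (hno4 : ∀ w ∈ C, hammingNorm w ≠ 4) : ∃ e : Fin 24 ≃ Cfsg.GolayPt, ∀ w : Cfsg.GolayPt → ZMod 2, w ∈ Cfsg.golayCode ↔ (fun i => w (e i)) ∈ C := by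
  have h1 : H2.GolayLike (supports (C : Set (Fin 24 → ZMod 2))) := by
    refine ⟨by simp, ?_, ?_, ?_, ?_⟩
    · rintro _ ⟨v, hv, rfl⟩ _ ⟨w, hw, rfl⟩
      exact ⟨v + w, C.add_mem hv hw, H1.support₂_add v w⟩
    · rw [supports, Set.ncard_image_of_injective _ H1.support₂_injective]
      have h := Module.natCard_eq_pow_finrank (K := ZMod 2) (V := C)
      rw [hdim, Nat.card_zmod] at h
      exact h
    · rintro _ ⟨v, hv, rfl⟩
      rw [H1.card_support₂]; exact h4 v hv
    · rintro _ ⟨v, hv, rfl⟩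
      rw [H1.card_support₂]; exact hno4 v hv
  have h2 : H2.GolayLike H1.GC := by
    refine ⟨H1.card_golayPt, fun s hs t ht => H1.symmDiff_mem_GC hs ht, H1.ncard_GC_eq, ?_, ?_⟩
    · intro s hs
      have := H1.card_of_mem_GC hs
      omega
    · intro s hs
      have := H1.card_of_mem_GC hs
      omega
  obtain ⟨e, he⟩ := h1.iso h2
  refine ⟨e, fun w => ?_⟩
  rw [← H1.support₂_mem_GC, ← he, H2.mem_mapSys]
  have : (support₂ w).image e.symm = support₂ (fun i => w (e i)) := by
    ext i
    simp only [Finset.mem_image, H1.mem_support₂]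
    constructor
    · rintro ⟨a, ha, rfl⟩
      simpa using ha
    · intro h
      exact ⟨e i, h, by simp⟩
  rw [this]
  exact H1.support₂_injective.mem_set_image

end Cfsg.Agent.S0375
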