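import Cfsg.Statements.S0384
import Cfsg.Agent.H1.Mathieu

set_option autoImplicit false
open scoped Pointwise
open Cfsg

namespace Cfsg.Agent.S0384

/-- A dodecad stabiliser is sharply 5-transitive on the dodecad. -/
theorem result (d : Finset Cfsg.GolayPt) (hd : d ∈ Cfsg.dodecads) (x y : Fin 5 ↪ Cfsg.GolayPt) (hx : ∀ i, x i ∈ d) (hy : ∀ i, y i ∈ d) : ∃! g : MulAction.stabilizer Cfsg.M24 d, ∀ i, ((g : Cfsg.M24) : Equiv.Perm Cfsg.GolayPt) (x i) = y i := by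
  obtain ⟨g, hg, e1, e2⟩ := H1.dodecad_exists_map hd hd (List.ofFn x) (List.ofFn y)
    (List.nodup_ofFn.mpr x.injective) (List.nodup_ofFn.mpr y.injective) (by simp) (by simp)
    (List.forall_mem_ofFn_iff.mpr hx) (List.forall_mem_ofFn_iff.mpr hy)
  rw [List.map_ofFn, List.ofFn_inj] at e2
  refine ⟨⟨⟨g, hg⟩, e1⟩, fun i => congrFun e2 i, fun k hk => ?_⟩
  have h := H1.eq_one_of_fix_dodecad hd (x := List.ofFn x) (List.nodup_ofFn.mpr x.injective)
    (by simp) (List.forall_mem_ofFn_iff.mpr hx) (g := g⁻¹ * k.1.1)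
    ⟨(H1.stabS d).mul_mem ((H1.stabS d).inv_mem ⟨hg, e1⟩) ⟨k.1.2, k.2⟩, by
      intro p hp
      obtain ⟨i, rfl⟩ := List.mem_ofFn.mp hp
      rw [Equiv.Perm.mul_apply, Equiv.Perm.inv_eq_iff_eq, hk i]
      exact (congrFun e2 i).symm⟩
  exact Subtype.ext (Subtype.ext (inv_mul_eq_one.mp h).symm)

end Cfsg.Agent.S0384
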