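import Cfsg.Statements.S0385
import Cfsg.Agent.H1.Mathieu

set_option autoImplicit false
open Cfsg

namespace Cfsg.Agent.S0385

/-- The 6-point intersections of octads with a fixed dodecad form a Steiner system S(5, 6, 12) on the dodecad. -/
theorem result (d : Finset Cfsg.GolayPt) (hd : d ∈ Cfsg.dodecads) : Cfsg.IsSteinerSystem 5 6 {h : Finset {p : Cfsg.GolayPt // p ∈ d} | ∃ o ∈ Cfsg.octads, (o ∩ d).card = 6 ∧ h = Finset.subtype (fun p => p ∈ d) o} := by
  refine ⟨?_, fun s hs => ?_⟩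
  · rintro _ ⟨o, -, h6, rfl⟩
    rw [Finset.card_subtype, Finset.filter_mem_eq_inter, h6]
  · have h5 : (s.map (Function.Embedding.subtype _)).card = 5 := by rw [Finset.card_map, hs]
    obtain ⟨o, ⟨ho, hso⟩, hu⟩ := H1.octads_steiner.2 _ h5
    have hsub : ∀ o' : Finset GolayPt, s ⊆ Finset.subtype (fun p => p ∈ d) o' ↔
        s.map (Function.Embedding.subtype _) ⊆ o' := by
      intro o'
      simp only [Finset.subset_iff, Finset.mem_subtype, Finset.mem_map,
        Function.Embedding.coe_subtype]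
      exact ⟨fun h _ ⟨a, ha, e⟩ => e ▸ h ha, fun h a ha => h ⟨a, ha, rfl⟩⟩
    refine ⟨_, ⟨⟨o, ho, ?_, rfl⟩, (hsub o).mpr hso⟩, ?_⟩
    · have h1 := H1.card_inter_octad_dodecad ho hd
      have h2 : 5 ≤ (o ∩ d).card := by
        rw [← h5]
        refine Finset.card_le_card (Finset.subset_inter hso fun p hp => ?_)
        obtain ⟨a, -, rfl⟩ := Finset.mem_map.mp hp
        exact a.2
      omega
    · rintro _ ⟨⟨o', ho', -, rfl⟩, h⟩
      rw [hu o' ⟨ho', (hsub o').mp h⟩]

end Cfsg.Agent.S0385
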