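import Cfsg.Statements.S0403
import Cfsg.Agent.H3.Conway

set_option autoImplicit false
open Cfsg

namespace Cfsg.Agent.S0403

/-- Stabiliser of a vector of sum of squares 48 is simple of order 495766656000. -/
theorem result (v : Cfsg.leechLattice) (hv : Cfsg.sqNorm (v : Cfsg.GolayPt → ℤ) = 48) : Cfsg.IsCo3 (MulAction.stabilizer Cfsg.Co0 v) := by
  obtain ⟨g, hg⟩ := H3.exists_smul_eq_vV (v := v) hv
  have e := MulAction.stabilizerEquivStabilizerOfOrbitRel (G := Cfsg.Co0) (a := v) (b := H3.vV)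
    ⟨g, hg⟩
  have := H3.simple_GV
  exact ⟨e.isSimpleGroup, (Nat.card_congr e.toEquiv).trans H3.GV_facts.1⟩

end Cfsg.Agent.S0403
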