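import Cfsg.Statements.S0405
import Cfsg.Agent.H3.Conway

set_option autoImplicit false
open Cfsg

namespace Cfsg.Agent.S0405

/-- Joint stabiliser of two vectors of sum of squares 48 with coordinate dot product −32 is simple of order 44352000. -/
theorem result (v w : Cfsg.leechLattice) (hv : Cfsg.sqNorm (v : Cfsg.GolayPt → ℤ) = 48) (hw : Cfsg.sqNorm (w : Cfsg.GolayPt → ℤ) = 48) (hvw : Cfsg.dotInt (v : Cfsg.GolayPt → ℤ) (w : Cfsg.GolayPt → ℤ) = -32) : Cfsg.IsHS ↥(MulAction.stabilizer Cfsg.Co0 v ⊓ MulAction.stabilizer Cfsg.Co0 w) := by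
  have hz : v + w ∈ H3.sh 32 := by
    change Cfsg.sqNorm ((v : Cfsg.GolayPt → ℤ) + (w : Cfsg.GolayPt → ℤ)) = 32
    rw [H3.sqNorm_add, hv, hw, hvw]; rfl
  have hd : Cfsg.dotInt ((v + w : Cfsg.leechLattice) : Cfsg.GolayPt → ℤ) (v : Cfsg.GolayPt → ℤ) = 16 := by
    rw [AddSubgroup.coe_add, H3.dotInt_add_left, H3.dotInt_comm (w : Cfsg.GolayPt → ℤ), hvw,
      H3.dotInt_self, hv]; rfl
  have hs : MulAction.stabilizer Cfsg.Co0 v ⊓ MulAction.stabilizer Cfsg.Co0 w =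
      MulAction.stabilizer Cfsg.Co0 v ⊓ MulAction.stabilizer Cfsg.Co0 (v + w) := by
    ext g
    constructor
    · rintro ⟨h1, h2⟩
      refine ⟨h1, ?_⟩
      change g • (v + w) = v + w
      rw [H3.co_add, MulAction.mem_stabilizer_iff.mp h1, MulAction.mem_stabilizer_iff.mp h2]
    · rintro ⟨h1, h2⟩
      exact ⟨h1, H3.fix_of_add h1 h2⟩
  obtain ⟨g, h1, h2⟩ := H3.exists_smul_pair_VW (v := v) (z := v + w) hv hz hd
  have e0 := H3.infStabEquiv g H3.vV H3.vW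
  rw [h1, h2, ← hs] at e0
  have := H3.simple_GVW
  exact ⟨e0.symm.isSimpleGroup, (Nat.card_congr e0.toEquiv).symm.trans H3.card_GVW⟩

end Cfsg.Agent.S0405
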