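import Cfsg.Statements.S0406
import Cfsg.Agent.H2.LeechA

set_option autoImplicit false
open Matrix
open Cfsg

namespace Cfsg.Agent.S0406

open Finset in
theorem orth_card_le {ι : Type} [Fintype ι] (β : LinearMap.BilinForm ℤ (Fin 24 → ℤ))
    (v : ι → Fin 24 → ℤ) (h0 : ∀ i, β (v i) (v i) ≠ 0) (h1 : ∀ i j, i ≠ j → β (v i) (v j) = 0) :
    Fintype.card ι ≤ 24 := by
  have : LinearIndependent ℤ v := by
    rw [Fintype.linearIndependent_iff]
    intro g hg j
    have := congrArg (fun x => β x (v j)) hg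
    simp only [map_sum, map_smul, LinearMap.sum_apply, LinearMap.smul_apply, smul_eq_mul, map_zero,
      LinearMap.zero_apply] at this
    rw [sum_eq_single j (fun i _ hi => by rw [h1 i j hi, mul_zero]) (by simp)] at this
    exact (mul_eq_zero.1 this).resolve_right (h0 j)
  simpa using this.fintype_card_le_finrank

theorem exists_fin {α : Type} {p : α → Prop} {n : ℕ} (h : {x | p x}.ncard = n) (hn : n ≠ 0) :
    ∃ S : Finset α, S.card = n ∧ ∀ x, x ∈ S ↔ p x := by
  have hf := Set.finite_of_ncard_ne_zero (h ▸ hn : {x | p x}.ncard ≠ 0)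
  exact ⟨hf.toFinset, by rw [← h, Set.ncard_eq_toFinset_card _ hf], fun x => by simp⟩

/-- the class modulo `2Λ` -/
def cls (x : Fin 24 → ℤ) : Fin 24 → ZMod 2 := fun i => (x i : ZMod 2)

theorem exists_half {x y : Fin 24 → ℤ} (h : cls x = cls y) : ∃ w, x = y + (2 : ℤ) • w := by
  refine ⟨fun i => (x i - y i) / 2, funext fun i => ?_⟩
  have := (ZMod.intCast_eq_intCast_iff _ _ _).1 (congrFun h i)
  simp only [Int.ModEq, Nat.cast_ofNat] at this
  simp only [Pi.add_apply, Pi.smul_apply, smul_eq_mul]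
  omega

theorem cls_neg (x : Fin 24 → ℤ) : cls (-x) = cls x := by
  funext i
  simp [cls, ZMod.neg_eq_self_mod_two]

theorem short {β : LinearMap.BilinForm ℤ (Fin 24 → ℤ)} (hs : ∀ x y, β x y = β y x)
    (hmin : ∀ x, x ≠ 0 → 4 ≤ β x x) {x y : Fin 24 → ℤ} (hx : β x x ≤ 8) (hy : β y y ≤ 8)
    (h : cls x = cls y) (h1 : x ≠ y) (h2 : x ≠ -y) : β x x = 8 ∧ β y y = 8 ∧ β x y = 0 := by
  obtain ⟨w, rfl⟩ := exists_half h
  have h3 := hmin w (by rintro rfl; simp at h1)
  have h4 := hmin (w + y) (by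
    intro e
    apply h2
    rw [eq_neg_of_add_eq_zero_left e]
    simp [two_smul])
  have := hs w y
  simp only [map_add, map_smul, LinearMap.add_apply, LinearMap.smul_apply, smul_eq_mul] at *
  omega

open Finset in
theorem exists_frame {β : LinearMap.BilinForm ℤ (Fin 24 → ℤ)} (hs : ∀ x y, β x y = β y x)
    (hmin : ∀ x, x ≠ 0 → 4 ≤ β x x) (h4 : {x | β x x = 4}.ncard = 196560)
    (h6 : {x | β x x = 6}.ncard = 16773120) (h8 : {x | β x x = 8}.ncard = 398034000) :
    ∃ e : GolayPt → Fin 24 → ℤ, (∀ p, β (e p) (e p) = 8) ∧ (∀ p q, p ≠ q → β (e p) (e q) = 0) ∧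
      ∀ p q, cls (e p) = cls (e q) := by
  classical
  obtain ⟨S4, h4, m4⟩ := exists_fin h4 (by norm_num)
  obtain ⟨S6, h6, m6⟩ := exists_fin h6 (by norm_num)
  obtain ⟨S8, h8, m8⟩ := exists_fin h8 (by norm_num)
  have two : ∀ (S : Finset (Fin 24 → ℤ)), (∀ x ∈ S, β x x < 8) → S.card ≤ 2 * (S.image cls).card := by
    intro S hS
    refine card_le_mul_card_image S 2 fun a ha => ?_
    obtain ⟨y, hy, rfl⟩ := mem_image.1 ha
    refine le_trans (card_le_card (t := {y, -y}) fun x hx => ?_) card_le_two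
    obtain ⟨hx1, hx2⟩ := mem_filter.1 hx
    by_contra h3
    simp only [mem_insert, mem_singleton, not_or] at h3
    exact (hS x hx1).ne (short hs hmin (hS x hx1).le (hS y hy).le hx2 h3.1 h3.2).1
  have dis : ∀ (S T : Finset (Fin 24 → ℤ)) (a b : ℤ), (∀ x ∈ S, β x x = a) → (∀ x ∈ T, β x x = b) →
      a < b → b ≤ 8 → Disjoint (S.image cls) (T.image cls) := by
    intro S T a b hS hT hab hb
    rw [disjoint_left]
    intro c h1 h2
    obtain ⟨x, hx, rfl⟩ := mem_image.1 h1
    obtain ⟨y, hy, e⟩ := mem_image.1 h2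
    have a1 := hS x hx
    have a2 := hT y hy
    have := (short hs hmin (x := x) (y := y) (by omega) (by omega) e.symm
      (by rintro rfl; omega) (by rintro rfl; simp at a1; omega)).1
    omega
  have s0 : ∀ x ∈ ({0} : Finset (Fin 24 → ℤ)), β x x = 0 := by simp
  have tot : (image cls {0} ∪ S4.image cls ∪ S6.image cls ∪ S8.image cls).card ≤ 16777216 := by
    refine (card_le_univ _).trans ?_
    simp
  rw [card_union_of_disjoint, card_union_of_disjoint, card_union_of_disjoint, image_singleton,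
    card_singleton] at tot
  rotate_left
  · exact dis _ _ 0 4 s0 (fun x => (m4 x).1) (by norm_num) (by norm_num)
  · exact disjoint_union_left.2 ⟨dis _ _ 0 6 s0 (fun x => (m6 x).1) (by norm_num) (by norm_num),
      dis _ _ 4 6 (fun x => (m4 x).1) (fun x => (m6 x).1) (by norm_num) (by norm_num)⟩
  · exact disjoint_union_left.2 ⟨disjoint_union_left.2
      ⟨dis _ _ 0 8 s0 (fun x => (m8 x).1) (by norm_num) (by norm_num),
      dis _ _ 4 8 (fun x => (m4 x).1) (fun x => (m8 x).1) (by norm_num) (by norm_num)⟩,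
      dis _ _ 6 8 (fun x => (m6 x).1) (fun x => (m8 x).1) (by norm_num) (by norm_num)⟩
  have t4 := two S4 fun x hx => by rw [(m4 x).1 hx]; norm_num
  have t6 := two S6 fun x hx => by rw [(m6 x).1 hx]; norm_num
  obtain ⟨a, ha⟩ : ∃ a, 48 ≤ (S8.filter fun x => cls x = a).card := by
    by_contra h
    have := card_le_mul_card_image (f := cls) S8 47 fun a _ => by
      have := not_exists.1 h a
      omega
    omega
  set F := S8.filter fun x => cls x = a with hF
  have hFm : ∀ x, x ∈ F ↔ β x x = 8 ∧ cls x = a := fun x => by rw [hF, mem_filter, m8]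
  let T := F.filter fun x => WellOrderingRel x (-x)
  have hT : F ⊆ T ∪ T.image (fun x => -x) := by
    intro x hx
    rcases trichotomous_of WellOrderingRel x (-x) with h | h | h
    · exact mem_union_left _ (mem_filter.2 ⟨hx, h⟩)
    · exfalso
      have h0 : x = 0 := by
        funext i
        have := congrFun h i
        simp only [Pi.neg_apply] at this
        simp only [Pi.zero_apply]
        omega
      have := ((hFm x).1 hx).1
      simp [h0] at this
    · refine mem_union_right _ (mem_image.2 ⟨-x, mem_filter.2 ⟨?_, by simpa using h⟩, by simp⟩)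
      rw [hFm] at hx ⊢
      simpa [cls_neg] using hx
  have hT24 : 24 ≤ T.card := by
    have := (card_le_card hT).trans (card_union_le _ _)
    have := card_image_le (s := T) (f := fun x => -x)
    omega
  obtain ⟨T', hT', hc⟩ := exists_subset_card_eq hT24
  let e : GolayPt ≃ T' := Fintype.equivOfCardEq (by simp [H1.card_golayPt, hc])
  have he : ∀ p, β (e p) (e p) = 8 ∧ cls (e p) = a := fun p =>
    (hFm _).1 (mem_filter.1 (hT' (e p).2)).1
  have hr : ∀ p, WellOrderingRel (e p).1 (-(e p).1) := fun p => (mem_filter.1 (hT' (e p).2)).2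
  refine ⟨fun p => e p, fun p => (he p).1, fun p q hpq => ?_, fun p q => (he p).2.trans (he q).2.symm⟩
  refine (short hs hmin (he p).1.le (he q).1.le ((he p).2.trans (he q).2.symm)
    (fun h => hpq (e.injective (Subtype.ext h))) fun h => ?_).2.2
  have h1 := hr p
  rw [h, neg_neg] at h1
  exact asymm_of WellOrderingRel h1 (hr q)

open Finset in
theorem main {β : LinearMap.BilinForm ℤ (Fin 24 → ℤ)} (hs : ∀ x y, β x y = β y x)
    (heven : ∀ x, 2 ∣ β x x)
    (hmin : ∀ x, x ≠ 0 → 4 ≤ β x x) (h4 : {x | β x x = 4}.ncard = 196560)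
    (h6 : {x | β x x = 6}.ncard = 16773120) (h8 : {x | β x x = 8}.ncard = 398034000) :
    ∃ f : (Fin 24 → ℤ) ≃+ Cfsg.leechLattice, ∀ x : Fin 24 → ℤ,
      Cfsg.sqNorm ((f x : Cfsg.leechLattice) : Cfsg.GolayPt → ℤ) = 8 * β x x := by
  classical
  obtain ⟨e, e8, e0, ec⟩ := exists_frame hs hmin h4 h6 h8
  let φ : (Fin 24 → ℤ) →+ H3.V :=
    { toFun := fun x p => β x (e p)
      map_zero' := by funext p; simp
      map_add' := fun x y => by funext p; simp }
  have hφ : ∀ x p, φ x p = β x (e p) := fun _ _ => rfl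
  have hsum : ∀ (g : GolayPt → ℤ) (q : GolayPt), β (∑ p, g p • e p) (e q) = 8 * g q := by
    intro g q
    simp only [map_sum, map_smul, LinearMap.sum_apply, LinearMap.smul_apply, smul_eq_mul]
    rw [sum_eq_single q (fun i _ hi => by rw [e0 i q hi, mul_zero]) (by simp), e8, mul_comm]
  have hN : ∀ x, sqNorm (φ x) = 8 * β x x := by
    intro x
    have h1 : (8 : ℤ) • x - ∑ p, β x (e p) • e p = 0 := by
      by_contra h0
      set y := (8 : ℤ) • x - ∑ p, β x (e p) • e p with hy
      have h2 : ∀ q, β y (e q) = 0 := fun q => by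
        rw [hy, map_sub, LinearMap.sub_apply, hsum, map_smul, LinearMap.smul_apply, smul_eq_mul,
          sub_self]
      have := orth_card_le β (fun o : Option GolayPt => o.elim y e) (by
        rintro (_ | p)
        · exact (lt_of_lt_of_le (by norm_num) (hmin y h0)).ne'
        · simp [e8]) (by
        rintro (_ | p) (_ | q) h
        · exact absurd rfl h
        · exact h2 q
        · exact (hs _ _).trans (h2 p)
        · exact e0 p q (by simpa using h))
      rw [Fintype.card_option, H1.card_golayPt] at this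
      omega
    have h2 := congrArg (β x) (sub_eq_zero.1 h1)
    simp only [map_sum, map_smul, smul_eq_mul] at h2
    rw [h2, H3.sqNorm_def]
    exact sum_congr rfl fun p _ => by rw [hφ, sq]
  have hinj : Function.Injective φ := by
    rw [injective_iff_map_eq_zero]
    intro x hx
    by_contra h0
    have h1 := hN x
    have h2 := hmin x h0
    rw [hx] at h1
    simp [H3.sqNorm_def] at h1
    omega
  have hL : H2.Leech.LL φ.range := by
    constructor
    · rintro _ ⟨x, rfl⟩
      have := heven x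
      rw [hN]; omega
    · intro x a4 a8
      refine H3.mem_of_four _ (fun p => ?_) a4 a8
      obtain ⟨w, hw⟩ := exists_half (ec p none)
      refine ⟨w + e none, funext fun q => ?_⟩
      have h1 : β (e p) (e q) = 2 * H3.sg p 4 q := by
        unfold H3.sg
        split_ifs with h
        · rw [h, e8]; rfl
        · rw [e0 p q (Ne.symm h)]; rfl
      have h2 : β (e none) (e q) = 2 * H3.sg none 4 q := by
        unfold H3.sg
        split_ifs with h
        · rw [h, e8]; rfl
        · rw [e0 none q (Ne.symm h)]; rfl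
      rw [hw] at h1
      simp only [map_add, map_smul, LinearMap.add_apply, LinearMap.smul_apply, smul_eq_mul] at h1
      simp only [hφ, map_add, LinearMap.add_apply, Pi.add_apply]
      omega
  obtain ⟨S4, h4, m4⟩ := exists_fin h4 (by norm_num)
  obtain ⟨T, hT, hK⟩ := hL.exists_iso (by
    rintro _ ⟨x, rfl⟩ h0
    have := hmin x (by rintro rfl; simp at h0)
    rw [hN]; omega) (S4.image φ) (by
    intro y hy
    obtain ⟨x, hx, rfl⟩ := mem_image.1 hy
    exact ⟨⟨x, rfl⟩, by rw [hN, (m4 x).1 hx]; rfl⟩) (by rw [card_image_of_injective _ hinj, h4])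
  let g : (Fin 24 → ℤ) →+ Cfsg.leechLattice := (T.toAddMonoidHom.comp φ).codRestrict _ fun x =>
    hK ▸ ⟨φ x, ⟨x, rfl⟩, rfl⟩
  refine ⟨AddEquiv.ofBijective g ⟨fun x y hxy => ?_, fun ⟨y, hy⟩ => ?_⟩, fun x => ?_⟩
  · exact hinj (T.injective (congrArg Subtype.val hxy))
  · rw [← hK] at hy
    obtain ⟨_, ⟨x, rfl⟩, rfl⟩ := hy
    exact ⟨x, rfl⟩
  · exact (hT (φ x)).trans (hN x)


/-- A rank-24 even lattice with no roots and the stated numbers of vectors of norms 4, 6, 8 is isomorphic to the Leech lattice. -/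
theorem result (B : Matrix (Fin 24) (Fin 24) ℤ) (hsymm : B.IsSymm) (hpos : ∀ x : Fin 24 → ℤ, x ≠ 0 → 0 < x ⬝ᵥ (B *ᵥ x)) (heven : ∀ x : Fin 24 → ℤ, (2 : ℤ) ∣ x ⬝ᵥ (B *ᵥ x)) (h2 : ∀ x : Fin 24 → ℤ, x ⬝ᵥ (B *ᵥ x) ≠ 2) (h4 : {x : Fin 24 → ℤ | x ⬝ᵥ (B *ᵥ x) = 4}.ncard = 196560) (h6 : {x : Fin 24 → ℤ | x ⬝ᵥ (B *ᵥ x) = 6}.ncard = 16773120) (h8 : {x : Fin 24 → ℤ | x ⬝ᵥ (B *ᵥ x) = 8}.ncard = 398034000) : ∃ f : (Fin 24 → ℤ) ≃+ Cfsg.leechLattice, ∀ x : Fin 24 → ℤ, Cfsg.sqNorm ((f x : Cfsg.leechLattice) : Cfsg.GolayPt → ℤ) = 8 * (x ⬝ᵥ (B *ᵥ x)) := by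
  have e : ∀ x y, Matrix.toBilin' B x y = x ⬝ᵥ (B *ᵥ y) := Matrix.toBilin'_apply' B
  simp only [← e] at hpos heven h2 h4 h6 h8 ⊢
  refine main (fun x y => ?_) heven (fun x hx => ?_) h4 h6 h8
  · rw [e, e, Matrix.dotProduct_mulVec, ← Matrix.mulVec_transpose, hsymm.eq, dotProduct_comm]
  · have := hpos x hx
    have := heven x
    have := h2 x
    omega

end Cfsg.Agent.S0406
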