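import Cfsg.Statements.S0412
import Cfsg.Agent.H2.D24
import Cfsg.Agent.H2.Mathieu

set_option autoImplicit false
open Cfsg

namespace Cfsg.Agent.S0412

/-- Aut of an S(5, 8, 24) is simple of order 244823040 and 5-transitive on points. -/
theorem result {α : Type*} [Fintype α] [DecidableEq α] (hα : Fintype.card α = 24) {B : Set (Finset α)} (hB : Cfsg.IsSteinerSystem 5 8 B) : Cfsg.IsM24 (Cfsg.setSystemAut B) ∧ MulAction.IsMultiplyPretransitive (Cfsg.setSystemAut B) α 5 := by
  have h5 := H2.D24.strong.multiplyPretransitive hα (by norm_num) hB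
  have hc : Nat.card (Cfsg.setSystemAut B) = 244823040 := by
    rw [H2.D24.strong.card_aut (by norm_num) H2.D24.card_stab hα hB]; decide
  have hα' : Nat.card α = 24 := by rw [Nat.card_eq_fintype_card, hα]
  have h2 : MulAction.IsMultiplyPretransitive (Cfsg.setSystemAut B) α 2 :=
    MulAction.isMultiplyPretransitive_of_le (n := 5) (by norm_num) (by omega)
  exact ⟨⟨H2.simple_24 hα' hc, hc⟩, h5⟩

end Cfsg.Agent.S0412
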