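import Cfsg.Statements.S0414
import Cfsg.Agent.H2.M22

set_option autoImplicit false
open Cfsg

namespace Cfsg.Agent.S0414

/-- Aut of an S(3, 6, 22) has order 887040, is 3-transitive, and contains a simple subgroup of index 2. -/
theorem result {α : Type*} [Fintype α] [DecidableEq α] (hα : Fintype.card α = 22) {B : Set (Finset α)} (hB : Cfsg.IsSteinerSystem 3 6 B) : Nat.card (Cfsg.setSystemAut B) = 887040 ∧ MulAction.IsMultiplyPretransitive (Cfsg.setSystemAut B) α 3 ∧ ∃ H : Subgroup (Cfsg.setSystemAut B), H.index = 2 ∧ Cfsg.IsM22 H := by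
  obtain ⟨h1, -, h3, h4⟩ := H2.m22_facts hα hB
  exact ⟨H2.card_aut_22 hα hB, H2.D22.strong.multiplyPretransitive hα (by norm_num) hB,
    _, h1, h4, h3⟩

end Cfsg.Agent.S0414
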