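import Cfsg.Statements.S0426
import Cfsg.Agent.H2.D11
import Cfsg.Agent.H2.SharpCard

set_option autoImplicit false
open Cfsg

namespace Cfsg.Agent.S0426

/-- Aut of an S(4, 5, 11) is simple of order 7920 and sharply 4-transitive on points. -/
theorem result {α : Type*} [Fintype α] [DecidableEq α] (hα : Fintype.card α = 11) {B : Set (Finset α)} (hB : Cfsg.IsSteinerSystem 4 5 B) : Cfsg.IsM11 (Cfsg.setSystemAut B) ∧ MulAction.IsMultiplyPretransitive (Cfsg.setSystemAut B) α 4 ∧ ∀ x : Fin 4 ↪ α, MulAction.stabilizer (Cfsg.setSystemAut B) x = ⊥ := by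
  have h5 := H2.D11.strong.multiplyPretransitive hα (by norm_num) hB
  have hc := H2.D11.strong.card_aut (by norm_num) H2.D11.card_stab hα hB
  have hs := H2.stabilizer_eq_bot_of_card (G := Cfsg.setSystemAut B) (α := α) (k := 4)
    (by rw [hc, hα, mul_one])
  exact ⟨(H2.sharp_of hs).simple_11 hα, h5, hs⟩

end Cfsg.Agent.S0426
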