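import Cfsg.Statements.S0592
import Cfsg.Agent.H4.QuadPair

set_option autoImplicit false
open Cfsg

namespace Cfsg.Agent.S0592

/-- Two quadratically acting generators of a linear group that is not a p-group, with the p'-part of the order of their product dividing q - 1, give a homomorphism onto a subgroup of SL(2, q) that is not a p-group. -/
theorem result {K : Type*} [Field K] [Fintype K] {p : ℕ} [Fact p.Prime] [CharP K p] {W : Type*} [AddCommGroup W] [Module K W] [FiniteDimensional K W] [Finite W] [Nontrivial W] (H : Subgroup (W ≃ₗ[K] W)) (a b : W ≃ₗ[K] W) (hH : H = Subgroup.closure {a, b}) (ha : ∀ w : W, a (a w - w) = a w - w) (hb : ∀ w : W, b (b w - w) = b w - w) (hnp : ¬ IsPGroup p H) (hk : ∃ e k : ℕ, orderOf (a * b) = p ^ e * k ∧ k ∣ Fintype.card K - 1) : ∃ φ : H →* Matrix.SpecialLinearGroup (Fin 2) K, ¬ IsPGroup p φ.range := by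
  subst hH
  have haH : a ∈ Subgroup.closure {a, b} := Subgroup.subset_closure (by simp)
  have hbH : b ∈ Subgroup.closure {a, b} := Subgroup.subset_closure (by simp)
  let ρ : Subgroup.closure ({a, b} : Set (W ≃ₗ[K] W)) →* Module.End K W :=
    LinearEquiv.automorphismGroup.toLinearMapMonoidHom.comp (Subgroup.subtype _)
  have hρ : ∀ h w, ρ h w = h.1 w := fun _ _ => rfl
  have hgen : Subgroup.closure ({⟨a, haH⟩, ⟨b, hbH⟩} :
      Set (Subgroup.closure ({a, b} : Set (W ≃ₗ[K] W)))) = ⊤ := by
    rw [← Subgroup.closure_closure_coe_preimage]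
    congr 1
    ext x
    simp [Subtype.ext_iff]
  obtain ⟨e, k, hek, hk⟩ := hk
  have hq : 1 < Fintype.card K := Fintype.one_lt_card
  have hk0 : k ≠ 0 := by
    rintro rfl
    rw [zero_dvd_iff] at hk
    omega
  have hsplit : (Polynomial.X ^ (p ^ e * k) - 1 : Polynomial K).Splits := by
    have h1 : (Polynomial.X ^ (p ^ e * k) - 1 : Polynomial K) = (Polynomial.X ^ k - 1) ^ p ^ e := by
      rw [sub_pow_char_pow, one_pow, ← pow_mul, mul_comm]
    rw [h1]
    refine Polynomial.Splits.pow ?_ _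
    have h2 := Polynomial.splits_X_pow_nat_card_sub_X (K := K)
    rw [Nat.card_eq_fintype_card] at h2
    refine h2.of_dvd (FiniteField.X_pow_card_sub_X_ne_zero K hq) ?_
    obtain ⟨m, hm⟩ := hk
    have h3 : (Polynomial.X ^ Fintype.card K - Polynomial.X : Polynomial K) =
        ((Polynomial.X ^ k) ^ m - 1 ^ m) * Polynomial.X := by
      rw [← pow_mul, ← hm, one_pow, sub_mul, one_mul, ← pow_succ, Nat.sub_add_cancel hq.le]
    rw [h3]
    exact (sub_dvd_pow_sub_pow _ _ m).mul_right _
  rcases H4.exists_hom_or_unipotent ρ hgen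
    (by ext w; simp [hρ, ha, ← map_sub]) (by ext w; simp [hρ, hb, ← map_sub])
    (mul_ne_zero (pow_ne_zero e (Fact.out : p.Prime).ne_zero) hk0)
    (by
      rw [← map_pow, ← map_one ρ]
      congr 1
      apply Subtype.ext
      change (a * b) ^ (p ^ e * k) = 1
      rw [← hek, pow_orderOf_eq_one]) hsplit with ⟨μ, hμ, φ, h1, h2, -⟩ | ⟨n, hn⟩
  · exact ⟨φ, H4.SL2.not_isPGroup_range hμ one_ne_zero h1 h2⟩
  · refine absurd (fun h => ⟨n, ?_⟩) hnp
    have := H4.pow_eq_one_of_unipotent (p := p) (hn h)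
    rw [← map_pow] at this
    ext w
    rw [← hρ, this]
    rfl

end Cfsg.Agent.S0592
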