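import Cfsg.Statements.S0593
import Cfsg.Agent.H4.LinRep

set_option autoImplicit false
open Cfsg

namespace Cfsg.Agent.S0593

/-- For odd p, a faithful group on an elementary abelian p-group generated by two quadratically acting elements is a p-group or has non-abelian Sylow 2-subgroups. -/
theorem result {G : Type*} [Group G] [Finite G] {p : ℕ} [Fact p.Prime] (hp : p ≠ 2) (V H : Subgroup G) (hV : Cfsg.IsElementaryAbelian p V) (hHV : H ≤ Subgroup.normalizer (V : Set G)) (hf : H ⊓ Subgroup.centralizer (V : Set G) = ⊥) (a b : G) (hab : H = Subgroup.closure {a, b}) (ha : ⁅⁅V, Subgroup.zpowers a⁆, Subgroup.zpowers a⁆ = ⊥) (hb : ⁅⁅V, Subgroup.zpowers b⁆, Subgroup.zpowers b⁆ = ⊥) (hnp : ¬ IsPGroup p H) (T : Sylow 2 H) : ¬ IsMulCommutative T := by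
  subst hab
  have haH : a ∈ Subgroup.closure {a, b} := Subgroup.subset_closure (by simp)
  have hbH : b ∈ Subgroup.closure {a, b} := Subgroup.subset_closure (by simp)
  refine H4.sylow_two_not_comm_of_quadratic_pair hp hV (Subgroup.subtype _) (fun h => hHV h.2)
    (a := ⟨a, haH⟩) (b := ⟨b, hbH⟩) ha hb (fun h => hnp fun x => ?_) T
  rw [H4.closure_pair_subtype] at h
  obtain ⟨n, hn⟩ := h x (Subgroup.mem_top x)
  refine ⟨n, Subtype.ext ?_⟩
  have : (x : G) ^ p ^ n ∈ Subgroup.closure {a, b} ⊓ Subgroup.centralizer (V : Set G) :=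
    ⟨pow_mem x.2 _, hn⟩
  rw [hf] at this
  exact this

end Cfsg.Agent.S0593
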