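import Cfsg.Statements.S0594
import Cfsg.Agent.H4.LinRep

set_option autoImplicit false
open Cfsg

namespace Cfsg.Agent.S0594

/-- For odd p, two quadratic generators of a faithful group that is not a p-group, one of which acts nontrivially on a normal subgroup of order prime to p, force p = 3 and a section isomorphic to SL(2,3). -/
theorem result {G : Type*} [Group G] [Finite G] {p : ℕ} [Fact p.Prime] (hp : p ≠ 2) (V H : Subgroup G) (hV : Cfsg.IsElementaryAbelian p V) (hHV : H ≤ Subgroup.normalizer (V : Set G)) (hf : H ⊓ Subgroup.centralizer (V : Set G) = ⊥) (a b : G) (hab : H = Subgroup.closure {a, b}) (ha : ⁅⁅V, Subgroup.zpowers a⁆, Subgroup.zpowers a⁆ = ⊥) (hb : ⁅⁅V, Subgroup.zpowers b⁆, Subgroup.zpowers b⁆ = ⊥) (hnp : ¬ IsPGroup p H) (Q : Subgroup G) (hQH : Q ≤ H) (hQn : H ≤ Subgroup.normalizer (Q : Set G)) (hQ : (Nat.card Q).Coprime p) (hQa : ⁅Q, Subgroup.zpowers a⁆ ≠ ⊥) : p = 3 ∧ ∃ (K L : Subgroup G) (hL : (L.subgroupOf K).Normal), K ≤ H ∧ Nonempty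 ((K ⧸ L.subgroupOf K) ≃* Matrix.SpecialLinearGroup (Fin 2) (ZMod 3)) := by
  have haH : a ∈ H := hab ▸ Subgroup.subset_closure (by simp)
  have hn : (Q.subgroupOf H).Normal := Subgroup.normal_subgroupOf_of_le_normalizer hQn
  rw [Ne, Subgroup.commutator_eq_bot_iff_le_centralizer, H8.centralizer_zpowers,
    SetLike.not_le_iff_exists] at hQa
  obtain ⟨x, hx, hxa⟩ := hQa
  obtain ⟨h1, h2⟩ := H4.three_of_quadratic_conj hp hV H.subtype (fun h => hHV h.2)
    (a := ⟨a, haH⟩) ha (O := ⊥) (Q := Q.subgroupOf H)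
    (fun h hh => ⟨0, by rw [Subgroup.mem_bot.1 hh, map_one, one_pow]; exact one_mem _⟩)
    (fun h hh => by
      have : (h : G) ∈ H ⊓ Subgroup.centralizer (V : Set G) := ⟨h.2, hh⟩
      rw [hf] at this
      exact Subtype.ext this)
    (L0.coprime_iff_not_dvd'.1 hQ)
    (fun y hy => Subtype.ext (show (y : G) ^ Nat.card Q = 1 from
      congrArg Subtype.val (pow_card_eq_one' (x := (⟨y, hy⟩ : Q)))))
    (x := ⟨x, hQH hx⟩) hx
    (fun h => hxa (by
      rw [Subgroup.mem_bot, commutatorElement_eq_one_iff_mul_comm] at h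
      exact Subgroup.mem_centralizer_singleton_iff.2 (congrArg Subtype.val h).symm))
  exact ⟨h1, h2.of_subtype.exists_section⟩

end Cfsg.Agent.S0594
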