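import Cfsg.Statements.S0597
import Cfsg.Agent.H4.Wielandt

set_option autoImplicit false
open Cfsg

namespace Cfsg.Agent.S0597

/-- If two subnormal subgroups of a faithful group on an elementary abelian p-group satisfy [V, E₁, E₂] = 1, then their commutator lies in the largest normal p-subgroup. -/
theorem result {G : Type*} [Group G] [Finite G] {p : ℕ} [Fact p.Prime] (V H : Subgroup G) (hV : Cfsg.IsElementaryAbelian p V) (hHV : H ≤ Subgroup.normalizer (V : Set G)) (hf : H ⊓ Subgroup.centralizer (V : Set G) = ⊥) (E₁ E₂ : Subgroup G) (h₁ : E₁ ≤ H) (h₂ : E₂ ≤ H) (hs₁ : (E₁.subgroupOf H).IsSubnormal) (hs₂ : (E₂.subgroupOf H).IsSubnormal) (hc : ⁅⁅V, E₁⁆, E₂⁆ = ⊥) : ⁅E₁, E₂⁆ ≤ (Cfsg.pCore p H).map H.subtype := by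
  have s₁ : H7.SN E₁ H := ⟨h₁, hs₁⟩
  have s₂ : H7.SN E₂ H := ⟨h₂, hs₂⟩
  have s := H4.SN_commutator s₁ s₂
  refine H4.SN_le_map_pCore s (H4.EA.isPGroup (H4.isElementaryAbelian_of_quadratic hV.2
    (s.le.trans hHV) ?_ (H4.quadratic_commutator_of_successive (h₁.trans hHV) (h₂.trans hHV) hc)))
  exact le_bot_iff.1 (hf ▸ inf_le_inf_right _ s.le)

end Cfsg.Agent.S0597
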