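import Cfsg.Statements.S0602
import Cfsg.Agent.H4.Thompson

set_option autoImplicit false
open Cfsg

namespace Cfsg.Agent.S0602

/-- The Thompson subgroup is characteristic, and nontrivial as soon as p divides the group order. -/
theorem result {G : Type*} [Group G] [Finite G] {p : ℕ} [Fact p.Prime] : (Cfsg.thompsonSubgroup p G).Characteristic ∧ (p ∣ Nat.card G → Cfsg.thompsonSubgroup p G ≠ ⊥) := by
  refine ⟨H4.thompsonSubgroup_characteristic, fun h => ?_⟩
  rw [← H4.thompsonSubgroupOf_top]
  exact H4.thompsonSubgroupOf_ne_bot (by rwa [Subgroup.card_top])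

end Cfsg.Agent.S0602
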