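import Cfsg.Statements.S0613
import Cfsg.Agent.H4.FF2

set_option autoImplicit false
open Cfsg

namespace Cfsg.Agent.S0613

/-- A minimal nontrivially-acting best offender and a conjugate of it under a non-centralizing element of the p'-core generate SL(2, p) acting naturally on a plane, and p is 2 or 3. -/
theorem result {G : Type*} [Group G] [Finite G] {p : ℕ} [Fact p.Prime] (V H : Subgroup G) (hV : Cfsg.IsElementaryAbelian p V) (hHV : H ≤ Subgroup.normalizer (V : Set G)) (hf : H ⊓ Subgroup.centralizer (V : Set G) = ⊥) (hS1 : Subgroup.centralizer (Cfsg.pPrimeCore p ↥H : Set ↥H) ≤ Cfsg.pPrimeCore p ↥H) (hS3 : H = ⨆ A : {A : Subgroup G // A ≤ H ∧ Cfsg.IsBestOffenderOn p V A}, (A : Subgroup G)) (hH1 : H ≠ ⊥) (A : Subgroup G) (hAH : A ≤ H) (hA : Cfsg.IsBestOffenderOn p V A) (hAV : ⁅V, A⁆ ≠ ⊥) (hmin : ∀ B : Subgroup G, B ≤ A → Cfsg.IsBestOffenderOn p V B → ⁅V, B⁆ ≠ ⊥ → B = A) (x : G) (hx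 : x ∈ ((Cfsg.pPrimeCore p ↥H).map H.subtype)) (hxA : x ∉ Subgroup.centralizer (A : Set G)) : (p = 2 ∨ p = 3) ∧ Nat.card ↥(⁅V, A ⊔ A.map (MulAut.conj x).toMonoidHom⁆) = p ^ 2 ∧ (A ⊔ A.map (MulAut.conj x).toMonoidHom) ⊓ Subgroup.centralizer ((⁅V, A ⊔ A.map (MulAut.conj x).toMonoidHom⁆ : Subgroup G) : Set G) = ⊥ ∧ Nonempty (↥(A ⊔ A.map (MulAut.conj x).toMonoidHom) ≃* Matrix.SpecialLinearGroup (Fin 2) (ZMod p)) := by
  have h := H4.FF.of hV hHV hf hS1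
  obtain ⟨a, ta, rfl⟩ := h.exists_tv hAH ⟨hA, hAV, hmin⟩
  have he : (Subgroup.zpowers a).map (MulAut.conj x).toMonoidHom =
    Subgroup.zpowers (x * a * x⁻¹) := H4.cj_zpowers x a
  rw [he]
  exact ⟨h.two_or_three ta,
    h.card_pair ta (ta.conj h.norm (h.le hx)) (h.commutator_ne_conj ta hx hxA),
    h.faithful_pair ta hx hxA, h.nonempty_equiv_pair ta hx hxA⟩

end Cfsg.Agent.S0613
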