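import Cfsg.Statements.S0615
import Cfsg.Agent.H4.Wielandt

set_option autoImplicit false
open Cfsg

namespace Cfsg.Agent.S0615

/-- Two subnormal subgroups acting irreducibly on their incomparable commutator modules, in a faithful group with trivial largest normal p-subgroup, generate their direct product, and the commutator module splits accordingly. -/
theorem result {G : Type*} [Group G] [Finite G] {p : ℕ} [Fact p.Prime] (V E E₁ E₂ : Subgroup G) (hV : Cfsg.IsElementaryAbelian p V) (hEV : E ≤ Subgroup.normalizer (V : Set G)) (hf : E ⊓ Subgroup.centralizer (V : Set G) = ⊥) (hgen : E = E₁ ⊔ E₂) (hs₁ : (E₁.subgroupOf E).IsSubnormal) (hs₂ : (E₂.subgroupOf E).IsSubnormal) (hOp : Cfsg.pCore p ↥E = ⊥) (hirr₁ : (∀ U : Subgroup G, U ≤ ⁅V, E₁⁆ → E₁ ≤ Subgroup.normalizer (U : Set G) → U = ⊥ ∨ U = ⁅V, E₁⁆)) (hirr₂ : (∀ U : Subgroup G, U ≤ ⁅V, E₂⁆ → E₂ ≤ Subgroup.normalizer (U :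 Set G) → U = ⊥ ∨ U = ⁅V, E₂⁆)) (h12 : ¬ ⁅V, E₁⁆ ≤ ⁅V, E₂⁆) (h21 : ¬ ⁅V, E₂⁆ ≤ ⁅V, E₁⁆) (hc₁ : 2 < Nat.card E₁) (hc₂ : 2 < Nat.card E₂) : ⁅E₁, E₂⁆ = ⊥ ∧ E₁ ⊓ E₂ = ⊥ ∧ ⁅V, E₁⁆ ⊓ ⁅V, E₂⁆ = ⊥ ∧ ⁅V, E⁆ = ⁅V, E₁⁆ ⊔ ⁅V, E₂⁆ := by
  have s₁ : H7.SN E₁ E := ⟨hgen ▸ le_sup_left, hs₁⟩
  have s₂ : H7.SN E₂ E := ⟨hgen ▸ le_sup_right, hs₂⟩
  have faith : ∀ F : Subgroup G, H7.SN F E →
      F ⊓ Subgroup.centralizer ((⁅V, F⁆ : Subgroup G) : Set G) = ⊥ := by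
    intro F s
    have s' : H7.SN (F ⊓ Subgroup.centralizer ((⁅V, F⁆ : Subgroup G) : Set G)) E :=
      (H7.SN.of_normalizer inf_le_left (H8.le_normalizer_inf Subgroup.le_normalizer
        (H8.le_normalizer_centralizer (Subgroup.normalizer_commutator_ge_right _ _)))).trans s
    have hq := H4.isElementaryAbelian_of_quadratic hV.2 (s'.le.trans hEV)
      (le_bot_iff.1 (hf ▸ inf_le_inf_right _ s'.le)) (by
        rw [H4.commutator_eq_bot_iff_le_centralizer']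
        exact inf_le_right.trans (H4.centralizer_anti (Subgroup.commutator_mono le_rfl inf_le_left)))
    have := H4.SN_le_map_pCore s' (H4.EA.isPGroup hq)
    rw [hOp, Subgroup.map_bot] at this
    exact le_bot_iff.1 this
  obtain ⟨h1, h2, h3⟩ := H4.subnormal_pair hV.1 hEV s₁ s₂ ⟨hirr₁, hc₁, faith _ s₁⟩
    ⟨hirr₂, hc₂, faith _ s₂⟩ h12 h21
  refine ⟨?_, ?_, h3, ?_⟩
  · rw [eq_bot_iff, ← hf]
    exact le_inf (hgen ▸ Subgroup.commutator_le_sup E₁ E₂)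
      (H4.commutator_le_centralizer_of_both h1 h2)
  · rw [eq_bot_iff, ← hf]
    refine le_inf (inf_le_left.trans s₁.le) ?_
    rw [← H4.commutator_eq_bot_iff_le_centralizer', eq_bot_iff, ← h3]
    exact le_inf (Subgroup.commutator_mono le_rfl inf_le_left)
      (Subgroup.commutator_mono le_rfl inf_le_right)
  · rw [hgen, H4.commutator_sup_right (s₁.le.trans hEV) (s₂.le.trans hEV)]

end Cfsg.Agent.S0615
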