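import Cfsg.Statements.S0617
import Cfsg.Agent.H4.FF2

set_option autoImplicit false
open Cfsg

namespace Cfsg.Agent.S0617

/-- Structure Theorem for failure of factorization: a faithful group generated by best offenders, with self-centralizing p'-core, is a direct product of copies of SL(2, p) (p = 2 or 3), each acting on its own plane in V, which is the direct product of these planes and C_V(H). -/
theorem result {G : Type*} [Group G] [Finite G] {p : ℕ} [Fact p.Prime] (V H : Subgroup G) (hV : Cfsg.IsElementaryAbelian p V) (hHV : H ≤ Subgroup.normalizer (V : Set G)) (hf : H ⊓ Subgroup.centralizer (V : Set G) = ⊥) (hS1 : Subgroup.centralizer (Cfsg.pPrimeCore p ↥H : Set ↥H) ≤ Cfsg.pPrimeCore p ↥H) (hS3 : H = ⨆ A : {A : Subgroup G // A ≤ H ∧ Cfsg.IsBestOffenderOn p V A}, (A : Subgroup G)) (hH1 : H ≠ ⊥) : (p = 2 ∨ p = 3) ∧ (∀ E : {E : Subgroup G // ∃ A : Subgroup G, A ≤ H ∧ Cfsg.IsBestOffenderOn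 p V A ∧ ⁅V, A⁆ ≠ ⊥ ∧ (∀ B : Subgroup G, B ≤ A → Cfsg.IsBestOffenderOn p V B → ⁅V, B⁆ ≠ ⊥ → B = A) ∧ E = ⁅((Cfsg.pPrimeCore p ↥H).map H.subtype), A⁆ ⊔ A}, H ≤ Subgroup.normalizer ((E : Subgroup G) : Set G) ∧ Nonempty (↥(E : Subgroup G) ≃* Matrix.SpecialLinearGroup (Fin 2) (ZMod p)) ∧ Nat.card ↥(⁅V, (E : Subgroup G)⁆) = p ^ 2) ∧ iSupIndep (fun E : {E : Subgroup G // ∃ A : Subgroup G, A ≤ H ∧ Cfsg.IsBestOffenderOn p V A ∧ ⁅V, A⁆ ≠ ⊥ ∧ (∀ B : Subgroup G, B ≤ A → Cfsg.IsBestOffenderOn p V B → ⁅V, B⁆ ≠ ⊥ → B = A) ∧ E = ⁅((Cfsg.pPrimeCore p ↥H).map H.subtype), A⁆ ⊔ A} => (E : Subgroup G)) ∧ (⨆ E : {E : Subgroup G // ∃ A : Subgroup G, A ≤ H ∧ Cfsg.IsBestOffenderOn p V A ∧ ⁅V, A⁆ ≠ ⊥ ∧ (∀ B : Subgroup G, B ≤ A → Cfsg.IsBestOffenderOn p V B → ⁅V, B⁆ ≠ ⊥ → B = A) ∧ E = ⁅((Cfsg.pPrimeCore p ↥H).map H.subtype), A⁆ ⊔ A}, (E : Subgroup G)) = H ∧ iSupIndep (fun o : Option {E : Subgroup G // ∃ A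 : Subgroup G, A ≤ H ∧ Cfsg.IsBestOffenderOn p V A ∧ ⁅V, A⁆ ≠ ⊥ ∧ (∀ B : Subgroup G, B ≤ A → Cfsg.IsBestOffenderOn p V B → ⁅V, B⁆ ≠ ⊥ → B = A) ∧ E = ⁅((Cfsg.pPrimeCore p ↥H).map H.subtype), A⁆ ⊔ A} => o.elim (V ⊓ Subgroup.centralizer (H : Set G)) (fun E => ⁅V, (E : Subgroup G)⁆)) ∧ (V ⊓ Subgroup.centralizer (H : Set G)) ⊔ (⨆ E : {E : Subgroup G // ∃ A : Subgroup G, A ≤ H ∧ Cfsg.IsBestOffenderOn p V A ∧ ⁅V, A⁆ ≠ ⊥ ∧ (∀ B : Subgroup G, B ≤ A → Cfsg.IsBestOffenderOn p V B → ⁅V, B⁆ ≠ ⊥ → B = A) ∧ E = ⁅((Cfsg.pPrimeCore p ↥H).map H.subtype), A⁆ ⊔ A}, ⁅V, (E : Subgroup G)⁆) = V := by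
  have h := H4.FF.of hV hHV hf hS1
  have hg := h.genTv hS3
  generalize (Cfsg.pPrimeCore p ↥H).map H.subtype = F at h
  have htv : ∀ E : {E : Subgroup G // ∃ A : Subgroup G, A ≤ H ∧ Cfsg.IsBestOffenderOn p V A ∧
      ⁅V, A⁆ ≠ ⊥ ∧ (∀ B : Subgroup G, B ≤ A → Cfsg.IsBestOffenderOn p V B → ⁅V, B⁆ ≠ ⊥ → B = A) ∧
      E = ⁅F, A⁆ ⊔ A}, ∃ a, H4.Tv p V H a ∧
        (E : Subgroup G) = ⁅F, Subgroup.zpowers a⁆ ⊔ Subgroup.zpowers a := by
    rintro ⟨E, A, h1, h2, h3, h4, rfl⟩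
    obtain ⟨a, ta, rfl⟩ := h.exists_tv h1 ⟨h2, h3, h4⟩
    exact ⟨a, ta, rfl⟩
  have hsup : (⨆ E : {E : Subgroup G // ∃ A : Subgroup G, A ≤ H ∧ Cfsg.IsBestOffenderOn p V A ∧
      ⁅V, A⁆ ≠ ⊥ ∧ (∀ B : Subgroup G, B ≤ A → Cfsg.IsBestOffenderOn p V B → ⁅V, B⁆ ≠ ⊥ → B = A) ∧
      E = ⁅F, A⁆ ⊔ A}, (E : Subgroup G)) = H := by
    refine le_antisymm (iSup_le fun E => ?_) (h.le_of_genBest hS3 fun B h1 h2 => ?_)
    · obtain ⟨a, ta, he⟩ := htv E
      rw [he]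
      exact h.fac_le ta
    · exact le_iSup_of_le ⟨_, B, h1, h2.1, h2.2.1, h2.2.2, rfl⟩ le_sup_right
  revert htv hsup
  generalize (fun E : Subgroup G => ∃ A : Subgroup G, A ≤ H ∧ Cfsg.IsBestOffenderOn p V A ∧
      ⁅V, A⁆ ≠ ⊥ ∧ (∀ B : Subgroup G, B ≤ A → Cfsg.IsBestOffenderOn p V B → ⁅V, B⁆ ≠ ⊥ → B = A) ∧
      E = ⁅F, A⁆ ⊔ A) = P
  intro htv hsup
  have hne : ∀ E E' : Subtype P, E' ≠ E → (E' : Subgroup G) ≤
      Subgroup.centralizer ((⁅V, (E : Subgroup G)⁆ : Subgroup G) : Set G) := by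
    intro E E' hEE
    obtain ⟨a, ta, he⟩ := htv E
    obtain ⟨b, tb, he'⟩ := htv E'
    rw [he, he']
    exact ((h.fac_eq_or ta tb).resolve_left fun h1 =>
      hEE (Subtype.ext (he'.trans (h1.symm.trans he.symm)))).1
  have hle : ∀ E : Subtype P, (E : Subgroup G) ≤ H := fun E => hsup ▸ le_iSup _ E
  refine ⟨?_, fun E => ?_, fun E => ?_, hsup, fun o => ?_, ?_⟩
  · by_contra hcon
    apply hH1
    rw [eq_bot_iff]
    exact hg _ fun b tb => absurd (h.two_or_three tb) hcon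
  · obtain ⟨a, ta, he⟩ := htv E
    rw [he]
    exact ⟨h.le_normalizer_fac' hg ta, h.nonempty_equiv_fac ta, h.card_commutator_fac ta⟩
  · refine Disjoint.mono_right (iSup₂_le fun E' hE' => hne E E' hE') ?_
    obtain ⟨a, ta, he⟩ := htv E
    beta_reduce
    rw [he, disjoint_iff]
    exact h.faithful_fac ta
  · cases o with
    | none =>
      have h1 := (h.copAct_V le_rfl).commutator_inf_centralizer_eq_bot h.ea.1
      rw [inf_comm, ← disjoint_iff] at h1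
      refine h1.mono (inf_le_right.trans (H4.centralizer_anti h.le)) (iSup₂_le ?_)
      rintro (_ | E) hE
      · exact absurd rfl hE
      · obtain ⟨a, ta, he⟩ := htv E
        change ⁅V, (E : Subgroup G)⁆ ≤ ⁅V, F⁆
        rw [he, ← (h.irr_fac ta).1]
        exact Subgroup.commutator_mono le_rfl
          (H4.commutator_le_of_le_normalizer (ta.le.trans h.normal))
    | some E =>
      have h1 : Disjoint ⁅V, (E : Subgroup G)⁆
          (V ⊓ Subgroup.centralizer ((E : Subgroup G) : Set G)) := by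
        obtain ⟨a, ta, he⟩ := htv E
        rw [he, disjoint_iff]
        exact h.commutator_fac_inf ta
      refine h1.mono_right (iSup₂_le ?_)
      rintro (_ | E') hE
      · exact inf_le_inf_left _ (H4.centralizer_anti (hle E))
      · exact le_inf (H4.commutator_le_of_le_normalizer ((hle E').trans h.norm))
          (Subgroup.le_centralizer_iff.1 (hne E' E fun h2 => hE (by rw [h2])))
  · refine le_antisymm (sup_le inf_le_left (iSup_le fun E =>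
      H4.commutator_le_of_le_normalizer ((hle E).trans h.norm))) ?_
    conv_lhs => rw [← (h.copAct_V le_rfl).commutator_sup_centralizer]
    refine sup_le (le_sup_of_le_right ?_) (le_sup_of_le_left (le_inf inf_le_left ?_))
    · rw [← H4.commutator_iSup_right fun E => (hle E).trans h.norm, hsup]
      exact Subgroup.commutator_mono le_rfl h.le
    · rw [Subgroup.le_centralizer_iff]
      refine hg _ fun b tb => ?_
      refine (Subgroup.le_centralizer_iff.1 (le_trans ?_ (inf_le_right (a := V))) :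
        ⁅F, Subgroup.zpowers b⁆ ⊔ Subgroup.zpowers b ≤ _)
        (Subgroup.mem_sup_right (Subgroup.mem_zpowers b))
      rw [← h.inf_centralizer_fac tb]
      exact inf_le_inf_left _ (H4.centralizer_anti
        (H4.commutator_le_of_le_normalizer (tb.le.trans h.normal)))

end Cfsg.Agent.S0617
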