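import Cfsg.Statements.S0618
import Cfsg.Agent.H4.Holo

set_option autoImplicit false
open Cfsg

namespace Cfsg.Agent.S0618

/-- A p-separable group with trivial p'-core in which the Thompson factorization fails has p = 2 or 3, and J(G) induces on the normal closure of Ω₁(Z(S)) a group containing a normal SL(2, p). -/
theorem result {G : Type*} [Group G] [Finite G] {p : ℕ} [Fact p.Prime] (hsep : Cfsg.IsPSolvable p G) (hO : Cfsg.pPrimeCore p G = ⊥) (hnf : ¬ Cfsg.IsThompsonFactorizable p G) : (p = 2 ∨ p = 3) ∧ ∃ E : Subgroup G, Subgroup.centralizer ((⨆ S : Sylow p G, Cfsg.omegaOne p ((S : Subgroup G) ⊓ Subgroup.centralizer ((S : Subgroup G) : Set G))) : Set G) ≤ E ∧ E ≤ Cfsg.thompsonSubgroup p G ⊔ Subgroup.centralizer ((⨆ S : Sylow p G, Cfsg.omegaOne p ((S : Subgroup G) ⊓ Subgroup.centralizer ((S : Subgroup G) : Set G))) : Set G) ∧ Cfsg.thompsonSubgroup p G ⊔ Subgroup.centralizer ((⨆ S : Sylow p G, Cfsg.omegaOne p ((S : Subgroup G) ⊓ Subgroup.centralizer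 ((S : Subgroup G) : Set G))) : Set G) ≤ Subgroup.normalizer (E : Set G) ∧ ∃ hn : ((Subgroup.centralizer ((⨆ S : Sylow p G, Cfsg.omegaOne p ((S : Subgroup G) ⊓ Subgroup.centralizer ((S : Subgroup G) : Set G))) : Set G)).subgroupOf E).Normal, Nonempty ((↥E ⧸ (Subgroup.centralizer ((⨆ S : Sylow p G, Cfsg.omegaOne p ((S : Subgroup G) ⊓ Subgroup.centralizer ((S : Subgroup G) : Set G))) : Set G)).subgroupOf E) ≃* Matrix.SpecialLinearGroup (Fin 2) (ZMod p)) := by
  have := H4.vG_normal (p := p) (G := G)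
  obtain ⟨h1, E, h2, h3, h4, ψ, h5, h6⟩ := H4.exists_factor (V := H4.vG p G) (K := ⊤)
    (H4.isElementaryAbelian_vG (L0.IsPSolvable.centralizer_pCore_le hsep hO)) le_top
    (L0.IsPSolvable.subgroup hsep ⊤)
    (fun D _ hn h => by
      have := H5.normal_of_top_le_normalizer hn
      exact H4.le_centralizer_of_pow_mem_of_le_iSup H4.vG_le_iSup h)
    (fun h => hnf (H4.isThompsonFactorizable_of_le_centralizer
      (H4.thompsonSubgroupOf_top (p := p) (G := G) ▸ h)))
  rw [H4.thompsonSubgroupOf_top] at h3 h4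
  have hc : Subgroup.centralizer ((⨆ S : Sylow p G, Cfsg.omegaOne p ((S : Subgroup G) ⊓
      Subgroup.centralizer ((S : Subgroup G) : Set G))) : Set G) =
      Subgroup.centralizer (H4.vG p G : Set G) := by
    rw [H4.centralizer_iSup]
    ext g
    simp only [Subgroup.mem_iInf, Subgroup.mem_centralizer_iff, Set.iSup_eq_iUnion, Set.mem_iUnion]
    exact ⟨fun h S x hx => h x ⟨S, hx⟩, fun h x ⟨S, hx⟩ => h S x hx⟩
  rw [hc]
  exact ⟨h1, E, h2, h3, h4, inferInstance, ⟨(QuotientGroup.quotientMulEquivOfEq h6.symm).trans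
    (QuotientGroup.quotientKerEquivOfSurjective ψ h5)⟩⟩

end Cfsg.Agent.S0618
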