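import Cfsg.Statements.S0620
import Cfsg.Agent.H4.Holo

set_option autoImplicit false
open Cfsg

namespace Cfsg.Agent.S0620

/-- Under coprime action of an elementary abelian q-group X on a p-separable group K with trivial p'-core, K is generated by the normalizer of J(S), the centralizer of Ω₁(Z(S)) and the fixed points of X. -/
theorem result {G : Type*} [Group G] [Finite G] {p : ℕ} [Fact p.Prime] {q : ℕ} [Fact q.Prime] (K X : Subgroup G) (hXK : X ≤ Subgroup.normalizer (K : Set G)) (hX : Cfsg.IsElementaryAbelian q X) (hq : ¬ q ∣ Nat.card K) (hsep : Cfsg.IsPSolvable p ↥K) (hO : Cfsg.pPrimeCore p ↥K = ⊥) (S : Sylow p ↥K) : (Subgroup.normalizer (Cfsg.thompsonSubgroupOf p (S : Subgroup ↥K) : Set ↥K) ⊔ Subgroup.centralizer (Cfsg.omegaOne p ((S : Subgroup ↥K) ⊓ Subgroup.centralizer ((S : Subgroup ↥K) : Set ↥K)) : Set ↥K) ⊔ (Subgroup.centralizer (X : Set G)).subgroupOf K) = ⊤ := by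
  let N := Subgroup.normalizer (K : Set G)
  have hKN : K ≤ N := Subgroup.le_normalizer
  let e := Subgroup.subgroupOfEquivOfLe hKN
  have hS := H8.isSylowIn_map_subtype S
  have hSN := hS.le.trans hKN
  have hS' : H8.IsSylowIn p (((S : Subgroup K).map K.subtype).subgroupOf N) (K.subgroupOf N) := by
    refine H8.IsSylowIn.of_not_dvd_relIndex (Subgroup.comap_mono hS.le) hS.pgroup.comap_subtype ?_
    rw [Subgroup.relIndex_subgroupOf hKN]
    exact hS.not_dvd_relIndex
  have h := H4.generation_of_coprime_normal (K := K.subgroupOf N) (X := X.subgroupOf N) (q := q)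
    (L0.IsPSolvable.of_injective hsep e.toMonoidHom e.injective)
    (by rw [← L0.map_pPrimeCore_equiv e.symm, hO, Subgroup.map_bot])
    (H4.EA.isPGroup hX).comap_subtype (by rwa [L0.card_subgroupOf_of_le hKN]) hS'
  have h1 := Subgroup.map_mono (f := N.subtype) h
  have hi := N.subtype_injective
  rw [Subgroup.map_sup, Subgroup.map_sup, H4.map_centralizer_of_injective _ hi,
    H4.map_centralizer_of_injective _ hi, Subgroup.map_inf _ _ _ hi, H7.map_subtype_normalizer,
    H4.map_thompsonSubgroupOf_of_injective _ hi,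
    H4.map_omZ_of_disjoint _ (by rw [Subgroup.ker_subtype]; exact disjoint_bot_right),
    Subgroup.map_subgroupOf_eq_of_le hKN, Subgroup.map_subgroupOf_eq_of_le hSN,
    Subgroup.map_subgroupOf_eq_of_le hXK, ← inf_assoc, inf_eq_left.2 hKN] at h1
  rw [eq_top_iff, ← Subgroup.map_le_map_iff_of_injective K.subtype_injective,
    ← MonoidHom.range_eq_map, Subgroup.range_subtype, Subgroup.map_sup, Subgroup.map_sup,
    H7.map_subtype_normalizer, H7.map_subtype_centralizer,
    H4.map_thompsonSubgroupOf_of_injective _ K.subtype_injective,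
    H4.map_omZ_of_disjoint _ (by rw [Subgroup.ker_subtype]; exact disjoint_bot_right),
    Subgroup.subgroupOf_map_subtype, inf_comm _ K]
  exact h1

end Cfsg.Agent.S0620
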