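import Cfsg.Statements.S0621
import Cfsg.Agent.H4.Holo

set_option autoImplicit false
open Cfsg

namespace Cfsg.Agent.S0621

/-- Let K be p-separable with O_p'(K) = 1, normalized by an elementary abelian q-group X for a prime q not dividing the order of K. If the Thompson factorization fails in K, then p is 2 or 3 and the fixed points of X contain a plane W of order p² and a subgroup inducing SL(2, p) on it. -/
theorem result {G : Type*} [Group G] [Finite G] {p : ℕ} [Fact p.Prime] {q : ℕ} [Fact q.Prime] (K X : Subgroup G) (hXK : X ≤ Subgroup.normalizer (K : Set G)) (hX : Cfsg.IsElementaryAbelian q X) (hq : ¬ q ∣ Nat.card K) (hsep : Cfsg.IsPSolvable p ↥K) (hO : Cfsg.pPrimeCore p ↥K = ⊥) (hnf : ¬ Cfsg.IsThompsonFactorizable p ↥K) : (p = 2 ∨ p = 3) ∧ ∃ W D : Subgroup G, W ≤ K ⊓ Subgroup.centralizer (X : Set G) ∧ D ≤ K ⊓ Subgroup.centralizer (X : Set G) ∧ Cfsg.IsElementaryAbelian p W ∧ Nat.card W = p ^ 2 ∧ D ≤ Subgroup.normalizer (W : Set G) ∧ ∃ hn : ((Subgroup.centralizer (W : Set G)).subgroupOf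 D).Normal, Nonempty ((↥D ⧸ (Subgroup.centralizer (W : Set G)).subgroupOf D) ≃* Matrix.SpecialLinearGroup (Fin 2) (ZMod p)) := by
  let N := Subgroup.normalizer (K : Set G)
  have hKN : K ≤ N := Subgroup.le_normalizer
  let e := Subgroup.subgroupOfEquivOfLe hKN
  have hi := N.subtype_injective
  obtain ⟨h1, W, D, h2, h3, h4, h5, h6, ψ, h7, h8⟩ := H4.exists_plane_of_coprime_normal
    (K := K.subgroupOf N) (X := X.subgroupOf N) (q := q)
    (L0.IsPSolvable.of_injective hsep e.toMonoidHom e.injective)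
    (by rw [← L0.map_pPrimeCore_equiv e.symm, hO, Subgroup.map_bot])
    (H4.EA.isPGroup hX).comap_subtype (by rwa [L0.card_subgroupOf_of_le hKN])
    (fun h => hnf ((H4.isThompsonFactorizable_iff_of_surjective e.toMonoidHom e.surjective (by
      rw [(MonoidHom.ker_eq_bot_iff _).2 e.injective, Subgroup.card_bot]
      exact (Fact.out : p.Prime).one_lt.ne' ∘ Nat.dvd_one.1)).1 h))
  have h9 : (K.subgroupOf N ⊓ Subgroup.centralizer (X.subgroupOf N : Set N)).map N.subtype =
      K ⊓ Subgroup.centralizer (X : Set G) := by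
    rw [H4.map_centralizer_of_injective _ hi, Subgroup.map_subgroupOf_eq_of_le hKN,
      Subgroup.map_subgroupOf_eq_of_le hXK]
  let f := D.equivMapOfInjective N.subtype hi
  have hk : (ψ.comp f.symm.toMonoidHom).ker =
      (Subgroup.centralizer ((W.map N.subtype : Subgroup G) : Set G)).subgroupOf
        (D.map N.subtype) := by
    ext d
    obtain ⟨d, rfl⟩ := f.surjective d
    rw [MonoidHom.mem_ker, MonoidHom.comp_apply, MulEquiv.coe_toMonoidHom, f.symm_apply_apply, h8,
      ← Subgroup.mem_map_iff_mem hi, H7.map_subtype_centralizer, Subgroup.mem_subgroupOf]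
    exact ⟨fun h => h.2, fun h => ⟨d.1.2, h⟩⟩
  have hn : ((Subgroup.centralizer ((W.map N.subtype : Subgroup G) : Set G)).subgroupOf
      (D.map N.subtype)).Normal := hk ▸ inferInstance
  exact ⟨h1, W.map N.subtype, D.map N.subtype, h9 ▸ Subgroup.map_mono h2,
    h9 ▸ Subgroup.map_mono h3, H4.EA.map h4 _, by rw [L0.card_map_subtype, h5],
    H8.map_le_normalizer_map h6 _, hn,
    ⟨(QuotientGroup.quotientMulEquivOfEq hk.symm).trans
      (QuotientGroup.quotientKerEquivOfSurjective _ (h7.comp f.symm.surjective))⟩⟩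

end Cfsg.Agent.S0621
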