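import Cfsg.Statements.S0622
import Cfsg.Agent.H4.WS

set_option autoImplicit false
universe u
open Cfsg

namespace Cfsg.Agent.S0622

/-- Basic properties of the stable normal closure W(S) of Ω₁(Z(S)) in a finite p-group: characteristic, squeezed between Ω₁(Z(S)) and Ω₁(Z(J(S))), nontrivial for S ≠ 1, and transported by group isomorphisms. -/
theorem result {S : Type u} [Group S] [Finite S] {p : ℕ} [Fact p.Prime] (hS : IsPGroup p S) : (Cfsg.stableNormalClosure p S).Characteristic ∧ Cfsg.omegaOne p (Subgroup.center S) ≤ Cfsg.stableNormalClosure p S ∧ Cfsg.stableNormalClosure p S ≤ Cfsg.omegaCenterThompson p S ∧ (Nontrivial S → Cfsg.stableNormalClosure p S ≠ ⊥) ∧ ∀ (S' : Type u) [Group S'] (η : S ≃* S'), (Cfsg.stableNormalClosure p S).map η.toMonoidHom = Cfsg.stableNormalClosure p S' := by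
  exact ⟨H4.stableNormalClosure_characteristic, H4.omegaOne_center_le_stableNormalClosure,
    H4.stableNormalClosure_le_omegaCenterThompson, fun _ => H4.stableNormalClosure_ne_bot hS,
    fun _ _ η => H4.map_stableNormalClosure_equiv η⟩

end Cfsg.Agent.S0622
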