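import Cfsg.Statements.S0633
import Cfsg.Agent.H4.HH2
import Cfsg.Agent.L0.PSolvable
import Mathlib.RingTheory.Flat.Basic

set_option autoImplicit false
open Cfsg Subgroup Cfsg.Agent.FT Cfsg.Agent.L0 Cfsg.Agent.H8 Cfsg.Agent.H4.HH

namespace Cfsg.Agent.S0633

/-- Theorem B of Hall and Higman on the minimal polynomial of a p-element of order p^n in a p-solvable linear group on a nonzero vector space in characteristic p with no nontrivial normal p-subgroup: its degree is p^n, except when some p^n₀ - 1 (n₀ ≤ n) is a power of a prime q for which the Sylow q-subgroups are non-abelian, in which case the degree is at least p^(n-n₀)(p^n₀ - 1). -/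
theorem result {F : Type*} [Field F] {p : ℕ} [Fact p.Prime] [CharP F p] {V : Type*} [AddCommGroup V] [Module F V] [FiniteDimensional F V] [Nontrivial V] (H : Subgroup (V ≃ₗ[F] V)) [Finite H] (hsol : Cfsg.IsPSolvable p H) (hOp : Cfsg.pCore p H = ⊥) (x : V ≃ₗ[F] V) (hx : x ∈ H) (n : ℕ) (hn : orderOf x = p ^ n) (r : ℕ) (hr : minpoly F (x : Module.End F V) = (Polynomial.X - 1) ^ r) : r = p ^ n ∨ ∃ n₀ q m : ℕ, 1 ≤ n₀ ∧ n₀ ≤ n ∧ q.Prime ∧ 1 ≤ m ∧ p ^ n₀ - 1 = q ^ m ∧ (∀ Q : Sylow q H, ¬ IsMulCommutative Q) ∧ p ^ (n - n₀) * (p ^ n₀ - 1) ≤ r := by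
  have hp : p.Prime := Fact.out
  have h0 : ((x : Module.End F V) - 1) ^ r = 0 := by simpa [hr] using minpoly.aeval F (x : Module.End F V)
  have h1 : x ^ p ^ n = 1 := hn ▸ pow_orderOf_eq_one x
  have h2 : r ≤ p ^ n := by
    have := minpoly.dvd F (x : Module.End F V) (p := (Polynomial.X - 1) ^ p ^ n) (by
      rw [map_pow, map_sub, Polynomial.aeval_X, map_one, (geo (F := F) _ n).2, sub_eq_zero]
      exact (map_pow LinearEquiv.automorphismGroup.toLinearMapMonoidHom x _).symm.trans (by rw [h1, map_one]))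
    rwa [hr, pow_dvd_pow_iff (Polynomial.X_sub_C_ne_zero 1) (Polynomial.not_isUnit_X_sub_C 1)] at this
  rcases n with _ | n
  · rcases r with _ | r
    · exact absurd h0 one_ne_zero
    · left; simp at h2 ⊢; omega
  let y : H := ⟨x, hx⟩
  have h3 : y ^ p ^ (n + 1) = 1 := Subtype.ext h1
  have h4 : IsPGroup p (zpowers y) := IsPGroup.of_card_dvd_pow ((Nat.card_zpowers y).symm ▸ orderOf_dvd_of_pow_eq_one h3)
  have ca := CopAct.of_pgroup h4 (not_dvd_card_pPrimeCore (p := p) (G := H)) (le_top.trans (normalizer_eq_top _).ge)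
  obtain ⟨q, hq, hd, h5⟩ : ∃ q : ℕ, q.Prime ∧ q ∣ #|pPrimeCore p H| ∧
      ∀ P, IsSylowIn q P (pPrimeCore p H) → ¬ P ≤ 𝐂[y ^ p ^ n] := by
    by_contra hc
    push Not at hc
    have := IsPSolvable.centralizer_pPrimeCore_le hsol hOp (le_centralizer_singleton_iff.1 (le_of_forall_isSylowIn_le hc))
    have : x ^ p ^ n = 1 := congrArg Subtype.val (mem_bot.1 (ca.inf_eq_bot.le ⟨npow_mem_zpowers y _, this⟩))
    exact absurd (hn ▸ orderOf_dvd_of_pow_eq_one this) (mt (Nat.pow_dvd_pow_iff_le_right hp.one_lt).1 (by omega))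
  have := Fact.mk hq
  obtain ⟨Q, hQ, h6⟩ := ca.exists_invariant_sylow (p := q)
  let φ := Module.End.baseChangeHom F (AlgebraicClosure F) V
  have hφ : Function.Injective φ := LinearMap.baseChangeHom_injective F V (AlgebraicClosure F)
  have hρ : Rp.RepOn ⊤ fun g : H => φ g.1 := ⟨map_one φ, fun _ _ => map_mul φ _ _⟩
  obtain ⟨k, k1, k2⟩ := main (by rintro rfl; exact not_dvd_card_pPrimeCore hd) (∀ Q : Sylow q H, ¬ IsMulCommutative Q) _ n
    (Nat.lt_succ_self _) hρ le_top trivial hQ.pgroup (h6 (mem_zpowers y)) h3 (fun h => h5 Q hQ fun g hg => by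
      have := h g hg
      rw [← map_mul, ← map_mul] at this
      exact mem_centralizer_singleton_iff.2 (Subtype.ext (LinearEquiv.toLinearMap_injective (hφ this))))
    (or_iff_not_imp_right.2 fun h a ha b hb => by
      push Not at h
      obtain ⟨T, hT⟩ := h
      obtain ⟨P, hP, hle⟩ := exists_isSylowIn_ge hQ.pgroup le_top
      obtain ⟨k, -, e⟩ := hP.exists_cj_eq (isSylowIn_top T)
      have := comm_of_mem hT (e ▸ conj_mem_cj k (hle ha)) (e ▸ conj_mem_cj k (hle hb))
      exact (MulAut.conj k).injective (by simpa using this))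
  have h7 : k + 1 ≤ r := not_lt.1 fun h => k2 (by
    simpa only [map_pow, map_sub, map_one, map_zero] using congrArg φ (pow_eq_zero_of_le (Nat.le_of_lt_succ h) h0))
  rcases k1 with e | ⟨n₀, m, a, b, c, d, e, f⟩
  · exact Or.inl (by omega)
  · exact Or.inr ⟨n₀, q, m, a, b, hq, c, d, e, f ▸ h7⟩

end Cfsg.Agent.S0633
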