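import Cfsg.Statements.S0657
import Cfsg.Agent.H5.QuadSL2
import Mathlib

set_option autoImplicit false
open Cfsg

namespace Cfsg.Agent.S0657

/-- For odd p, a group that fails to be p-stable modulo its largest normal subgroup of order prime to p, and whose upper p-series does not stop there, has a section isomorphic to SL(2, p). -/
theorem result {G : Type*} [Group G] [Finite G] {p : ℕ} [Fact p.Prime] (hp : p ≠ 2) (hO : Cfsg.pPrimeCore p G < Cfsg.pPrimePCore p G) (hns : ¬ Cfsg.IsPStable p (G ⧸ Cfsg.pPrimeCore p G)) : ∃ (K L : Subgroup G) (hL : (L.subgroupOf K).Normal), K ≤ ⊤ ∧ Nonempty ((K ⧸ L.subgroupOf K) ≃* Matrix.SpecialLinearGroup (Fin 2) (ZMod p)) := by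
  apply H5.SecIn.exists_quotient
  apply H5.SecIn.of_surjective _ (QuotientGroup.mk'_surjective (pPrimeCore p G))
  by_contra hn
  apply hns
  rw [H5.isPStable_iff]
  refine ⟨(Fact.out : p.Prime).odd_of_ne_two hp, fun e => ?_, fun A P h1 h2 h3 h4 h5 => ?_⟩
  · rw [L0.pPrimePCore_def, e, MonoidHom.comap_bot, QuotientGroup.ker_mk'] at hO
    exact lt_irrefl _ hO
  · rw [L0.pPrimeCore_quotient_pPrimeCore, bot_sup_eq] at h4
    rw [Subgroup.normalizer_eq_top]
    exact H5.inQCore_of_not_secIn_sl hp hn h2 h5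

end Cfsg.Agent.S0657
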