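import Cfsg.Statements.S0658
import Cfsg.Agent.H5.PStable
import Mathlib

set_option autoImplicit false
open Cfsg

namespace Cfsg.Agent.S0658

/-- In a group of characteristic p type all of whose p-locals are p-stable (p odd), the normalizer of Z(J(P)) contains the normalizer of every nontrivial subgroup of the Sylow p-subgroup P. -/
theorem result {G : Type*} [Group G] [Finite G] {p : ℕ} [Fact p.Prime] (hp : p ≠ 2) (hloc : ∀ Q : Subgroup G, IsPGroup p Q → Q ≠ ⊥ → Cfsg.pPrimeCore p ↥(Subgroup.normalizer (Q : Set G)) = ⊥ ∧ Cfsg.IsPConstrained p ↥(Subgroup.normalizer (Q : Set G)) ∧ Cfsg.IsPStable p ↥(Subgroup.normalizer (Q : Set G))) (P : Sylow p G) (Q : Subgroup G) (hQP : Q ≤ (P : Subgroup G)) (hQ1 : Q ≠ ⊥) : Subgroup.normalizer (Q : Set G) ≤ Subgroup.normalizer (Cfsg.centerThompsonAOf ((P : Subgroup G)) : Set G) := by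
  by_contra hcon
  obtain ⟨Q, ⟨hQP, hQ1, hQ⟩, hmax⟩ := Set.exists_max_image
    {Q : Subgroup G | Q ≤ P ∧ Q ≠ ⊥ ∧ ¬ Subgroup.normalizer (Q : Set G) ≤
      Subgroup.normalizer (centerThompsonAOf (P : Subgroup G) : Set G)}
    (fun Q => Nat.card ↥((P : Subgroup G) ⊓ Subgroup.normalizer (Q : Set G))) (Set.toFinite _)
    ⟨Q, hQP, hQ1, hcon⟩
  have key : ∀ U : Subgroup G, U ≤ P → U ≠ ⊥ →
      Nat.card ↥((P : Subgroup G) ⊓ Subgroup.normalizer (Q : Set G)) <
        Nat.card ↥((P : Subgroup G) ⊓ Subgroup.normalizer (U : Set G)) →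
      Subgroup.normalizer (U : Set G) ≤
        Subgroup.normalizer (centerThompsonAOf (P : Subgroup G) : Set G) := by
    intro U h1 h2 h3
    by_contra h4
    exact absurd (hmax U ⟨h1, h2, h4⟩) (not_le.mpr h3)
  obtain ⟨hO, hc, hs⟩ := hloc Q (P.isPGroup'.to_le hQP) hQ1
  set R := (P : Subgroup G) ⊓ Subgroup.normalizer (Q : Set G) with hR
  have hRp : IsPGroup p R := P.isPGroup'.to_le inf_le_left
  have hQR : Q ≤ R := le_inf hQP Subgroup.le_normalizer
  have hR1 : R ≠ ⊥ := fun e => hQ1 (eq_bot_iff.mpr (e ▸ hQR))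
  rcases (inf_le_left : R ≤ P).eq_or_lt with e | hlt
  · exact hQ (H5.le_normalizer_centerThompsonAOf hO hc hs
      ((H8.isSylowIn_top P).of_le (e.ge.trans inf_le_right) le_top))
  have h1 := H5.card_lt_of_lt (H5.lt_inf_normalizer P.isPGroup' hlt)
  obtain ⟨T, hT, hRT⟩ := H8.exists_isSylowIn_ge hRp (inf_le_right : R ≤ _)
  rcases hRT.eq_or_lt with e | hlt'
  · rw [← e] at hT
    exact hQ ((H5.le_normalizer_centerThompsonAOf hO hc hs hT).trans
      (key _ ((H5.centerThompsonAOf_le R).trans inf_le_left) (H5.centerThompsonAOf_ne_bot hRp hR1)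
        (h1.trans_le (Subgroup.card_le_of_le (inf_le_inf_left _
          (H5.normalizer_le_normalizer_centerThompsonAOf R))))))
  have h2 := key R inf_le_left hR1 h1
  have h3 := H5.lt_inf_normalizer hT.2 hlt'
  have hPM : H8.IsSylowIn p (P : Subgroup G)
      (Subgroup.normalizer (centerThompsonAOf (P : Subgroup G) : Set G)) :=
    (H8.isSylowIn_top P).of_le (Subgroup.le_normalizer.trans
      (H5.normalizer_le_normalizer_centerThompsonAOf _)) le_top
  obtain ⟨T', hT', hTT'⟩ := H8.exists_isSylowIn_ge (hT.2.to_le inf_le_left)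
    ((inf_le_right : T ⊓ Subgroup.normalizer (R : Set G) ≤ _).trans h2)
  obtain ⟨m, hm, e⟩ := hT'.exists_cj_eq hPM
  have h4 : H8.cj m (T ⊓ Subgroup.normalizer (R : Set G)) ≤ P := e ▸ H8.cj_mono m hTT'
  have h5 := key (H8.cj m Q) ((H8.cj_mono m (hQR.trans h3.le)).trans h4)
    (by rwa [Ne, H8.cj_eq_bot_iff]) ((H5.card_lt_of_lt h3).trans_le (by
      rw [← H8.card_cj m]
      refine Subgroup.card_le_of_le (le_inf h4 ?_)
      rw [← H8.cj_normalizer]
      exact H8.cj_mono m (inf_le_left.trans hT.1)))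
  rw [← H8.cj_normalizer, H8.cj_le_iff, H8.cj_eq_self (Subgroup.le_normalizer (inv_mem hm))] at h5
  exact hQ h5

end Cfsg.Agent.S0658
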