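import Cfsg.Statements.S0662
import Cfsg.Agent.H5.Uniserial
import Mathlib

set_option autoImplicit false
open Cfsg

namespace Cfsg.Agent.S0662

/-- In a p-group of maximal class of order at least p³ the normal subgroups of index at least p² are exactly the terms of the lower central series, and there are exactly p + 1 normal subgroups of index p. -/
theorem result {G : Type*} [Group G] [Finite G] {p : ℕ} [Fact p.Prime] (n : ℕ) (hG : Nat.card G = p ^ n) (hcl : Group.nilpotencyClass G = n - 1) (hn : 3 ≤ n) : (∀ (N : Subgroup G) [N.Normal] (r : ℕ), 2 ≤ r → N.index = p ^ r → N = (⊤ : Subgroup G).lowerCentralSeries (r - 1)) ∧ Nat.card {N : Subgroup G // N.Normal ∧ N.index = p} = p + 1 := by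
  have hp : p.Prime := Fact.out
  have hP : IsPGroup p G := IsPGroup.of_card hG
  haveI : Group.IsNilpotent G := hP.isNilpotent
  have hit : ∀ i, iterCommutator (_root_.commutator G) ⊤ i =
      (⊤ : Subgroup G).lowerCentralSeries (i + 1) := by
    intro i
    induction i with
    | zero => rfl
    | succ i ih => rw [H5.iterCommutator_succ, ih]; rfl
  have hne : (⊤ : Subgroup G).lowerCentralSeries (n - 3 + 1) ≠ ⊥ := by
    rw [Ne, Subgroup.lowerCentralSeries_eq_bot_iff_nilpotencyClass_le]; omega
  have hne1 : (⊤ : Subgroup G).lowerCentralSeries (0 + 1) ≠ ⊥ := by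
    rw [Ne, Subgroup.lowerCentralSeries_eq_bot_iff_nilpotencyClass_le]; omega
  have h1 := (H5.card_lowerCentralSeries_mul_le hP 0).resolve_left hne1
  have h2 : Nat.card (_root_.commutator G) ≤ p ^ (n - 3 + 1) := by
    rw [hG, show p ^ n = p ^ (n - 3 + 1) * p ^ (0 + 2) by rw [← pow_add]; congr 1; omega] at h1
    exact Nat.le_of_mul_le_mul_right h1 (pow_pos hp.pos _)
  have h3 := H5.card_iterCommutator_eq (hP.to_subgroup (_root_.commutator G)) (hP.to_subgroup ⊤)
    Subgroup.le_normalizer_of_normal h2 (by rw [hit]; exact hne)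
  constructor
  · intro N _ r hr hN
    have h4 := N.card_mul_index
    rw [hN, hG] at h4
    have hrn : r ≤ n := (Nat.pow_dvd_pow_iff_le_right hp.one_lt).mp (Dvd.intro_left _ h4)
    have h5 : Nat.card N = p ^ (n - r) := by
      rw [show p ^ n = p ^ (n - r) * p ^ r by rw [← pow_add]; congr 1; omega] at h4
      exact Nat.eq_of_mul_eq_mul_right (pow_pos hp.pos _) h4
    have h6 := H5.lowerCentralSeries_eq_bot_of_card_le (hP.to_quotient N) (r - 2)
      (by rw [← Subgroup.index_eq_card, hN, show r - 2 + 2 = r by omega])
    rw [← Subgroup.map_top_of_surjective _ (QuotientGroup.mk'_surjective N),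
      ← Subgroup.map_lowerCentralSeries, Subgroup.map_eq_bot_iff, QuotientGroup.ker_mk'] at h6
    rw [show r - 1 = r - 2 + 1 by omega]
    refine (H5.eq_of_le_of_card_le h6 ?_).symm
    rw [← hit, h3 _ (by omega), h5]
    apply le_of_eq; congr 1; omega
  · have h4 : Nat.card (_root_.commutator G) = p ^ (n - 2) := by
      have := h3 0 (by omega)
      rw [show n - 2 = n - 3 + 1 - 0 by omega]; exact this
    have h5 : Nat.card (G ⧸ _root_.commutator G) = p ^ 2 := by
      have := (_root_.commutator G).card_mul_index
      rw [h4, hG, show p ^ n = p ^ (n - 2) * p ^ 2 by rw [← pow_add]; congr 1; omega,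
        Subgroup.index_eq_card] at this
      exact Nat.eq_of_mul_eq_mul_left (pow_pos hp.pos _) this
    have hnc : ¬ IsCyclic (G ⧸ _root_.commutator G) := by
      intro hc
      obtain ⟨g, hg⟩ := IsCyclic.exists_generator (α := G ⧸ _root_.commutator G)
      obtain ⟨g, rfl⟩ := QuotientGroup.mk_surjective g
      have : Subgroup.zpowers g = ⊤ := by
        apply H5.eq_top_of_forall_le hP
        intro M h1 h2 _
        rw [eq_top_iff]
        intro x _
        obtain ⟨k, hk⟩ := hg x
        have hk' : ((g ^ k : G) : G ⧸ _root_.commutator G) = x := hk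
        rw [QuotientGroup.eq] at hk'
        simpa using M.mul_mem (h1 (Subgroup.zpow_mem_zpowers g k)) (h2 hk')
      haveI : IsCyclic G := isCyclic_iff_exists_zpowers_eq_top.mpr ⟨g, this⟩
      exact hne1 (commutator_eq_bot G)
    rw [← H5.card_subgroups_of_sq h5 hnc]
    have hidx : ∀ H : Subgroup (G ⧸ _root_.commutator G), Nat.card H = p ↔ H.index = p := by
      intro H
      have := H.card_mul_index
      rw [h5, sq] at this
      constructor
      · intro e; rw [e] at this; exact Nat.eq_of_mul_eq_mul_left hp.pos this
      · intro e; rw [e] at this; exact Nat.eq_of_mul_eq_mul_right hp.pos this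
    have hf : ∀ H : {H : Subgroup (G ⧸ _root_.commutator G) // Nat.card H = p},
        (H.1.comap (QuotientGroup.mk' (_root_.commutator G))).Normal ∧
        (H.1.comap (QuotientGroup.mk' (_root_.commutator G))).index = p := by
      intro H
      have : (H.1.comap (QuotientGroup.mk' (_root_.commutator G))).index = p := by
        rw [Subgroup.index_comap_of_surjective _ (QuotientGroup.mk'_surjective _)]
        exact (hidx _).mp H.2
      exact ⟨H5.normal_of_index_eq_prime hP this, this⟩
    refine (Nat.card_congr (Equiv.ofBijective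
      (fun H : {H : Subgroup (G ⧸ _root_.commutator G) // Nat.card H = p} =>
        (⟨H.1.comap (QuotientGroup.mk' _), hf H⟩ : {N : Subgroup G // N.Normal ∧ N.index = p}))
      ⟨fun H K e => ?_, fun N => ?_⟩)).symm
    · exact Subtype.ext (Subgroup.comap_injective (QuotientGroup.mk'_surjective _)
        (congrArg Subtype.val e))
    · obtain ⟨N, hN1, hN2⟩ := N
      have e : (N.map (QuotientGroup.mk' (_root_.commutator G))).comap (QuotientGroup.mk' _) = N :=
        Subgroup.comap_map_eq_self (by
          rw [QuotientGroup.ker_mk']; exact H5.commutator_le_of_index_prime hN2)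
      refine ⟨⟨N.map (QuotientGroup.mk' _), (hidx _).mpr ?_⟩, Subtype.ext e⟩
      rw [← Subgroup.index_comap_of_surjective _ (QuotientGroup.mk'_surjective _), e, hN2]

end Cfsg.Agent.S0662
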