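import Cfsg.Statements.S0663
import Cfsg.Agent.H5.Uniserial
import Mathlib

set_option autoImplicit false
open Cfsg

namespace Cfsg.Agent.S0663

/-- A p-group acts uniserially on a p-group N of order p^n exactly when the iterated commutator chain from N has length n; in that case the chain terms are all the invariant subgroups of N and they are normal in N. -/
theorem result {L : Type*} [Group L] [Finite L] {p : ℕ} [Fact p.Prime] (N G : Subgroup L) (hN : IsPGroup p N) (hG : IsPGroup p G) (hGN : G ≤ Subgroup.normalizer (N : Set L)) (n : ℕ) (hn : Nat.card N = p ^ n) : ((∀ H : Subgroup L, H ≤ N → G ≤ Subgroup.normalizer (H : Set L) → H ≠ ⊥ → (⁅H, G⁆).relIndex H = p) ↔ Cfsg.iterCommutator N G (n - 1) ≠ ⊥ ∨ n = 0) ∧ ((∀ H : Subgroup L, H ≤ N → G ≤ Subgroup.normalizer (H : Set L) → H ≠ ⊥ → (⁅H, G⁆).relIndex H = p) → ∀ H : Subgroup L, H ≤ N → G ≤ Subgroup.normalizer (H : Set L) → (∃ i ≤ n, H = Cfsg.iterCommutator N G i) ∧ N ≤ Subgroup.normalizer (H : Set L)) := by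
  have hp : p.Prime := Fact.out
  have key : (∀ i ≤ n, Nat.card (iterCommutator N G i) = p ^ (n - i)) →
      ∀ H : Subgroup L, H ≤ N → G ≤ Subgroup.normalizer (H : Set L) → ∃ k, Nat.card H = p ^ k ∧
        k ≤ n ∧ H = iterCommutator N G (n - k) := by
    intro h H h1 h2
    obtain ⟨k, hk⟩ := (hN.to_le h1).exists_card_eq
    exact ⟨k, hk, H5.eq_iterCommutator_of_card hN hG hGN hn h h1 h2 hk⟩
  have fwd : (∀ H : Subgroup L, H ≤ N → G ≤ Subgroup.normalizer (H : Set L) → H ≠ ⊥ →
      (⁅H, G⁆).relIndex H = p) → ∀ i ≤ n, Nat.card (iterCommutator N G i) = p ^ (n - i) := by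
    intro h i
    induction i with
    | zero => intro _; exact hn
    | succ i ih =>
      intro hi
      have h1 := ih (by omega)
      have h2 := h _ (H5.iterCommutator_le hGN i) (H5.le_normalizer_iterCommutator hGN i) (by
        intro e
        rw [e, Subgroup.card_bot] at h1
        have := (Nat.pow_eq_one.mp h1.symm).resolve_left hp.ne_one
        omega)
      have h3 := H5.card_mul_relIndex_of_le (H5.iterCommutator_succ_le hGN i)
      rw [H5.iterCommutator_succ, h2, h1, show n - i = n - (i + 1) + 1 by omega, pow_succ] at h3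
      exact Nat.eq_of_mul_eq_mul_right hp.pos h3
  refine ⟨⟨fun h => ?_, fun h H h1 h2 h3 => ?_⟩, fun h H h1 h2 => ?_⟩
  · by_cases h0 : n = 0
    · exact Or.inr h0
    left
    intro e
    have h1 := fwd h (n - 1) (by omega)
    rw [e, Subgroup.card_bot] at h1
    have := (Nat.pow_eq_one.mp h1.symm).resolve_left hp.ne_one
    omega
  · rcases n with _ | n
    · exact absurd (eq_bot_iff.mpr (h1.trans (Subgroup.card_eq_one.mp (by simpa using hn)).le)) h3
    have h4 := H5.card_iterCommutator_eq hN hG hGN hn.le (by simpa using h)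
    obtain ⟨k, hk, hkn, e⟩ := key h4 H h1 h2
    have hk0 : k ≠ 0 := by
      rintro rfl
      exact h3 (Subgroup.card_eq_one.mp (by simpa using hk))
    have h5 := H5.card_mul_relIndex_of_le
      (Subgroup.le_normalizer_iff_commutator_le_left.mp h2)
    have h6 : Nat.card ↥(⁅H, G⁆ : Subgroup L) = p ^ (k - 1) := by
      rw [e, ← H5.iterCommutator_succ, h4 _ (by omega)]
      congr 1; omega
    rw [h6, hk, show p ^ k = p ^ (k - 1) * p by rw [← pow_succ]; congr 1; omega] at h5
    exact Nat.eq_of_mul_eq_mul_left (pow_pos hp.pos _) h5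
  · have h4 := fwd h
    obtain ⟨k, hk, hkn, e⟩ := key h4 H h1 h2
    refine ⟨⟨n - k, by omega, e⟩, ?_⟩
    obtain ⟨M, a1, a2, a3⟩ := H5.exists_invariant_card_eq
      (IsPGroup.to_sup_of_normal_left' hN hG hGN) le_sup_left
      (sup_le Subgroup.le_normalizer hGN) (m := k)
      (by rw [hn]; exact Nat.pow_le_pow_right hp.pos hkn)
    have := (H5.eq_iterCommutator_of_card hN hG hGN hn h4 a1 (le_sup_right.trans a2) a3).2
    rw [e, ← this]
    exact le_sup_left.trans a2

end Cfsg.Agent.S0663
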