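import Cfsg.Statements.S0666
import Cfsg.Agent.H5.FrobFix
import Cfsg.Agent.L0.Char4
import Mathlib

set_option autoImplicit false
open Cfsg

namespace Cfsg.Agent.S0666

/-- A Frobenius group acting on a nontrivial abelian group of order prime to that of its kernel, with the kernel acting without nontrivial fixed points, has a complement with a nontrivial fixed point. -/
theorem result {G : Type*} [Group G] [Finite G] (V F : Subgroup G) (hVab : IsMulCommutative V) (hV1 : V ≠ ⊥) (hFV : F ≤ Subgroup.normalizer (V : Set G)) (H : Subgroup ↥F) (hH : Cfsg.IsFrobeniusComplement H) (hcop : (Nat.card V).Coprime (Nat.card (Cfsg.frobeniusKernel H))) (hCK : V ⊓ Subgroup.centralizer (Subtype.val '' Cfsg.frobeniusKernel H : Set G) = ⊥) : V ⊓ Subgroup.centralizer ((H.map F.subtype : Subgroup G) : Set G) ≠ ⊥ := by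
  intro hCH
  have h : ∀ g : F, g ∉ H → ∀ a ∈ H, g * a * g⁻¹ ∈ H → a = 1 := by
    intro g hg a ha hga
    have := (hH.2.2 g hg).le (x := g * a * g⁻¹) ⟨hga, Subgroup.smul_mem_pointwise_smul _ _ _ ha⟩
    simpa using this
  obtain ⟨K, -, hK, hc⟩ := L0.exists_frobenius_kernel h
  have e : frobeniusKernel H = (K : Set F) := by
    ext g
    rw [SetLike.mem_coe, hK]
    refine or_congr_right ⟨fun h1 x hx h2 => ?_, fun h1 y h2 => ?_⟩
    · obtain ⟨y, rfl⟩ := isConj_iff.mp h2.symm
      exact h1 y (Subgroup.smul_mem_pointwise_smul _ _ _ hx)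
    · obtain ⟨x, hx, rfl⟩ := (Subgroup.mem_smul_pointwise_iff_exists _ _ _).mp h2
      exact h1 x hx (isConj_iff.mpr ⟨y, rfl⟩).symm
  rw [e] at hcop hCK
  let : CommGroup V := { (inferInstance : Group V) with mul_comm := fun a b => mul_comm' a b }
  let τ : F →* MulAut V := V.normalizerMonoidHom.comp (Subgroup.inclusion hFV)
  have hτ : ∀ a (x : V), ((τ a x : V) : G) = a * x * (a : G)⁻¹ := fun a x => rfl
  have key := H5.pow_card_eq_one_of_frobenius τ h hK hc (fun v hv => by
    have : (v : G) ∈ V ⊓ Subgroup.centralizer (Subtype.val '' (K : Set F) : Set G) := by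
      refine ⟨v.2, ?_⟩
      rintro _ ⟨k, hk, rfl⟩
      have := congrArg Subtype.val (hv k hk)
      rwa [hτ, mul_inv_eq_iff_eq_mul] at this
    rw [hCK] at this
    exact Subtype.ext this) (fun v hv => by
    have : (v : G) ∈ V ⊓ Subgroup.centralizer ((H.map F.subtype : Subgroup G) : Set G) := by
      refine ⟨v.2, ?_⟩
      rintro _ ⟨k, hk, rfl⟩
      have := congrArg Subtype.val (hv k hk)
      rwa [hτ, mul_inv_eq_iff_eq_mul] at this
    rw [hCH] at this
    exact Subtype.ext this)
  apply hV1
  rw [eq_bot_iff]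
  intro v hv
  have h5 : (⟨v, hv⟩ : V) = 1 := by
    apply (powCoprime hcop).injective
    rw [powCoprime_apply, powCoprime_apply, one_pow]
    exact key _
  exact congrArg Subtype.val h5

end Cfsg.Agent.S0666
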