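import Cfsg.Statements.S0667
import Cfsg.Agent.H5.PStable
import Mathlib

set_option autoImplicit false
open Cfsg

namespace Cfsg.Agent.S0667

/-- Glauberman's Theorem in the p-constrained, p-stable vocabulary: for odd p such a group is the product of its largest normal subgroup of order prime to p with the normalizer of Z(J(P)), and Z(J(P)) is normal when that p'-subgroup is trivial. -/
theorem result {G : Type*} [Group G] [Finite G] {p : ℕ} [Fact p.Prime] (hp : p ≠ 2) (hc : Cfsg.IsPConstrained p G) (hs : Cfsg.IsPStable p G) (P : Sylow p G) : Cfsg.pPrimeCore p G ⊔ Subgroup.normalizer (Cfsg.centerThompsonAOf ((P : Subgroup G)) : Set G) = ⊤ ∧ (Cfsg.pPrimeCore p G = ⊥ → (Cfsg.centerThompsonAOf ((P : Subgroup G))).Normal) := by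
  refine ⟨H5.pPrimeCore_sup_normalizer_eq_top (P.isPGroup'.to_le (H5.centerThompsonAOf_le _)) ?_,
    fun hO => H5.centerThompsonAOf_normal_of_isPStable hO hc hs P⟩
  rw [H5.map_centerThompsonAOf_of_disjoint _
    (H4.disjoint_ker_of_isPGroup _ H5.not_dvd_card_ker_mk_pPrimeCore P.isPGroup')]
  exact H5.centerThompsonAOf_normal_of_isPStable L0.pPrimeCore_quotient_pPrimeCore
    (H5.isPConstrained_iff_quotient_pPrimeCore.mp hc)
    ((H5.isPStable_iff_of_surjective _ (QuotientGroup.mk'_surjective _)
      H5.not_dvd_card_ker_mk_pPrimeCore hs.2.1).mp hs)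
    (P.mapSurjective (QuotientGroup.mk'_surjective (pPrimeCore p G)))

end Cfsg.Agent.S0667
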