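import Cfsg.Statements.S0987
import Cfsg.Agent.H6.Count
import Cfsg.Agent.L0.PiCore

set_option autoImplicit false
open Cfsg

namespace Cfsg.Agent.S0987

/-- If a finite group has order pqr for primes p < q < r, then its Sylow r-subgroups are normal. -/
theorem result {G : Type*} [Group G] [Finite G] (p q r : ℕ) (hp : p.Prime) (hq : q.Prime) [Fact r.Prime] (hpq : p < q) (hqr : q < r) (hG : Nat.card G = p * q * r) (R : Sylow r G) : (R : Subgroup G).Normal := by
  have hr : r.Prime := Fact.out
  have : Fact p.Prime := ⟨hp⟩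
  have hsq : Squarefree (Nat.card G) := by
    rw [hG, Nat.squarefree_mul_iff, Nat.squarefree_mul_iff]
    refine ⟨Nat.Coprime.mul_left ((Nat.coprime_primes hp hr).mpr (by omega))
      ((Nat.coprime_primes hq hr).mpr (by omega)), ⟨(Nat.coprime_primes hp hq).mpr (by omega),
      hp.squarefree, hq.squarefree⟩, hr.squarefree⟩
  have := IsZGroup.of_squarefree hsq
  obtain ⟨P⟩ := (inferInstance : Nonempty (Sylow p G))
  have hmin : (Nat.card G).minFac = p := by
    have h1 : (Nat.card G).minFac ∣ p * q * r := hG ▸ Nat.minFac_dvd _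
    have h2 : (Nat.card G).minFac ≤ p :=
      Nat.minFac_le_of_dvd hp.two_le (hG ▸ Dvd.intro _ (mul_assoc p q r).symm)
    have h3 : (Nat.card G).minFac.Prime := Nat.minFac_prime (by
      rw [hG]
      have := hp.two_le; have := hq.two_le; have := hr.two_le
      have : 2 * 2 * 2 ≤ p * q * r := by gcongr
      omega)
    rcases (Nat.Prime.dvd_mul h3).mp h1 with h | h
    · rcases (Nat.Prime.dvd_mul h3).mp h with h | h
      · exact (Nat.prime_dvd_prime_iff_eq h3 hp).mp h
      · have := (Nat.prime_dvd_prime_iff_eq h3 hq).mp h; omega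
    · have := (Nat.prime_dvd_prime_iff_eq h3 hr).mp h; omega
  have hc := IsCyclic.isComplement' hmin (inferInstance : IsCyclic P)
  set N := (MonoidHom.transferSylow P
    (IsCyclic.normalizer_le_centralizer hmin (inferInstance : IsCyclic P))).ker
  have hpP : p ∣ Nat.card (P : Subgroup G) :=
    P.dvd_card_of_dvd_card (hG ▸ Dvd.intro _ (mul_assoc p q r).symm)
  obtain ⟨k, hk⟩ := P.2.exists_card_eq
  have hidx : N.index = p ^ k := by rw [hc.symm.index_eq_card, hk]
  have hRN : (R : Subgroup G) ≤ N := by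
    refine L0.le_of_card_coprime_index ?_
    obtain ⟨j, hj⟩ := R.2.exists_card_eq
    rw [hidx, hj]
    exact Nat.Coprime.pow _ _ ((Nat.coprime_primes hr hp).mpr (by omega))
  have hN : Nat.card N ∣ q * r := by
    have h1 := hc.card_mul_card
    obtain ⟨m, hm⟩ := hpP
    rw [hG, hm] at h1
    refine ⟨m, Nat.eq_of_mul_eq_mul_left hp.pos ?_⟩
    rw [← mul_assoc, ← h1]; ring
  have h1 := (R.subtype hRN).card_dvd_index
  have h2 := card_sylow_modEq_one r N
  have h3 : ((R.subtype hRN : Sylow r N) : Subgroup N).index ∣ q := by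
    have h4 := ((R.subtype hRN : Sylow r N) : Subgroup N).index_dvd_card.trans hN
    exact (Nat.Coprime.dvd_mul_right
      ((Nat.Prime.coprime_iff_not_dvd hr).mpr (R.subtype hRN).not_dvd_index).symm).mp h4
  have h5 : Nat.card (Sylow r N) = 1 := by
    have h6 := Nat.le_of_dvd hq.pos (h1.trans h3)
    exact Nat.ModEq.eq_of_lt_of_lt h2 (by omega) hr.one_lt
  have : Subsingleton (Sylow r N) := (Nat.card_eq_one_iff_unique.mp h5).1
  have h7 : ((R.subtype hRN : Sylow r N) : Subgroup N).map N.subtype = R :=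
    Subgroup.map_subgroupOf_eq_of_le hRN
  rw [← h7]
  infer_instance

end Cfsg.Agent.S0987
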