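import Cfsg.Statements.S0988
import Cfsg.Agent.H6.Small

set_option autoImplicit false
open Cfsg

namespace Cfsg.Agent.S0988

theorem aux {G : Type*} [Group G] [Finite G] [IsSimpleGroup G] (hG : ¬ IsMulCommutative G)
    {q m : ℕ} (hq : q.Prime) (h : Nat.card G = q * m) (hm : ¬ q ∣ m) :
    ∃ n : ℕ, n ∣ m ∧ n ≠ 1 ∧ n ≠ m ∧ n ≡ 1 [MOD q] := by
  have : Fact q.Prime := ⟨hq⟩
  have h' : Nat.card G = q ^ 1 * m := by rwa [pow_one]
  have hd : q ∣ Nat.card G := Dvd.intro _ h.symm
  refine ⟨_, H6.card_sylow_dvd_of h' hm, H6.card_sylow_ne_one hG hd, fun hn => ?_,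
    card_sylow_modEq_one q G⟩
  obtain ⟨P⟩ := (inferInstance : Nonempty (Sylow q G))
  have h1 := H6.card_sylow_mul_card_normalizer P
  have hP : Nat.card (P : Subgroup G) = q := (H6.sylow_card_of h' hm P).trans (pow_one q)
  have hm0 : 0 < m := Nat.pos_of_ne_zero (by rintro rfl; exact hm (dvd_zero q))
  rw [hn, h, mul_comm q] at h1
  have h2 := Nat.eq_of_mul_eq_mul_left hm0 h1
  apply H6.relIndex_centralizer_ne_one (H6.perfect_of_simple hG) hd P
  rw [Subgroup.relIndex_eq_one, ← Subgroup.eq_of_le_of_card_ge Subgroup.le_normalizer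
    (h2.trans hP.symm).le]
  exact H6.le_centralizer_of_comm (H6.isMulCommutative_of_card_prime hP)


/-- If a finite simple group has order p^2 * q * r with p, q and r prime, then its order is 60. -/
theorem result {G : Type*} [Group G] [Finite G] [IsSimpleGroup G] (p q r : ℕ) (hp : p.Prime) (hq : q.Prime) (hr : r.Prime) (hG : Nat.card G = p ^ 2 * q * r) : Nat.card G = 60 := by
  have hΩ : ArithmeticFunction.cardFactors (Nat.card G) = 4 := by
    rw [hG, ArithmeticFunction.cardFactors_mul (mul_pos (pow_pos hp.pos 2) hq.pos).ne' hr.ne_zero,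
      ArithmeticFunction.cardFactors_mul (pow_pos hp.pos 2).ne' hq.ne_zero,
      ArithmeticFunction.cardFactors_apply_prime_pow hp,
      ArithmeticFunction.cardFactors_apply_prime hq, ArithmeticFunction.cardFactors_apply_prime hr]
  have hna : ¬ IsMulCommutative G := H6.not_isMulCommutative_of_card fun h => by
    rw [ArithmeticFunction.cardFactors_apply_prime h] at hΩ; omega
  have h1 : Nat.card G ≠ 1 := fun h => by rw [h] at hΩ; simp at hΩ
  clear hG hp hq hr p q r
  set s := (Nat.card G).minFac with hs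
  have hsp : s.Prime := Nat.minFac_prime h1
  have : Fact s.Prime := ⟨hsp⟩
  obtain ⟨q, c, hq, hqs, hqG, hc, hcG, hqc⟩ := H6.exists_prime_dvd_pow_sub_one
    (H6.perfect_of_simple hna) (p := s) (Nat.minFac_dvd _)
  have hsq : s < q := lt_of_le_of_ne (Nat.minFac_le_of_dvd hq.two_le hqG) hqs.symm
  obtain ⟨m, hm⟩ := Nat.Coprime.mul_dvd_of_dvd_of_dvd
    (Nat.Coprime.pow_left c ((Nat.coprime_primes hsp hq).mpr hqs.symm)) hcG hqG
  have hm0 : m ≠ 0 := by rintro rfl; exact Nat.card_pos.ne' hm
  have hs2 := hsp.two_le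
  rw [hm, ArithmeticFunction.cardFactors_mul (mul_pos (pow_pos hsp.pos c) hq.pos).ne' hm0,
    ArithmeticFunction.cardFactors_mul (pow_pos hsp.pos c).ne' hq.ne_zero,
    ArithmeticFunction.cardFactors_apply_prime_pow hsp,
    ArithmeticFunction.cardFactors_apply_prime hq] at hΩ
  have key : q ∣ s ^ 2 - 1 → s = 2 ∧ q = 3 := by
    intro h
    have h2 : s = 2 := by
      by_contra h2
      exact absurd (H5.lt_of_prime_dvd_sq_sub_one hsp h2 hq hqs h) (by omega)
    rw [h2] at h
    exact ⟨h2, (Nat.prime_dvd_prime_iff_eq hq (by norm_num)).mp h⟩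
  have h24 : Nat.card G ≠ 24 := fun h => by
    obtain ⟨n, h1, h2, h3, h4⟩ := aux hna (q := 3) (m := 8) (by norm_num) h (by norm_num)
    have : Fact (Nat.Prime 2) := ⟨by norm_num⟩
    have h5 := H6.two_mul_card_dvd_factorial_card_sylow hna (p := 2) (by rw [h]; norm_num)
    have h6 := H6.card_sylow_dvd_of (p := 2) (k := 3) (m := 3) h (by norm_num)
    rw [h] at h5
    rcases (Nat.dvd_prime Nat.prime_three).mp h6 with h7 | h7 <;> rw [h7] at h5 <;>
      revert h5 <;> decide
  obtain rfl | rfl | rfl : c = 1 ∨ c = 2 ∨ c = 3 := by omega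
  · rw [pow_one] at hqc
    have := Nat.le_of_dvd (by omega) hqc
    omega
  · obtain ⟨h2, rfl⟩ := key hqc
    have hmp : m.Prime := ArithmeticFunction.cardFactors_eq_one_iff_prime.mp (by omega)
    rw [h2] at hm
    by_cases hm5 : m ≤ 5
    · interval_cases m
      · exact absurd rfl hm0
      · exact absurd hmp (by norm_num)
      · exact absurd hm h24
      · have : Fact (Nat.Prime 3) := ⟨by norm_num⟩
        have h5 := H6.two_mul_card_dvd_factorial_card_sylow hna (p := 3) (by rw [hm]; norm_num)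
        have h6 := H6.card_sylow_dvd_of (p := 3) (k := 2) (m := 4) hm (by norm_num)
        have h7 := Nat.le_of_dvd (by norm_num) h6
        rw [hm] at h5
        generalize Nat.card (Sylow 3 G) = n at *
        interval_cases n <;> (exfalso; revert h5; decide)
      · exact absurd hmp (by norm_num)
      · exact hm
    · exfalso
      have h12 : ¬ m ∣ 12 := fun h => by
        have := Nat.le_of_dvd (by norm_num) h
        interval_cases m <;> first | omega | (revert hmp; norm_num)
      obtain ⟨n, h1, h2, h3, h4⟩ := aux hna (q := m) (m := 12) hmp (by rw [hm]; ring) h12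
      have h5 := Nat.le_of_dvd (by norm_num) h1
      have h6 := (Nat.modEq_iff_dvd' (Nat.pos_of_dvd_of_pos h1 (by norm_num))).mp h4.symm
      have h7 : 0 < n := Nat.pos_of_dvd_of_pos h1 (by norm_num)
      have h8 := Nat.le_of_dvd (by omega) h6
      interval_cases n <;> omega
  · exfalso
    have hm1 : m = 1 := (ArithmeticFunction.cardFactors_eq_zero_iff_eq_zero_or_one.mp
      (by omega)).resolve_left hm0
    subst hm1
    have h3 : ¬ q ∣ s ^ 3 := fun h =>
      hqs ((Nat.prime_dvd_prime_iff_eq hq hsp).mp (hq.dvd_of_dvd_pow h))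
    obtain ⟨n, h1, h2, h3, h4⟩ := aux hna (q := q) (m := s ^ 3) hq (by rw [hm]; ring) h3
    obtain ⟨k, hk, rfl⟩ := (Nat.dvd_prime_pow hsp).mp h1
    have h6 := (Nat.modEq_iff_dvd' (pow_pos hsp.pos k)).mp h4.symm
    interval_cases k
    · exact h2 rfl
    · rw [pow_one] at h6
      have := Nat.le_of_dvd (by omega) h6
      omega
    · obtain ⟨h7, rfl⟩ := key h6
      rw [h7] at hm
      exact h24 hm
    · exact h3 rfl

end Cfsg.Agent.S0988
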