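import Cfsg.Statements.S0989
import Cfsg.Agent.H6.Count

set_option autoImplicit false
open Cfsg

namespace Cfsg.Agent.S0989

/-- In the symmetric group on p or p + 1 letters, p a prime, the normalizer of a Sylow p-subgroup has order p * (p - 1). -/
theorem result {α : Type*} [Fintype α] [DecidableEq α] (p : ℕ) [Fact p.Prime] (hα : Fintype.card α = p ∨ Fintype.card α = p + 1) (P : Sylow p (Equiv.Perm α)) : Nat.card ↥(Subgroup.normalizer ((P : Subgroup (Equiv.Perm α)) : Set (Equiv.Perm α))) = p * (p - 1) := by
  have hp : p.Prime := Fact.out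
  have hple : p ≤ Fintype.card α := by omega
  have hcard : Nat.card (Equiv.Perm α) = (Fintype.card α).factorial := by
    rw [Nat.card_perm, Nat.card_eq_fintype_card]
  have hlt : Fintype.card α < 2 * p := by have := hp.two_le; omega
  have hP : Nat.card (P : Subgroup (Equiv.Perm α)) = p := by
    rw [P.card_eq_multiplicity, hcard, Nat.factorization_factorial hp (b := 2)]
    · have : Fintype.card α / p = 1 := by
        rw [Nat.div_eq_iff hp.pos]; omega
      simp [this]
    · apply Nat.log_lt_of_lt_pow (by have := hp.two_le; omega)
      have := hp.two_le; nlinarith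
  have h1 := H6.ncard_orderOf_eq_prime P hP
  have h2 := H6.card_sylow_mul_card_normalizer P
  have h3 := Equiv.Perm.card_of_cycleType_singleton (α := α) hp.two_le hple
  have h4 : {x : Equiv.Perm α | orderOf x = p}.ncard =
      (p - 1).factorial * (Fintype.card α).choose p := by
    rw [← h3, ← Set.ncard_coe_finset]
    congr 1
    ext x
    simp only [Set.mem_ofPred_eq, Finset.coe_filter, Finset.mem_univ, true_and]
    constructor
    · intro hx
      have hc := Equiv.Perm.isCycle_of_prime_order (σ := x) (hx ▸ hp)
        (lt_of_le_of_lt (Finset.card_le_univ _) (hx ▸ hlt))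
      rw [hc.cycleType, ← hc.orderOf, hx]
    · intro hx
      rw [← Equiv.Perm.lcm_cycleType, hx]; simp
  rw [h4] at h1
  rw [hcard] at h2
  generalize Nat.card (Sylow p (Equiv.Perm α)) = n at *
  generalize Nat.card ↥(Subgroup.normalizer ((P : Subgroup (Equiv.Perm α)) : Set (Equiv.Perm α))) = m at *
  have h5 : (Fintype.card α).factorial = p * ((p - 1).factorial * (Fintype.card α).choose p) := by
    rw [← mul_assoc, Nat.mul_factorial_pred hp.ne_zero]
    rcases hα with h | h
    · rw [h]; simp
    · rw [h, Nat.factorial_succ, Nat.choose_succ_self_right, mul_comm]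
  rw [h5, h1] at h2
  have hn : 0 < n := by
    rcases Nat.eq_zero_or_pos n with rfl | h
    · have := Nat.factorial_pos (Fintype.card α)
      rw [h5, h1] at this; simp at this
    · exact h
  apply Nat.eq_of_mul_eq_mul_left hn
  rw [h2]; ring

end Cfsg.Agent.S0989
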