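import Cfsg.Statements.S0990
import Cfsg.Agent.H6.Count

set_option autoImplicit false
open Cfsg

namespace Cfsg.Agent.S0990

/-- Let p be an odd prime and P a Sylow p-subgroup of the symmetric group on a finite set with at least two elements. Then P is contained in the alternating group, and twice the order of the normalizer of P inside the alternating group equals the order of the normalizer of P in the symmetric group. -/
theorem result {α : Type*} [Fintype α] [DecidableEq α] (hα : 2 ≤ Fintype.card α) (p : ℕ) [Fact p.Prime] (hp : p ≠ 2) (P : Sylow p (Equiv.Perm α)) : (P : Subgroup (Equiv.Perm α)) ≤ alternatingGroup α ∧ 2 * Nat.card ↥(Subgroup.normalizer ((((P : Subgroup (Equiv.Perm α)).subgroupOf (alternatingGroup α) : Subgroup ↥(alternatingGroup α)) : Set ↥(alternatingGroup α)))) = Nat.card ↥(Subgroup.normalizer ((P : Subgroup (Equiv.Perm α)) : Set (Equiv.Perm α))) := by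
  have hpp : p.Prime := Fact.out
  have : Nontrivial α := Fintype.one_lt_card_iff_nontrivial.mp hα
  have hle : (P : Subgroup (Equiv.Perm α)) ≤ alternatingGroup α := by
    intro x hx
    obtain ⟨k, hk⟩ := P.2 ⟨x, hx⟩
    have hk' : x ^ p ^ k = 1 := congrArg Subtype.val hk
    have h1 := congrArg Equiv.Perm.sign hk'
    rw [map_pow, map_one] at h1
    rw [Equiv.Perm.mem_alternatingGroup]
    rcases Int.units_eq_one_or (Equiv.Perm.sign x) with h | h
    · exact h
    · rw [h, Odd.neg_one_pow (Odd.pow (hpp.odd_of_ne_two hp))] at h1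
      exact absurd h1 (by decide)
  refine ⟨hle, ?_⟩
  rw [← Subgroup.subgroupOf_normalizer_eq hle]
  set N := Subgroup.normalizer ((P : Subgroup (Equiv.Perm α)) : Set (Equiv.Perm α))
  have h1 : N ⊔ alternatingGroup α = ⊤ := P.normalizer_sup_eq_top' hle
  have h2 := H8.card_sup_mul_card_inf (H := N) (N := alternatingGroup α)
    Subgroup.le_normalizer_of_normal
  rw [sup_comm, h1, Subgroup.card_top, ← two_mul_nat_card_alternatingGroup] at h2
  have h3 : Nat.card (N.subgroupOf (alternatingGroup α)) = Nat.card ↥(alternatingGroup α ⊓ N) := by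
    rw [← Subgroup.inf_subgroupOf_left]
    exact Nat.card_congr (Subgroup.subgroupOfEquivOfLe inf_le_left).toEquiv
  rw [h3]
  apply Nat.eq_of_mul_eq_mul_left (Nat.card_pos (α := alternatingGroup α))
  rw [← h2]; ring

end Cfsg.Agent.S0990
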