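import Cfsg.Statements.S0992
import Cfsg.Agent.H6.Small

set_option autoImplicit false
open Cfsg

namespace Cfsg.Agent.S0992

/-- Let G be a non-abelian finite simple group of even order not divisible by 8, and T a Sylow 2-subgroup. Then T is a Klein four-group and the centralizer of T has index 3 in the normalizer of T. -/
theorem result {G : Type*} [Group G] [Finite G] [IsSimpleGroup G] (hG : ¬ IsMulCommutative G) (h2 : Even (Nat.card G)) (h8 : ¬ 8 ∣ Nat.card G) (T : Sylow 2 G) : IsKleinFour ↥(T : Subgroup G) ∧ (Subgroup.centralizer ((T : Subgroup G) : Set G)).relIndex (Subgroup.normalizer ((T : Subgroup G) : Set G)) = 3 := by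
  have : Fact (Nat.Prime 2) := ⟨by norm_num⟩
  have hd : 2 ∣ Nat.card G := h2.two_dvd
  obtain ⟨k, hk⟩ := T.2.exists_card_eq
  have h1 := H6.relIndex_centralizer_ne_one (H6.perfect_of_simple hG) hd T
  have hk2 : k ≤ 2 := by
    by_contra hlt
    exact h8 ((pow_dvd_pow 2 (by omega : 3 ≤ k)).trans (hk ▸ Subgroup.card_subgroup_dvd_card _))
  have hcomm : IsMulCommutative (T : Subgroup G) := by
    interval_cases k
    · have : Subsingleton (T : Subgroup G) := (Nat.card_eq_one_iff_unique.mp hk).1
      infer_instance
    · exact H6.isMulCommutative_of_card_prime (p := 2) hk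
    · exact H6.isMulCommutative_of_card_sq hk
  have h3 := H6.relIndex_centralizer_dvd_index hcomm
  have h4 : ¬ 2 ∣ _ := fun h => T.not_dvd_index (h.trans h3)
  have hnc : ¬ IsCyclic (T : Subgroup G) := fun hc => by
    have h5 := H6.relIndex_centralizer_dvd_totient (T : Subgroup G)
    rw [hk] at h5
    have h6 : _ ∣ 2 := h5.trans (by interval_cases k <;> decide)
    rcases (Nat.dvd_prime Nat.prime_two).mp h6 with h | h
    · exact h1 h
    · exact h4 (by rw [h])
  have hk3 : k = 2 := by
    interval_cases k
    · have : Subsingleton (T : Subgroup G) := (Nat.card_eq_one_iff_unique.mp hk).1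
      exact hnc inferInstance |>.elim
    · exact absurd (isCyclic_of_prime_card (p := 2) hk) hnc
    · rfl
  subst hk3
  refine ⟨⟨hk, (not_isCyclic_iff_exponent_eq_prime Nat.prime_two hk).mp hnc⟩, ?_⟩
  have h5 := (H6.relIndex_centralizer_dvd_card_mulAut (T : Subgroup G)).trans
    (H6.card_mulAut_dvd_factorial _)
  rw [hk] at h5
  have h6 : _ ∣ 6 := h5
  have h7 := Nat.le_of_dvd (by norm_num) h6
  generalize (Subgroup.centralizer ((T : Subgroup G) : Set G)).relIndex _ = r at *
  interval_cases r <;> omega

end Cfsg.Agent.S0992
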