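import Cfsg.Statements.S0995
import Cfsg.Agent.H6.Count

set_option autoImplicit false
open Cfsg

namespace Cfsg.Agent.S0995

/-- Let G be a finite perfect group containing an element z of prime order p whose centralizer is the cyclic group it generates. Let t be the number of conjugacy classes of elements of order p. Then t divides p - 1, the number of Sylow p-subgroups has the form 1 + n * p, and |G| * t = (p - 1) * p * (1 + n * p). -/
theorem result {G : Type*} [Group G] [Finite G] (hperf : commutator G = ⊤) (p : ℕ) [Fact p.Prime] (z : G) (hz : orderOf z = p) (hC : Subgroup.centralizer ({z} : Set G) = Subgroup.zpowers z) : ∃ n t : ℕ, t = Nat.card {c : ConjClasses G // ∃ g : G, ConjClasses.mk g = c ∧ orderOf g = p} ∧ t ∣ p - 1 ∧ Nat.card (Sylow p G) = 1 + n * p ∧ Nat.card G * t = (p - 1) * p * (1 + n * p) := by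
  have hp : p.Prime := Fact.out
  have hz1 : z ≠ 1 := by rintro rfl; rw [orderOf_one] at hz; exact hp.ne_one hz.symm
  obtain ⟨P, hzP⟩ := H6.exists_sylow_mem (p := p) (x := z)
    ⟨1, by rw [pow_one, ← hz, pow_orderOf_eq_one]⟩
  have hcz : Nat.card (Subgroup.zpowers z) = p := by rw [Nat.card_zpowers, hz]
  have hPz : (P : Subgroup G) = Subgroup.zpowers z := by
    refine le_antisymm ?_ (Subgroup.zpowers_le.mpr hzP)
    have : Nontrivial (P : Subgroup G) := ⟨⟨z, hzP⟩, 1, fun h => hz1 (congrArg Subtype.val h)⟩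
    have := P.2.center_nontrivial
    obtain ⟨⟨⟨w, hwP⟩, hw⟩, hw1⟩ := exists_ne (1 : Subgroup.center (P : Subgroup G))
    have hw1' : w ≠ 1 := fun h => hw1 (Subtype.ext (Subtype.ext h))
    have hc : ∀ g ∈ (P : Subgroup G), g * w = w * g := fun g hg =>
      congrArg Subtype.val (Subgroup.mem_center_iff.mp hw ⟨g, hg⟩)
    have hwz : w ∈ Subgroup.zpowers z := by
      rw [← hC, Subgroup.mem_centralizer_singleton_iff]; exact (hc z hzP).symm
    rw [← hC, ← H8.centralizer_zpowers, H6.eq_zpowers_of_card_prime hcz hwz hw1',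
      H8.centralizer_zpowers]
    exact fun g hg => Subgroup.mem_centralizer_singleton_iff.mpr (hc g hg)
  have hP : Nat.card (P : Subgroup G) = p := by rw [hPz, hcz]
  have h1 := H6.ncard_orderOf_eq_prime P hP
  have h2 := H6.ncard_mul_eq_of_centralizer {x : G | orderOf x = p}
    (fun x hx y hy => (H6.orderOf_eq_of_isConj hy).symm.trans hx) (c := p) (by
      intro x hx
      rw [Set.mem_ofPred_eq] at hx
      have hx1 : x ≠ 1 := by rintro rfl; rw [orderOf_one] at hx; exact hp.ne_one hx.symm
      obtain ⟨Q, hQ⟩ := H6.exists_sylow_mem (p := p) (x := x)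
        ⟨1, by rw [pow_one, ← hx, pow_orderOf_eq_one]⟩
      obtain ⟨g, rfl⟩ := MulAction.exists_smul_eq G P Q
      have e0 : ((g • P : Sylow p G) : Subgroup G) = H8.cj g P := rfl
      rw [← H8.centralizer_zpowers, ← H6.eq_zpowers_of_card_prime
        ((H6.sylow_card_eq _ P).trans hP) hQ hx1, e0, ← H8.cj_centralizer, H8.card_cj, hPz,
        H8.centralizer_zpowers, hC, hcz])
  have h3 := H6.card_sylow_mul_card_normalizer P
  obtain ⟨e, he⟩ : p ∣ Nat.card (Subgroup.normalizer ((P : Subgroup G) : Set G)) :=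
    hP.symm.dvd.trans (Subgroup.card_dvd_of_le Subgroup.le_normalizer)
  have h4 := card_sylow_modEq_one p G
  have hpos : 0 < Nat.card (Sylow p G) := Nat.card_pos
  obtain ⟨n, hn⟩ := (Nat.modEq_iff_dvd' hpos).mp h4.symm
  have ht : {k : ConjClasses G | ∃ g ∈ {x : G | orderOf x = p}, ConjClasses.mk g = k}.ncard =
      Nat.card {c : ConjClasses G // ∃ g : G, ConjClasses.mk g = c ∧ orderOf g = p} := by
    rw [← Nat.card_coe_set_eq]
    refine Nat.card_congr (Equiv.subtypeEquivRight fun c => ?_)
    simp only [Set.mem_ofPred_eq]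
    exact exists_congr fun g => and_comm
  rw [ht, h1] at h2
  refine ⟨n, _, rfl, ?_, by rw [mul_comm]; omega, ?_⟩
  · refine ⟨e, Nat.eq_of_mul_eq_mul_left (mul_pos hpos hp.pos) ?_⟩
    rw [← h3, he] at h2
    linarith
  · rw [show 1 + n * p = Nat.card (Sylow p G) by rw [mul_comm]; omega]
    linarith

end Cfsg.Agent.S0995
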