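import Cfsg.Statements.S0999
import Cfsg.Agent.H6.FewD

set_option autoImplicit false
open Cfsg

namespace Cfsg.Agent.S0999

/-- Let G be a non-cyclic finite simple group and p a prime divisor of its order with p^3 > |G|. Then p > 3 and G is isomorphic to the projective special linear group of dimension 2 over the field with p elements, or p - 1 is a power of 2 and G is isomorphic to that group over the field with p - 1 elements. -/
theorem result {G : Type*} [Group G] [Finite G] [IsSimpleGroup G] (hG : ¬ IsCyclic G) (p : ℕ) (hp : p.Prime) (hdvd : p ∣ Nat.card G) (hbig : Nat.card G < p ^ 3) : (∃ (F : Type) (_ : Field F) (_ : Fintype F), Fintype.card F = p ∧ 3 < p ∧ Nonempty (G ≃* Matrix.ProjectiveSpecialLinearGroup (Fin 2) F)) ∨ (∃ (m : ℕ) (F : Type) (_ : Field F) (_ : Fintype F), Fintype.card F = 2 ^ m ∧ p = 2 ^ m + 1 ∧ 3 < p ∧ Nonempty (G ≃* Matrix.ProjectiveSpecialLinearGroup (Fin 2) F)) := by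
  have := Fact.mk hp
  have h1 := H6.not_isMulCommutative_of_not_isCyclic hG
  obtain ⟨D, B, n, h2, h3⟩ := H6.exists_few_of_lt h1 hdvd hbig
  exact h2.result (H6.perfect_of_simple h1) h3

end Cfsg.Agent.S0999
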