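import Cfsg.Statements.S1001
import Cfsg.Agent.H6.DefZero

set_option autoImplicit false
open Cfsg

namespace Cfsg.Agent.S1001

/-- In a finite simple group whose order has the form p * 3^a * 2^b with p prime, the centralizer of any element of order p is the cyclic group it generates. -/
theorem result {G : Type*} [Group G] [Finite G] [IsSimpleGroup G] (p a b : ℕ) (hp : p.Prime) (hG : Nat.card G = p * 3 ^ a * 2 ^ b) (x : G) (hx : orderOf x = p) : Subgroup.centralizer ({x} : Set G) = Subgroup.zpowers x := by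
  have := Fact.mk hp
  by_cases h : IsMulCommutative G
  · have h1 : Subgroup.zpowers x = ⊤ := (IsSimpleGroup.eq_bot_or_eq_top_of_normal _
      ⟨fun n hn g => by rwa [h.is_comm.comm g, mul_inv_cancel_right]⟩).resolve_left fun h => by
        rw [Subgroup.zpowers_eq_bot] at h
        rw [h, orderOf_one] at hx
        exact hp.one_lt.ne hx
    rw [h1, eq_top_iff]
    exact fun g _ => Subgroup.mem_centralizer_singleton_iff.mpr (h.is_comm.comm _ _)
  have h1 : ¬ Group.IsSolvable G := fun h1 => h (IsSimpleGroup.comm_iff_isSolvable.mpr h1 |> fun h =>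
    ⟨⟨h⟩⟩)
  have h2 : p ≠ 2 := by
    rintro rfl
    exact h1 (L0.isSolvable_of_card_eq_pow_mul_pow (p := 3) (q := 2) (a := a) (b := b + 1)
      (by norm_num) (by norm_num) (by rw [hG]; ring))
  have h3 : p ≠ 3 := by
    rintro rfl
    exact h1 (L0.isSolvable_of_card_eq_pow_mul_pow (p := 3) (q := 2) (a := a + 1) (b := b)
      (by norm_num) (by norm_num) (by rw [hG]; ring))
  obtain ⟨D, rfl⟩ := H6.exists_setup hx (by
    rw [hG, sq, mul_assoc, Nat.mul_dvd_mul_iff_left hp.pos]
    intro h4
    rcases (Nat.Prime.dvd_mul hp).mp h4 with h4 | h4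
    · exact h3 ((Nat.prime_dvd_prime_iff_eq hp (by norm_num)).mp (hp.dvd_of_dvd_pow h4))
    · exact h2 ((Nat.prime_dvd_prime_iff_eq hp (by norm_num)).mp (hp.dvd_of_dvd_pow h4)))
  exact D.centralizer_eq_iff.mpr (D.K_eq_bot_of_three h (q := 3) (r := 2) (a := a) (b := b)
    (by norm_num) (by norm_num) (by rw [hG, mul_assoc]))

end Cfsg.Agent.S1001
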