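import Cfsg.Statements.S1006
import Cfsg.Agent.H6.O168

set_option autoImplicit false
open Cfsg

namespace Cfsg.Agent.S1006

/-- In a simple group of order 168 there are 56 elements of order 3, all conjugate; 42 elements of order 4, all conjugate; and 48 elements of order 7 falling into two conjugacy classes of size 24, an element of order 7 not being conjugate to its inverse. -/
theorem result {G : Type*} [Group G] [Finite G] [IsSimpleGroup G] (h : Nat.card G = 168) : Nat.card {g : G // orderOf g = 3} = 56 ∧ (∀ s t : G, orderOf s = 3 → orderOf t = 3 → IsConj s t) ∧ Nat.card {g : G // orderOf g = 4} = 42 ∧ (∀ s t : G, orderOf s = 4 → orderOf t = 4 → IsConj s t) ∧ Nat.card {g : G // orderOf g = 7} = 48 ∧ ∀ x : G, orderOf x = 7 → Nat.card {g : G // IsConj x g} = 24 ∧ ¬ IsConj x x⁻¹ := by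
  refine ⟨H6.O168.ord3 h, fun s t hs ht => ((H6.O168.cl3_eq h hs).ge ht : t ∈ H6.cl s), ?_,
    fun s t hs ht => ((H6.O168.cl4_eq h hs).ge ht : t ∈ H6.cl s), H6.O168.ord7 h,
    fun x hx => ⟨?_, fun hc => ?_⟩⟩
  · obtain ⟨u, hu, -⟩ := H6.O168.classes2 h
    have := H6.O168.cl4 h hu
    rw [H6.O168.cl4_eq h hu] at this
    exact this
  · have := H6.ncard_cl_mul_card_centralizer x
    rw [H6.O168.cent7 h hx, Nat.card_zpowers, hx, h] at this
    change (H6.cl x).ncard = 24
    omega
  · obtain ⟨g, hg⟩ := isConj_iff.mp hc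
    obtain ⟨P, hP⟩ := H6.O168.exists_sylow_eq h (H6.O168.card7 h) hx
    have h1 : g ∈ Subgroup.normalizer ((P : Subgroup G) : Set G) := by
      refine H8.mem_normalizer_of_cj_le ?_
      rw [hP]
      rintro _ ⟨y, hy, rfl⟩
      change g * y * g⁻¹ ∈ _
      rw [H4.conj_eq_inv_of_mem_zpowers hg hy]
      exact inv_mem hy
    have h2 : g ^ 21 = 1 := orderOf_dvd_iff_pow_eq_one.mp
      (H6.O168.N7 h P ▸ Subgroup.orderOf_dvd_natCard _ h1)
    have h3 : Commute (g ^ 2) x := by
      have : g * x⁻¹ * g⁻¹ = x := by rw [← conj_inv, hg, inv_inv]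
      change g ^ 2 * x = x * g ^ 2
      calc g ^ 2 * x = g * (g * x * g⁻¹) * g := by rw [pow_two]; group
        _ = g * x⁻¹ * g⁻¹ * g ^ 2 := by rw [hg, pow_two]; group
        _ = _ := by rw [this]
    have h4 : Commute g x := by
      have := h3.pow_left 11
      rwa [← pow_mul, show 2 * 11 = 21 + 1 by norm_num, pow_succ, h2, one_mul] at this
    rw [h4.eq, mul_inv_cancel_right] at hg
    have h5 : x ^ 2 = 1 := by rw [pow_two]; nth_rewrite 1 [hg]; exact inv_mul_cancel x
    have := orderOf_dvd_of_pow_eq_one h5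
    rw [hx] at this
    omega

end Cfsg.Agent.S1006
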