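import Cfsg.Statements.S1008
import Cfsg.Agent.H6.O168

set_option autoImplicit false
open Cfsg

namespace Cfsg.Agent.S1008

/-- In a simple group of order 168 every maximal subgroup is either isomorphic to the symmetric group of degree 4 or non-abelian of order 21; the maximal subgroups of order 21 form one conjugacy class and those isomorphic to the symmetric group of degree 4 form exactly two conjugacy classes. -/
theorem result {G : Type*} [Group G] [Finite G] [IsSimpleGroup G] (h : Nat.card G = 168) : (∀ M : Subgroup G, IsCoatom M → Nonempty (↥M ≃* Equiv.Perm (Fin 4)) ∨ (Nat.card ↥M = 21 ∧ ¬ IsMulCommutative ↥M)) ∧ (∀ M M' : Subgroup G, IsCoatom M → IsCoatom M' → Nat.card ↥M = 21 → Nat.card ↥M' = 21 → ∃ g : G, M' = M.map (MulAut.conj g).toMonoidHom) ∧ ∃ M₁ M₂ : Subgroup G, IsCoatom M₁ ∧ IsCoatom M₂ ∧ Nonempty (↥M₁ ≃* Equiv.Perm (Fin 4)) ∧ Nonempty (↥M₂ ≃* Equiv.Perm (Fin 4)) ∧ (∀ g : G, M₂ ≠ M₁.map (MulAut.conj g).toMonoidHom) ∧ ∀ M :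 Subgroup G, IsCoatom M → Nonempty (↥M ≃* Equiv.Perm (Fin 4)) → ∃ g : G, M = M₁.map (MulAut.conj g).toMonoidHom ∨ M = M₂.map (MulAut.conj g).toMonoidHom := by
  have c24 : ∀ M : Subgroup G, Nonempty (↥M ≃* Equiv.Perm (Fin 4)) → Nat.card M = 24 := by
    rintro M ⟨e⟩
    rw [Nat.card_congr e.toEquiv, Nat.card_perm, Nat.card_eq_fintype_card, Fintype.card_fin]
    rfl
  refine ⟨fun M hM => ?_, fun M M' hM hM' h1 h2 => ?_, ?_⟩
  · rcases H6.O168.coatom_eq h hM with ⟨P, rfl⟩ | ⟨U, hU, rfl⟩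
    · refine Or.inr ⟨H6.O168.N7 h P, fun hc => ?_⟩
      have h1 := (H6.le_centralizer_of_comm hc).trans
        (Subgroup.centralizer_le (Subgroup.le_normalizer (H := (P : Subgroup G))))
      have := Subgroup.card_le_of_le h1
      rw [H6.O168.C7 h, H6.O168.N7 h, H6.O168.card7 h] at this
      omega
    · exact Or.inl (H6.O168.iso_of_card h (H6.O168.card_normalizer_klein h hU))
  · rcases H6.O168.coatom_eq h hM with ⟨P, rfl⟩ | ⟨U, hU, rfl⟩
    swap
    · rw [H6.O168.card_normalizer_klein h hU] at h1; omega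
    rcases H6.O168.coatom_eq h hM' with ⟨Q, rfl⟩ | ⟨U, hU, rfl⟩
    swap
    · rw [H6.O168.card_normalizer_klein h hU] at h2; omega
    obtain ⟨g, rfl⟩ := MulAction.exists_smul_eq G P Q
    exact ⟨g, (H8.cj_normalizer g _).symm⟩
  · obtain ⟨T⟩ := (inferInstance : Nonempty (Sylow 2 G))
    obtain ⟨U, W, hne, h1⟩ := H6.O168.exists_kleins h T
    obtain ⟨hUT, hU⟩ := (h1 U).mpr (Or.inl rfl)
    obtain ⟨hWT, hW⟩ := (h1 W).mpr (Or.inr rfl)
    refine ⟨_, _, H6.O168.isCoatom_klein h hU, H6.O168.isCoatom_klein h hW,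
      H6.O168.iso_of_card h (H6.O168.card_normalizer_klein h hU),
      H6.O168.iso_of_card h (H6.O168.card_normalizer_klein h hW), fun g hg => ?_,
      fun M hM hM' => ?_⟩
    · exact H6.O168.klein_not_conj h hUT hWT hU hW hne g (H6.O168.klein_eq_of_normalizer_eq h
        (H6.O168.klein_cj hU g) hW (hg.trans (H8.cj_normalizer g U)).symm)
    · rcases H6.O168.coatom_eq h hM with ⟨P, rfl⟩ | ⟨V, hV, rfl⟩
      · have := c24 _ hM'
        rw [H6.O168.N7 h] at this
        omega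
      obtain ⟨S, hS⟩ := (IsPGroup.of_card (p := 2) (n := 2) hV.card_four).exists_le_sylow
      obtain ⟨g, rfl⟩ := MulAction.exists_smul_eq G T S
      have h2 : H8.cj g⁻¹ V ≤ T := by rw [H8.cj_le_iff, inv_inv]; exact hS
      refine ⟨g, ?_⟩
      rcases (h1 _).mp ⟨h2, H6.O168.klein_cj hV _⟩ with h3 | h3
      · left; rw [← h3]; exact ((H8.cj_normalizer g _).trans (by rw [H8.cj_cj_inv])).symm
      · right; rw [← h3]; exact ((H8.cj_normalizer g _).trans (by rw [H8.cj_cj_inv])).symm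

end Cfsg.Agent.S1008
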