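import Cfsg.Statements.S1009
import Cfsg.Agent.H6.Count

set_option autoImplicit false
open Cfsg

namespace Cfsg.Agent.S1009

/-- Brodkey's Theorem: if a finite group has abelian Sylow p-subgroups, then there are two Sylow p-subgroups whose intersection equals the intersection of all Sylow p-subgroups. -/
theorem result {G : Type*} [Group G] [Finite G] (p : ℕ) [Fact p.Prime] (hab : ∀ P : Sylow p G, IsMulCommutative ↥(P : Subgroup G)) : ∃ P Q : Sylow p G, (P : Subgroup G) ⊓ (Q : Subgroup G) = ⨅ R : Sylow p G, (R : Subgroup G) := by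
  obtain ⟨⟨P, Q⟩, -, hmin⟩ := Set.Finite.exists_minimalFor
    (fun x : Sylow p G × Sylow p G => (x.1 : Subgroup G) ⊓ x.2) Set.univ Set.finite_univ
    Set.univ_nonempty
  refine ⟨P, Q, le_antisymm ?_ (le_inf (iInf_le _ _) (iInf_le _ _))⟩
  set D : Subgroup G := (P : Subgroup G) ⊓ Q with hD
  set N := Subgroup.normalizer (D : Set G) with hN
  have hDp : IsPGroup p D := P.2.to_inf_left
  have hc : ∀ R : Sylow p G, D ≤ R → (R : Subgroup G) ≤ N := fun R hR =>
    le_trans (fun x hx => Subgroup.mem_centralizer_iff.mpr fun y hy => by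
      have := hab R
      exact setLike_mul_comm (hR hy) hx) (Subgroup.centralizer_le_normalizer _)
  refine le_iInf fun R => ?_
  obtain ⟨S, hS, hRS⟩ := H8.exists_isSylowIn_ge (R.2.to_inf_left (K := N)) inf_le_right
  have hP : H8.IsSylowIn p (P : Subgroup G) N :=
    (H8.isSylowIn_top P).of_le (hc P inf_le_left) le_top
  obtain ⟨n, hn, hnS⟩ := hS.exists_cj_eq hP
  have e0 : ((n • R : Sylow p G) : Subgroup G) = H8.cj n R := rfl
  have e1 : ((n • R : Sylow p G) : Subgroup G) ⊓ Q ≤ D := by
    refine le_inf ?_ inf_le_right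
    rw [← hnS, e0]
    refine le_trans ?_ (H8.cj_mono n hRS)
    rw [H8.cj_inf, H8.cj_eq_self (Subgroup.le_normalizer hn)]
    exact inf_le_inf_left _ (hc Q inf_le_right)
  have e2 : D ≤ H8.cj n R := (hmin (j := (n • R, Q)) trivial e1).trans inf_le_left
  rwa [← H8.cj_eq_self hn, H8.cj_le_cj_iff] at e2

end Cfsg.Agent.S1009
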