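import Cfsg.Statements.S1010
import Cfsg.Agent.H6.Sieve2
import Cfsg.Agent.S1009

set_option autoImplicit false
open Cfsg

namespace Cfsg.Agent.S1010

open Subgroup MulAction Cfsg.Agent.H6
open scoped commutatorElement Pointwise
set_option linter.unusedSectionVars false

section general
variable {G : Type*} [Group G] [Finite G] {p : ℕ} [hp : Fact p.Prime]

theorem card_sylow_sub {H : Subgroup G} (P : Sylow p G) (h : (P : Subgroup G) ≤ H) :
    Nat.card (Sylow p H) = (orbit H P).ncard := by
  rw [(P.subtype h).card_eq_index_normalizer, ← index_stabilizer, ← Sylow.coe_coe, Sylow.coe_subtype,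
    ← subgroupOf_normalizer_eq h, ← stabilizer_sylow]
  rfl

theorem orbit_sup {K : Subgroup G} {P : Sylow p G} (h : (P : Subgroup G) ≤ normalizer (K : Set G)) :
    orbit ((P : Subgroup G) ⊔ K : Subgroup G) P = orbit K P := by
  ext Q
  constructor
  · rintro ⟨⟨g, hg⟩, rfl⟩
    rw [sup_comm, ← SetLike.mem_coe, coe_mul_of_right_le_normalizer_left _ _ h] at hg
    obtain ⟨k, hk, a, ha, rfl⟩ := hg
    refine ⟨⟨k, hk⟩, ?_⟩
    show k • P = (k * a) • P
    rw [mul_smul, Sylow.smul_eq_iff_mem_normalizer.2 (le_normalizer ha)]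
  · rintro ⟨⟨k, hk⟩, rfl⟩
    exact ⟨⟨k, mem_sup_right hk⟩, rfl⟩

theorem eq_of_le_normalizer {P Q : Sylow p G} (h : (Q : Subgroup G) ≤ normalizer ((P : Subgroup G) : Set G)) :
    P = Q := by
  refine (sylow_eq_of_le fun x hx => ?_).symm
  exact (smul_sylow_eq_iff_mem (pow_eq_one_of_mem_sylow hx) P).1 (Sylow.smul_eq_iff_mem_normalizer.2 (h hx))

theorem card_sylow_quot (K : Subgroup G) [K.Normal]
    (h : ∀ P : Sylow p G, K ≤ normalizer ((P : Subgroup G) : Set G)) :
    Nat.card (Sylow p (G ⧸ K)) = Nat.card (Sylow p G) := by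
  refine (Nat.card_eq_of_bijective _ ⟨fun P Q e => ?_,
    Sylow.mapSurjective_surjective (QuotientGroup.mk'_surjective K) p⟩).symm
  have e2 := congrArg (fun R : Sylow p (G ⧸ K) => (R : Subgroup (G ⧸ K)).comap (QuotientGroup.mk' K)) e
  simp only [Sylow.coe_mapSurjective, comap_map_eq, QuotientGroup.ker_mk'] at e2
  exact eq_of_le_normalizer (le_sup_left.trans (e2.ge.trans (sup_le le_normalizer (h P))))

theorem le_normalizer_of_orbit {K : Subgroup G} {P : Sylow p G} (h : (orbit K P).ncard = 1) :
    K ≤ normalizer ((P : Subgroup G) : Set G) := fun k hk => by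
  obtain ⟨R, hR⟩ := Set.ncard_eq_one.1 h
  have h1 : P ∈ ({R} : Set _) := hR ▸ mem_orbit_self P
  have h2 : k • P ∈ ({R} : Set _) := hR ▸ mem_orbit P (⟨k, hk⟩ : K)
  exact Sylow.smul_eq_iff_mem_normalizer.1 (h2.trans h1.symm)

end general

theorem simple_case {G : Type*} [Group G] [Finite G] [IsSimpleGroup G] : Nat.card (Sylow 5 G) ≠ 21 := by
  classical
  intro h
  have : Fact (Nat.Prime 5) := ⟨by norm_num⟩
  have := Fintype.ofFinite G
  have one : ∀ P : Sylow 5 G, (P : Subgroup G).Normal → False := fun P hP => by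
    have := Sylow.unique_of_normal P hP
    rw [Nat.card_unique] at h; omega
  have hG : ¬ IsMulCommutative G := fun hc => one default (normal_of_isMulCommutative _)
  have idx : ∀ P Q : Sylow 5 G, Q ≠ P → (Q : Subgroup G).relIndex P = 5 := fun P Q hne => by
    have h1 : (Q : Subgroup G).relIndex P = (orbit (P : Subgroup G) Q).ncard := by
      rw [← index_stabilizer, stabilizer_sylow_eq P.isPGroup']; rfl
    obtain ⟨k, hk⟩ := P.isPGroup'.index ((Q : Subgroup G).subgroupOf P)
    have h2 : (orbit (P : Subgroup G) Q).ncard ≤ 21 := h ▸ Set.ncard_le_card _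
    have h3 : (Q : Subgroup G).relIndex P = 5 ^ k := hk
    rcases k with _ | _ | k
    · exact absurd (sylow_eq_of_le (relIndex_eq_one.1 h3)).symm hne
    · exact h3
    · have : 0 < 5 ^ k := by positivity
      rw [pow_succ, pow_succ] at h3; omega
  have hinf : ⨅ R : Sylow 5 G, (R : Subgroup G) = ⊥ := by
    have hn : (⨅ R : Sylow 5 G, (R : Subgroup G)).Normal := ⟨fun x hx g => mem_iInf.2 fun R => by
      have := mem_iInf.1 hx (g⁻¹ • R)
      rw [Sylow.coe_subgroup_smul, mem_pointwise_smul_iff_inv_smul_mem] at this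
      simpa using this⟩
    refine hn.eq_bot_or_eq_top.resolve_right fun e => one default ?_
    rw [top_le_iff.1 (e.ge.trans (iInf_le _ default))]; infer_instance
  have hab : ∀ P : Sylow 5 G, IsMulCommutative (P : Subgroup G) := fun P => by
    refine ⟨⟨fun a b => commutatorElement_eq_one_iff_mul_comm.1 (Subtype.ext ?_)⟩⟩
    refine mem_bot.1 (hinf ▸ mem_iInf.2 fun R => ?_)
    by_cases e : R = P
    · exact e ▸ (⁅a, b⁆ : (P : Subgroup G)).2
    have h1 : ((R : Subgroup G).subgroupOf P).index = 5 := idx P R e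
    obtain ⟨n, hn⟩ := P.isPGroup'.exists_card_eq
    have h2 : ((R : Subgroup G).subgroupOf P).Normal := normal_of_index_eq_minFac_card (by
      rcases n with _ | n
      · have := ((R : Subgroup G).subgroupOf P).index_dvd_card
        rw [h1, hn] at this; norm_num at this
      · rw [h1, hn, (by norm_num : Nat.Prime 5).pow_minFac (by omega)])
    have h3 : IsCyclic ((P : Subgroup G) ⧸ (R : Subgroup G).subgroupOf P) := isCyclic_of_prime_card (p := 5) h1
    have h4 : (QuotientGroup.mk' ((R : Subgroup G).subgroupOf P)) ⁅a, b⁆ = 1 := by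
      rw [map_commutatorElement, commutatorElement_eq_one_iff_mul_comm]
      exact h3.isMulCommutative.1.1 _ _
    exact mem_subgroupOf.1 ((QuotientGroup.eq_one_iff _).1 h4)
  obtain ⟨P, Q, e⟩ := S1009.result 5 hab
  rw [hinf] at e
  have hP : Nat.card (P : Subgroup G) = 5 := by
    by_cases e' : Q = P
    · rw [e', inf_idem] at e
      exact (one P (e ▸ inferInstance)).elim
    refine Eq.trans ?_ (idx P Q e')
    rw [← inf_relIndex_right, inf_comm, e, relIndex_bot_left]
  have h5 : 5 ∣ Nat.card G := hP ▸ card_subgroup_dvd_card _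
  have h25 : ¬ 5 ^ 2 ∣ Nat.card G := fun hd => P.not_dvd_index (by
    rw [← (P : Subgroup G).card_mul_index, hP, sq] at hd
    exact Nat.dvd_of_mul_dvd_mul_left (by norm_num) hd)
  set C := centralizer ((P : Subgroup G) : Set G) with hC
  have hcomm : ∀ y : C, ∀ x : (P : Subgroup G), (x : G) * y = y * x := fun y x => y.2 x x.2
  let act : MulAction C (orbitRel.Quotient (P : Subgroup G) (Sylow 5 G)) :=
    { smul := fun y => Quotient.map' (fun R => (y : G) • R) (by
        rintro R S ⟨x, rfl⟩
        exact ⟨x, show (x : G) • (y : G) • S = (y : G) • (x : G) • S by rw [← mul_smul, hcomm, mul_smul]⟩)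
      one_smul := fun a => Quotient.inductionOn' a fun R => congrArg Quotient.mk'' (one_smul G R)
      mul_smul := fun y z a => Quotient.inductionOn' a fun R => congrArg Quotient.mk'' (mul_smul (y : G) z R) }
  have horb : Nat.card (orbitRel.Quotient (P : Subgroup G) (Sylow 5 G)) = 5 := by
    have := Fintype.ofFinite (Sylow 5 G)
    have := Fintype.ofFinite (orbitRel.Quotient (P : Subgroup G) (Sylow 5 G))
    have h1 := sum_card_fixedBy_eq_card_orbits_mul_card_group (P : Subgroup G) (Sylow 5 G)
    rw [← Finset.add_sum_erase _ _ (Finset.mem_univ 1), Finset.sum_congr rfl (g := fun _ => 1), Finset.sum_const,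
      Finset.card_erase_of_mem (Finset.mem_univ _), Finset.card_univ] at h1
    · simp only [← Nat.card_eq_fintype_card] at h1
      rw [hP, fixedBy_one_eq_univ, Nat.card_congr (Equiv.Set.univ _), h, smul_eq_mul] at h1
      exact Nat.eq_of_mul_eq_mul_right (show 0 < 5 by norm_num) h1.symm
    · intro x hx
      refine Fintype.card_eq_one_iff.2 ⟨⟨P, Sylow.smul_eq_iff_mem_normalizer.2 (le_normalizer x.2)⟩, fun R => ?_⟩
      exact Subtype.ext (eq_of_smul_sylow_eq hP x.2 (fun e => Finset.ne_of_mem_erase hx (Subtype.ext e)) R.2)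
  obtain ⟨g, hg⟩ := exists_smul_sylow_ne hG h5 P
  let f := toPermHom C (orbitRel.Quotient (P : Subgroup G) (Sylow 5 G))
  have hker : IsPGroup 5 f.ker := fun y => ⟨1, Subtype.ext (Subtype.ext (by
    refine eq_one_of_forall_smul_eq hg fun R => ?_
    have h1 : f y (Quotient.mk'' R) = Quotient.mk'' R := by rw [MonoidHom.mem_ker.1 y.2]; rfl
    obtain ⟨x, hx⟩ : ((y : C) : G) • R ∈ orbit (P : Subgroup G) R := Quotient.exact' h1
    have h2 : ∀ n : ℕ, ((y : C) : G) ^ n • R = (x : G) ^ n • R := fun n => by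
      induction n with
      | zero => simp
      | succ n ih =>
        rw [pow_succ', mul_smul, ih, ← mul_smul, ← Subgroup.coe_pow, ← hcomm, mul_smul, ← hx, Subgroup.coe_pow,
          pow_succ, mul_smul]
        rfl
    have h3 : x ^ 5 = 1 := by have := pow_card_eq_one' (x := x); rwa [hP] at this
    show ((y : C) : G) ^ 5 ^ 1 • R = R
    rw [h2, pow_one, ← Subgroup.coe_pow, h3]; exact one_smul G R))⟩
  have hCd : Nat.card C ∣ 120 := by
    have := Fintype.ofFinite (orbitRel.Quotient (P : Subgroup G) (Sylow 5 G))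
    obtain ⟨n, hn⟩ := hker.exists_card_eq
    have h1 := f.ker.card_mul_index
    have h2 : f.ker.index ∣ 120 := by
      rw [index_ker]
      have := card_subgroup_dvd_card f.range
      rwa [Nat.card_eq_fintype_card (α := Equiv.Perm _), Fintype.card_perm, ← Nat.card_eq_fintype_card, horb] at this
    have h3 : ¬ 25 ∣ Nat.card C := fun hd => h25 (hd.trans (card_subgroup_dvd_card C))
    rw [← h1, hn] at h3 ⊢
    generalize f.ker.index = m at h2 h3
    rcases n with _ | _ | n
    · simpa using h2
    · have := Nat.le_of_dvd (by norm_num) h2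
      interval_cases m <;> simp_all
    · exact absurd (Dvd.dvd.mul_right (pow_dvd_pow 5 (show 2 ≤ n + 1 + 1 by omega)) m) h3
  have hd : Nat.card G ∣ 10080 := by
    rw [← card_sylow_mul_card_normalizer P, ← relIndex_centralizer_mul_card, h]
    exact mul_dvd_mul_left 21 (mul_dvd_mul (relIndex_centralizer_dvd_sub_one hP) hCd)
  have h21 : 21 ∣ Nat.card G := h ▸ (card_sylow_mul_card_normalizer P ▸ dvd_mul_right _ _)
  obtain ⟨m, hm⟩ : 105 ∣ Nat.card G := Nat.Coprime.mul_dvd_of_dvd_of_dvd (m := 5) (n := 21) (by norm_num) h5 h21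
  have hm' : m ∣ 96 := Nat.dvd_of_mul_dvd_mul_left (show 0 < 105 by norm_num) (hm ▸ hd)
  obtain ⟨D, ⟨B⟩⟩ := Sieve.exists_brauer (p := 5) rfl h5 h25
  have key : ∀ m ∈ Nat.divisors 96, Sieve.elim 101 (105 * m) = true ∨
      Sieve.elimOne 101 (105 * m) 5 [] (fun n _ _ _ => n == 21) = true := by decide +kernel
  rcases key m (Nat.mem_divisors.2 ⟨hm', by norm_num⟩) with h1 | h1
  · rw [← hm, Sieve.elim_sound hG] at h1; exact Bool.false_ne_true h1
  · obtain ⟨l, -, h2⟩ := Sieve.elimOne_sound B hG (s := 101) ((Nat.le_of_dvd (by norm_num) hd).trans_lt (by norm_num))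
      [] _ (hm ▸ h1)
    rw [h] at h2
    simp at h2

/-- No finite group has exactly twenty-one Sylow 5-subgroups. -/
theorem result {G : Type*} [Group G] [Finite G] : Nat.card (Sylow 5 G) ≠ 21 := by
  induction hn : Nat.card G using Nat.strong_induction_on generalizing G with | _ n ih => ?_
  subst hn
  intro h
  have : Fact (Nat.Prime 5) := ⟨by norm_num⟩
  have : Fact (Nat.Prime 7) := ⟨by norm_num⟩
  have sub : ∀ H : Subgroup G, Nat.card (Sylow 5 H) = 21 → H = ⊤ := fun H hH => by
    by_contra hne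
    exact ih _ (lt_of_le_of_ne (Nat.le_of_dvd Nat.card_pos (card_subgroup_dvd_card H))
      fun e => hne (eq_top_of_card_eq H e)) rfl hH
  have dich : ∀ (K : Subgroup G) [K.Normal], K ≠ ⊥ → ∀ P : Sylow 5 G, (P : Subgroup G) ⊔ K = ⊤ := by
    intro K _ hK P
    have ex : ∃ Q : Sylow 5 G, (Q : Subgroup G) ⊔ K = ⊤ := by
      by_contra hne
      refine ih _ ?_ rfl ((card_sylow_quot K fun Q => le_normalizer_of_orbit ?_).trans h)
      · have h1 := K.card_mul_index
        have h2 : 1 < Nat.card K := one_lt_card_iff_ne_bot K |>.2 hK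
        have h3 : 0 < K.index := Nat.pos_of_ne_zero FiniteIndex.index_ne_zero
        show K.index < _
        nlinarith
      · have h1 := card_sylow_sub Q (le_sup_left : (Q : Subgroup G) ≤ (Q : Subgroup G) ⊔ K)
        have h2 := card_sylow_modEq_one 5 ((Q : Subgroup G) ⊔ K : Subgroup G)
        have h3 : (orbit K Q).ncard ∣ 21 := h ▸ (IsBlock.orbit_of_normal Q).ncard_dvd_card ⟨Q, mem_orbit_self Q⟩
        have h4 : Nat.card (Sylow 5 ((Q : Subgroup G) ⊔ K : Subgroup G)) ≠ 21 := fun e => hne ⟨Q, sub _ e⟩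
        rw [orbit_sup le_normalizer_of_normal] at h1
        rw [h1] at h2 h4
        generalize (orbit K Q).ncard = m at h2 h3 h4
        have := Nat.le_of_dvd (by norm_num) h3
        unfold Nat.ModEq at h2
        interval_cases m <;> simp_all
    obtain ⟨Q, hQ⟩ := ex
    obtain ⟨g, rfl⟩ := exists_smul_eq G Q P
    rw [Sylow.coe_subgroup_smul, eq_top_iff]
    intro x _
    obtain ⟨a, ha, k, hk, e⟩ := mem_sup_of_normal_right.1 (hQ.ge (mem_top (g⁻¹ * x * g)))
    rw [show x = g * a * g⁻¹ * (g * k * g⁻¹) by rw [show g * a * g⁻¹ * (g * k * g⁻¹) = g * (a * k) * g⁻¹ by group, e]; group]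
    exact mul_mem (mem_sup_left (smul_mem_pointwise_smul _ _ _ ha)) (mem_sup_right (‹K.Normal›.conj_mem k hk g))
  have one : ∀ P : Sylow 5 G, (P : Subgroup G).Normal → False := fun P hP => by
    have := Sylow.unique_of_normal P hP
    rw [Nat.card_unique] at h; omega
  have nt : Nontrivial G := by
    by_contra hn
    rw [not_nontrivial_iff_subsingleton] at hn
    exact one default ⟨fun x hx g => by rwa [Subsingleton.elim (g * x * g⁻¹) x]⟩
  have : IsSimpleGroup G := ⟨fun K hK => by
    by_contra hne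
    obtain ⟨h1, h2⟩ := not_or.1 hne
    obtain ⟨R⟩ : Nonempty (Sylow 5 K) := inferInstance
    obtain ⟨Q, hQ⟩ := R.exists_comap_subtype_eq
    have hQK := dich K h1 Q
    have a1 : Nat.card (Sylow 5 K) ∣ 21 := by
      have b1 : (orbit K Q).ncard = 21 := by
        rw [← orbit_sup le_normalizer_of_normal, ← card_sylow_sub Q le_sup_left, hQK,
          ← h, card_sylow_sub Q le_top, ← Set.ncard_univ]
        congr 1
        exact Set.eq_univ_of_forall fun S => by
          obtain ⟨g, rfl⟩ := exists_smul_eq G Q S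
          exact ⟨⟨g, mem_top g⟩, rfl⟩
      rw [← b1, ← index_stabilizer, R.card_eq_index_normalizer, ← Sylow.coe_coe, ← hQ]
      exact index_dvd_of_le fun k hk => le_normalizer_comap _ (Sylow.smul_eq_iff_mem_normalizer.1 hk)
    have a2 : Nat.card (Sylow 5 K) = 1 := by
      have b1 := card_sylow_modEq_one 5 K
      have b2 : Nat.card (Sylow 5 K) ≠ 21 := fun e => h2 (sub K e)
      generalize Nat.card (Sylow 5 K) = m at a1 b1 b2
      have := Nat.le_of_dvd (by norm_num) a1
      unfold Nat.ModEq at b1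
      interval_cases m <;> simp_all
    have a3 : (R : Subgroup K).Normal := by
      rw [← normalizer_eq_top_iff, ← index_eq_one, ← a2, R.card_eq_index_normalizer]; rfl
    have := R.characteristic_of_normal a3
    have a4 : (R : Subgroup K).map K.subtype = ⊥ := by
      by_contra hb
      have b1 := dich _ hb Q
      rw [← hQ, sup_eq_left.2 (map_comap_le _ _)] at b1
      exact one Q (b1 ▸ inferInstance)
    have a5 : ¬ 5 ∣ Nat.card K := by
      have := R.not_dvd_index
      rwa [(map_eq_bot_iff_of_injective _ K.subtype_injective).1 a4, index_bot] at this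
    obtain ⟨S⟩ : Nonempty (Sylow 7 G) := inferInstance
    have a6 : (S : Subgroup G) ≤ K := fun x hx => by
      obtain ⟨a, ha, k, hk, e⟩ := mem_sup_of_normal_right.1 (hQK.ge (mem_top x))
      obtain ⟨i, hi⟩ := pow_eq_one_of_mem_sylow hx
      obtain ⟨j, hj⟩ := pow_eq_one_of_mem_sylow ha
      have b1 : (x : G ⧸ K) = a := by rw [← e, QuotientGroup.mk_mul, (QuotientGroup.eq_one_iff k).2 hk, mul_one]
      rw [← QuotientGroup.eq_one_iff, ← orderOf_eq_one_iff]
      refine Nat.eq_one_of_dvd_coprimes (Nat.Coprime.pow i j (show Nat.Coprime 7 5 by norm_num))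
        (orderOf_dvd_of_pow_eq_one ?_) (orderOf_dvd_of_pow_eq_one ?_)
      · rw [← QuotientGroup.mk_pow, hi]; rfl
      · rw [b1, ← QuotientGroup.mk_pow, hj]; rfl
    set N := normalizer ((S : Subgroup G) : Set G) with hN
    have a7 : N.index ∣ Nat.card K := by
      have b1 : N ⊔ K = ⊤ := S.normalizer_sup_eq_top' a6
      have b2 : K.relIndex N = K.index := by rw [← relIndex_sup_right, b1, relIndex_top_right]
      have b3 := (K.subgroupOf N).card_mul_index
      have b4 := N.card_mul_index.trans K.card_mul_index.symm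
      refine ⟨Nat.card (K.subgroupOf N), Nat.eq_of_mul_eq_mul_right
        (Nat.pos_of_ne_zero (FiniteIndex.index_ne_zero (H := K))) ?_⟩
      rw [← b4, ← b3, ← b2, relIndex]; ring
    obtain ⟨T⟩ : Nonempty (Sylow 5 N) := inferInstance
    let P : Sylow 5 G := (T.isPGroup'.map N.subtype).toSylow (by
      rw [index_map_subtype]
      exact fun hd => ((by norm_num : Nat.Prime 5).dvd_mul.1 hd).elim T.not_dvd_index fun e => a5 (e.trans a7))
    have a8 : (P : Subgroup G) ≤ N := map_subtype_le _
    have a9 := card_sylow_modEq_one 5 ((P : Subgroup G) ⊔ S : Subgroup G)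
    rw [card_sylow_sub P le_sup_left, orbit_sup a8] at a9
    obtain ⟨k, hk⟩ := S.isPGroup'.index (stabilizer (S : Subgroup G) P)
    rw [index_stabilizer] at hk
    have b1 : (orbit (S : Subgroup G) P).ncard ≤ 21 := h ▸ Set.ncard_le_card _
    have b2 : (orbit (S : Subgroup G) P).ncard = 1 := by
      rw [hk] at a9 b1 ⊢
      rcases k with _ | _ | k
      · rfl
      · exact absurd a9 (by decide)
      · have : 0 < 7 ^ k := by positivity
        rw [pow_succ, pow_succ] at b1; omega
    have b3 := index_dvd_of_le (le_normalizer_of_orbit b2)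
    rw [Sylow.coe_coe, ← P.card_eq_index_normalizer, h] at b3
    exact S.not_dvd_index ((show 7 ∣ 21 by norm_num).trans b3)⟩
  exact simple_case h

end Cfsg.Agent.S1010
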