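import Cfsg.Statements.S1013
import Cfsg.Agent.H6.Small
import Cfsg.Agent.H2.PermSimple

set_option autoImplicit false
open Cfsg

namespace Cfsg.Agent.S1013

/-- Let G be a transitive permutation group of prime degree p having more than one Sylow p-subgroup, and suppose a Sylow p-subgroup P has prime index in its normalizer. Then G is simple. -/
theorem result {α : Type*} [Fintype α] [DecidableEq α] {p : ℕ} [Fact p.Prime] (hα : Fintype.card α = p) (G : Subgroup (Equiv.Perm α)) [MulAction.IsPretransitive ↥G α] (P : Sylow p ↥G) (hn : 1 < Nat.card (Sylow p ↥G)) (ht : (((P : Subgroup ↥G).subgroupOf (Subgroup.normalizer ((P : Subgroup ↥G) : Set ↥G))).index).Prime) : IsSimpleGroup ↥G := by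
  have hp : p.Prime := Fact.out
  have hα' : Nat.card α = p := by rw [Nat.card_eq_fintype_card, hα]
  have hprim : MulAction.IsPreprimitive G α := MulAction.IsPreprimitive.of_prime_card (hα' ▸ hp)
  have hne : Nonempty α := (Nat.card_ne_zero.1 (hα' ▸ hp.ne_zero)).1
  have hdvd : ∀ M : Subgroup G, M.Normal → M ≠ ⊥ → p ∣ Nat.card M := fun M hM hb => by
    have := H2.normal_pretransitive (α := α) M hb
    exact hα' ▸ H2.card_dvd_of_pretransitive (G := M) (α := α)
  have hpG : p ∣ Nat.card G := hα' ▸ H2.card_dvd_of_pretransitive (G := G) (α := α)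
  have hP : Nat.card (P : Subgroup G) = p := by
    obtain ⟨k, hk⟩ := P.2.exists_card_eq
    have h1 : p ^ k ∣ p.factorial := by
      rw [← hk]
      refine (Subgroup.card_subgroup_dvd_card _).trans ((Subgroup.card_subgroup_dvd_card _).trans ?_)
      rw [Nat.card_perm, hα']
    have h2 : k ≠ 0 := fun h => P.ne_bot_of_dvd_card hpG (Subgroup.card_eq_one.mp (by rw [hk, h, pow_zero]))
    have h3 : ¬ 2 ≤ k := fun h => by
      have h4 := (pow_dvd_pow p h).trans h1
      rw [← Nat.mul_factorial_pred hp.ne_zero, pow_two, Nat.mul_dvd_mul_iff_left hp.pos,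
        hp.dvd_factorial] at h4
      have := hp.pos
      omega
    rw [hk, show k = 1 by omega, pow_one]
  have : Nontrivial G := Finite.one_lt_card_iff_nontrivial.mp (hp.one_lt.trans_le
    (Nat.le_of_dvd Nat.card_pos hpG))
  refine ⟨fun M hM => ?_⟩
  by_contra hcon
  push Not at hcon
  obtain ⟨hb, ht'⟩ := hcon
  set N := Subgroup.normalizer ((P : Subgroup G) : Set G) with hN
  have hS := (H8.isSylowIn_top P).inf_of_le_normalizer (N := M) Subgroup.le_normalizer_of_normal
  rw [top_inf_eq] at hS
  have hPM : (P : Subgroup G) ≤ M := by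
    have h1 := hS.dvd_card_iff.mpr (hdvd M hM hb)
    have := Subgroup.eq_of_le_of_card_ge (inf_le_left : (P : Subgroup G) ⊓ M ≤ P)
      (hP.le.trans (Nat.le_of_dvd Nat.card_pos h1))
    exact this ▸ inf_le_right
  rw [inf_eq_left.mpr hPM] at hS
  have h1 : (P : Subgroup G).relIndex (M ⊓ N) * (M ⊓ N).relIndex N = (P : Subgroup G).relIndex N :=
    Subgroup.relIndex_mul_relIndex _ _ _ (le_inf hPM Subgroup.le_normalizer) inf_le_right
  rcases (Nat.dvd_prime ht).mp (Dvd.intro_left _ h1) with h2 | h2
  · have h3 := hS.frattini_sup (H := ⊤) le_top Subgroup.le_normalizer_of_normal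
    rw [top_inf_eq, sup_eq_left.mpr ((Subgroup.relIndex_eq_one.mp h2).trans inf_le_left)] at h3
    exact ht' h3
  · have h3 : (P : Subgroup G).relIndex (M ⊓ N) = 1 := by
      rw [h2] at h1
      exact Nat.eq_of_mul_eq_mul_right ht.pos (h1.trans (one_mul _).symm)
    have h4 := Subgroup.relIndex_eq_one.mp h3
    have h5 : HasNormalPComplement p M := by
      refine H6.hasNormalPComplement_of_normalizer_le_centralizer hS.toSylow fun x hx => ?_
      have hx' : (x : G) ∈ (P : Subgroup G) := by
        refine h4 ⟨x.2, ?_⟩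
        rw [H8.IsSylowIn.coe_toSylow, ← Subgroup.subgroupOf_normalizer_eq hPM] at hx
        exact hx
      intro y hy
      exact Subtype.ext (H6.le_centralizer_of_comm (H6.isMulCommutative_of_card_prime hP) hx' y hy)
    have h6 : ∀ x ∈ M, (orderOf x).Coprime p → x = 1 := by
      let K : Subgroup G := (pResidual p M).map M.subtype
      have hK : ∀ x, x ∈ K ↔ x ∈ M ∧ (orderOf x).Coprime p := by
        intro x
        constructor
        · rintro ⟨y, hy, rfl⟩
          exact ⟨y.2, by simpa using (H6.HasNormalPComplement.mem_pResidual_iff h5).mp hy⟩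
        · rintro ⟨h1, h2⟩
          exact ⟨⟨x, h1⟩, H6.mem_pResidual_of_coprime (by simpa using h2), rfl⟩
      have hKn : K.Normal := ⟨fun x hx g => (hK _).mpr ⟨hM.conj_mem x ((hK x).mp hx).1 g, by
        rw [← H6.orderOf_eq_of_isConj (H6.conj_mem_cl x g)]; exact ((hK x).mp hx).2⟩⟩
      have hKb : K = ⊥ := by
        by_contra hne
        have := hdvd K hKn hne
        rw [Subgroup.card_map_of_injective M.subtype_injective] at this
        exact H6.hasNormalPComplement_iff_not_dvd_card_pResidual.mp h5 this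
      intro x hx hx2
      exact Subgroup.mem_bot.mp (hKb ▸ (hK x).mpr ⟨hx, hx2⟩)
    have h7 : IsPGroup p M := by
      rw [IsPGroup.iff_card, Nat.eq_prime_pow_of_unique_prime_dvd Nat.card_pos.ne' (p := p)]
      · exact ⟨_, rfl⟩
      intro q hq hqM
      by_contra hne
      have : Fact q.Prime := ⟨hq⟩
      obtain ⟨⟨x, hx⟩, hx2⟩ := exists_prime_orderOf_dvd_card' q hqM
      rw [Subgroup.orderOf_mk] at hx2
      have := h6 x hx (hx2 ▸ (Nat.coprime_primes hq hp).mpr hne)
      rw [this, orderOf_one] at hx2
      exact hq.ne_one hx2.symm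
    have h8 := hS.max M le_rfl h7 hPM
    have h9 := H6.card_sylow_mul_card_normalizer P
    rw [← h8, Subgroup.normalizer_eq_top, Subgroup.card_top] at h9
    have := Nat.eq_of_mul_eq_mul_right Nat.card_pos (h9.trans (one_mul _).symm)
    omega

end Cfsg.Agent.S1013
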