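import Cfsg.Statements.S1014
import Cfsg.Agent.H6.Small

set_option autoImplicit false
open Cfsg

namespace Cfsg.Agent.S1014

/-- No finite simple group has order 1104 = 2^4 * 3 * 23. -/
theorem result {G : Type*} [Group G] [Finite G] [IsSimpleGroup G] : Nat.card G ≠ 1104 := by
  intro h
  have hG : ¬ IsMulCommutative G := H6.not_isMulCommutative_of_card (by rw [h]; norm_num)
  have : Fact (Nat.Prime 23) := ⟨by norm_num⟩
  have : Fact (Nat.Prime 2) := ⟨by norm_num⟩
  obtain ⟨P⟩ := (inferInstance : Nonempty (Sylow 23 G))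
  have hd : 23 ∣ Nat.card G := by rw [h]; norm_num
  have hP : Nat.card (P : Subgroup G) = 23 := H6.sylow_card_of (k := 1) (m := 48) h (by norm_num) P
  have h1 := H6.card_sylow_mul_card_normalizer P
  have h2 := card_sylow_modEq_one 23 G
  have h3 := H6.card_sylow_ne_one hG hd
  have h4 := H6.card_sylow_dvd_of (p := 23) (k := 1) (m := 48) h (by norm_num)
  have h6 := H6.relIndex_centralizer_ne_one (H6.perfect_of_simple hG) hd P
  have h8 := H6.relIndex_centralizer_mul_card (P : Subgroup G)
  have h9 : 23 ∣ Nat.card (Subgroup.centralizer ((P : Subgroup G) : Set G)) :=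
    hP.symm.dvd.trans (Subgroup.card_dvd_of_le
      (H6.le_centralizer_of_comm (H6.isMulCommutative_of_card_prime hP)))
  have hn : Nat.card (Sylow 23 G) = 24 := by
    have := Nat.le_of_dvd (by norm_num) h4
    unfold Nat.ModEq at h2
    generalize Nat.card (Sylow 23 G) = n at *
    interval_cases n <;> omega
  have hN : Nat.card (Subgroup.normalizer ((P : Subgroup G) : Set G)) = 46 := by
    rw [hn, h] at h1; omega
  have hC : ¬ 2 ∣ Nat.card (Subgroup.centralizer ((P : Subgroup G) : Set G)) := by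
    intro h2
    have h10 : 46 ∣ _ := Nat.Coprime.mul_dvd_of_dvd_of_dvd (by norm_num) h2 h9
    obtain ⟨c, hc⟩ := h10
    rw [hN, hc] at h8
    apply h6
    exact Nat.eq_one_of_mul_eq_one_right (n := c) (by linarith)
  obtain ⟨⟨t, ht⟩, ht2⟩ := exists_prime_orderOf_dvd_card' (G := Subgroup.normalizer
    ((P : Subgroup G) : Set G)) 2 (by rw [hN]; norm_num)
  rw [Subgroup.orderOf_mk] at ht2
  have h10 := H6.ncard_fixedBy_sylow_le hP ht fun h => hC (ht2 ▸ Subgroup.orderOf_dvd_natCard _ h)
  have h11 := H6.four_dvd_card_sub_fixed (Ω := Sylow 23 G) (t := t) (H6.perfect_of_simple hG)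
    (by rw [← ht2, pow_orderOf_eq_one])
  have h12 : 0 < (MulAction.fixedBy (Sylow 23 G) t).ncard :=
    (Set.ncard_pos (Set.toFinite _)).mpr ⟨P, Sylow.smul_eq_iff_mem_normalizer.mpr ht⟩
  rw [hn] at h10 h11
  omega

end Cfsg.Agent.S1014
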