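import Cfsg.Statements.S1015
import Cfsg.Agent.H6.Small

set_option autoImplicit false
open Cfsg

namespace Cfsg.Agent.S1015

/-- No finite simple group has order 1200 = 2^4 * 3 * 5^2. -/
theorem result {G : Type*} [Group G] [Finite G] [IsSimpleGroup G] : Nat.card G ≠ 1200 := by
  intro h
  have hG : ¬ IsMulCommutative G := H6.not_isMulCommutative_of_card (by rw [h]; norm_num)
  have : Fact (Nat.Prime 5) := ⟨by norm_num⟩
  obtain ⟨P⟩ := (inferInstance : Nonempty (Sylow 5 G))
  have hd : 5 ∣ Nat.card G := by rw [h]; norm_num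
  have hP : ∀ P : Sylow 5 G, Nat.card (P : Subgroup G) = 5 ^ 2 :=
    H6.sylow_card_of (k := 2) (m := 48) h (by norm_num)
  have h2 := card_sylow_modEq_one 5 G
  have h3 := H6.two_mul_card_dvd_factorial_card_sylow hG hd
  have h4 := H6.card_sylow_dvd_of (p := 5) (k := 2) (m := 48) h (by norm_num)
  have hn : Nat.card (Sylow 5 G) = 16 := by
    have := Nat.le_of_dvd (by norm_num) h4
    unfold Nat.ModEq at h2
    rw [h] at h3
    generalize Nat.card (Sylow 5 G) = n at *
    interval_cases n <;> first | rfl | omega | (exfalso; revert h3; decide)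
  obtain ⟨R, hR, x, hx1, hxP, hxR⟩ := H6.exists_sylow_inf_ne_bot P (by rw [hn, hP]; decide)
  obtain ⟨n, m, h5, -, -, h6, h7⟩ := H6.exists_card_eq_of_two_sylow hR
    (H6.le_centralizer_singleton_of_comm (H6.isMulCommutative_of_card_sq (hP R)) hxR)
    (H6.le_centralizer_singleton_of_comm (H6.isMulCommutative_of_card_sq (hP P)) hxP)
  have h8 := H6.two_mul_card_dvd_factorial_index hG (H6.centralizer_ne_top_of_simple hG hx1)
  have h9 := (Subgroup.centralizer ({x} : Set G)).index_mul_card
  rw [h7, hP, h] at h9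
  rw [h] at h8
  generalize (Subgroup.centralizer ({x} : Set G)).index = i at *
  have h10 : i ≤ 8 := by
    have : 6 * (25 * 1) ≤ n * (5 ^ 2 * m) := Nat.mul_le_mul h5 (Nat.mul_le_mul le_rfl h6)
    nlinarith
  interval_cases i <;> (revert h8; decide)

end Cfsg.Agent.S1015
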