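import Cfsg.Statements.S1018
import Cfsg.Agent.H6.Count

set_option autoImplicit false
open Cfsg

namespace Cfsg.Agent.S1018

/-- Let P be a Sylow p-subgroup of order p of a finite group G, and consider the action of G on the left cosets of the normalizer N of P. Then every element of order p fixes exactly one coset, and an element of N that does not centralize P fixes at most as many cosets as there are orbits of P. -/
theorem result {G : Type*} [Group G] [Finite G] (p : ℕ) [Fact p.Prime] (P : Sylow p G) (hP : Nat.card ↥(P : Subgroup G) = p) : (∀ y : G, orderOf y = p → Nat.card (MulAction.fixedBy (G ⧸ Subgroup.normalizer ((P : Subgroup G) : Set G)) y) = 1) ∧ ∀ x : G, x ∈ Subgroup.normalizer ((P : Subgroup G) : Set G) → x ∉ Subgroup.centralizer ((P : Subgroup G) : Set G) → Nat.card (MulAction.fixedBy (G ⧸ Subgroup.normalizer ((P : Subgroup G) : Set G)) x) ≤ Nat.card (MulAction.orbitRel.Quotient ↥(P : Subgroup G) (G ⧸ Subgroup.normalizer ((P : Subgroup G) : Set G))) := by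
  have hp : p.Prime := Fact.out
  set N := Subgroup.normalizer ((P : Subgroup G) : Set G) with hN
  have key : ∀ y : G, orderOf y = p → (MulAction.fixedBy (G ⧸ N) y).ncard = 1 := by
    intro y hy
    have h1 : ∀ g : G, y • (g : G ⧸ N) = g ↔ y ∈ ((g • P : Sylow p G) : Subgroup G) := by
      intro g
      have hyp : IsPGroup p (Subgroup.zpowers y) :=
        IsPGroup.of_card (n := 1) (by rw [Nat.card_zpowers, hy, pow_one])
      rw [← Subgroup.zpowers_le, ← hyp.sylow_mem_fixedPoints_iff,
        Subgroup.sylow_mem_fixedPoints_iff, Subgroup.zpowers_le,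
        ← Sylow.smul_eq_iff_mem_normalizer, ← mul_smul, ← inv_smul_eq_iff, ← mul_smul,
        Sylow.smul_eq_iff_mem_normalizer, MulAction.Quotient.smul_coe, eq_comm, QuotientGroup.eq]
      rfl
    have hy1 : y ≠ 1 := by rintro rfl; rw [orderOf_one] at hy; exact hp.ne_one hy.symm
    obtain ⟨Q, hQ⟩ := H6.exists_sylow_mem (p := p) (x := y)
      ⟨1, by rw [pow_one, ← hy, pow_orderOf_eq_one]⟩
    obtain ⟨g, rfl⟩ := MulAction.exists_smul_eq G P Q
    rw [Set.ncard_eq_one]
    refine ⟨g, Set.eq_singleton_iff_unique_mem.mpr ⟨(h1 g).mpr hQ, fun q hq => ?_⟩⟩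
    obtain ⟨k, rfl⟩ := QuotientGroup.mk_surjective q
    have h2 : k • P = g • P := by
      by_contra hne
      exact hy1 (Subgroup.mem_bot.mp (H6.sylow_inf_eq_bot_of_card_prime P hP _ _ hne ▸
        (⟨(h1 k).mp hq, hQ⟩ : y ∈ ((k • P : Sylow p G) : Subgroup G) ⊓ (g • P : Sylow p G))))
    rw [eq_comm, ← inv_smul_eq_iff, ← mul_smul, Sylow.smul_eq_iff_mem_normalizer] at h2
    exact QuotientGroup.eq.mpr h2
  refine ⟨key, fun x hxN hxC => ?_⟩
  refine Nat.card_le_card_of_injective (fun a => Quotient.mk _ a.1) ?_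
  rintro ⟨a, ha⟩ ⟨b, hb⟩ hab
  obtain ⟨⟨u, hu⟩, hu2⟩ : a ∈ MulAction.orbit (P : Subgroup G) b := Quotient.exact hab
  change u • b = a at hu2
  subst hu2
  by_contra hne
  have hne' : u • b ≠ b := fun h => hne (Subtype.ext h)
  have hu1 : u ≠ 1 := by rintro rfl; exact hne' (one_smul _ _)
  have hPu := H6.eq_zpowers_of_card_prime hP hu hu1
  rw [MulAction.mem_fixedBy] at ha hb
  have h1 : (u⁻¹ * (x * u * x⁻¹)) • b = b := by
    rw [mul_smul, mul_smul, mul_smul, inv_smul_eq_iff.mpr hb.symm, ha, inv_smul_smul]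
  have h2 : u⁻¹ * (x * u * x⁻¹) ∈ (P : Subgroup G) :=
    mul_mem (inv_mem hu) (H8.conj_mem_of_le_normalizer le_rfl hxN hu)
  by_cases h3 : u⁻¹ * (x * u * x⁻¹) = 1
  · apply hxC
    rw [hPu, H8.centralizer_zpowers, Subgroup.mem_centralizer_singleton_iff]
    calc x * u = u * (u⁻¹ * (x * u * x⁻¹)) * x := by group
      _ = _ := by rw [h3, mul_one]
  · have h4 := H6.eq_zpowers_of_card_prime hP h2 h3
    rw [h4] at hu
    exact hne' (Subgroup.zpowers_le.mpr (MulAction.mem_stabilizer_iff.mpr h1) hu)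

end Cfsg.Agent.S1018
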