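import Cfsg.Statements.S1022
import Cfsg.Agent.H6.Invol

set_option autoImplicit false
open Cfsg

namespace Cfsg.Agent.S1022

open Finset Subgroup Cfsg.Agent.L0 Cfsg.Agent.H6 in
theorem aux {G : Type*} [Group G] [Finite G] [IsSimpleGroup G] : Nat.card G ≠ 459648 := by
  classical
  intro h
  have : Fact (Nat.Prime 19) := ⟨by norm_num⟩
  have hG : ¬ IsMulCommutative G := not_isMulCommutative_of_card (by rw [h]; norm_num)
  have hperf := perfect_of_simple hG
  obtain ⟨D, ⟨B⟩⟩ := Sieve.exists_brauer (p := 19) h (by norm_num) (by norm_num)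
  obtain ⟨l, h3, h4⟩ := Sieve.elimOne_sound B hG (s := 680) (by rw [h]; norm_num)
    (Sieve.facs 80 2 459648 [])
    (fun n e k l => !(e == 6 && k == 4 && l.count (-56) == 2)) (by rw [h]; decide +kernel)
  simp only [Bool.not_eq_false', beq_iff_eq, Bool.and_eq_true] at h4
  obtain ⟨⟨he, hK⟩, h4⟩ := h4
  have h5 : ((B.S.erase (irrOne G)).filter fun χ => -56 = B.δ χ * deg χ).card = 2 := by
    have h5 := B.dvd_f0_add
    rw [← h4, ← Multiset.coe_count, h3, Sieve.degs, Multiset.count_cons_of_ne (by omega),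
      Multiset.count_map, ← filter_val, card_val]
  obtain ⟨u, hu⟩ := exists_prime_orderOf_dvd_card' (G := D.K) 2 (by rw [hK]; norm_num)
  rw [← orderOf_coe] at hu
  have hu1 : (u : G) ≠ 1 := fun h => by simp [h] at hu
  have h6 : ∀ χ ∈ (B.S.erase (irrOne G)).filter fun χ => -56 = B.δ χ * deg χ,
      deg χ = 56 ∧ χ.1 u = (-20 : ℤ) := fun χ hχ => by
    obtain ⟨h1, h2⟩ := mem_filter.mp hχ
    obtain ⟨h6, h1⟩ := mem_erase.mp h1
    obtain ⟨a, h7, h8, h9⟩ := exists_int_four_dvd hperf χ (u := u)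
      (by rw [← sq, ← hu, pow_orderOf_eq_one])
    have h10 := B.dvd_sub_of_mem_K h1 u.2 h7
    have h11 : a ≠ deg χ := fun h => ne_deg_of_ne_one h6 hu1 (by rw [h7, h]; simp)
    have h12 : B.δ χ = -1 ∧ deg χ = 56 := by rcases B.hδ χ h1 with h | h <;> rw [h] at h2 <;> omega
    rw [abs_le] at h9
    rw [h12.1] at h10
    exact ⟨h12.2, by rw [h7, show a = -20 by omega]⟩
  have h7 := sum_sq_le_card_centralizer _ (fun _ => -20) fun χ hχ => (h6 χ hχ).2
  rw [sum_const, h5] at h7
  obtain ⟨χ, hχ⟩ := card_pos.mp (h5 ▸ two_pos)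
  have h8 := deg_dvd_index_mul (h6 χ hχ).2
  rw [(h6 χ hχ).1] at h8
  have h9 : centralizer ({D.x} : Set G) ≤ centralizer ({(u : G)} : Set G) := fun g hg => by
    obtain ⟨i, k, hk, rfl⟩ := D.exists_of_comm (mem_centralizer_singleton_iff.mp hg)
    refine mul_mem (mem_centralizer_singleton_iff.mpr (D.K_comm u.2 i).eq.symm)
      (le_centralizer_singleton_of_comm (isMulCommutative_of_card_sq (p := 2) hK) u.2 hk)
  have h10 : (D.P : Subgroup G) ≤ centralizer ({(u : G)} : Set G) :=
    (zpowers_le.mpr (mem_centralizer_singleton_iff.mpr rfl)).trans h9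
  set C := centralizer ({(u : G)} : Set G)
  have h11 := card_sylow_mul_card_normalizer (D.P.subtype h10)
  have h12 := card_sylow_modEq_one 19 C
  rw [Sylow.coe_subtype, ← subgroupOf_normalizer_eq h10, ← inf_subgroupOf_right,
    Nat.card_congr (subgroupOfEquivOfLe inf_le_right).toEquiv] at h11
  have h13 := card_dvd_of_le (le_inf (H8.centralizer_zpowers D.x ▸ centralizer_le_normalizer _) h9 :
    centralizer ({D.x} : Set G) ≤ normalizer ((D.P : Subgroup G) : Set G) ⊓ C)
  have h14 := card_le_of_le (inf_le_left :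
    normalizer ((D.P : Subgroup G) : Set G) ⊓ C ≤ normalizer (zpowers D.x : Set G))
  rw [D.card_C, hK] at h13
  replace h14 := h14.trans_eq D.card_N
  rw [he, hK] at h14
  have h15 := C.index_mul_card
  obtain ⟨m, hm⟩ := h13
  obtain ⟨i, hi⟩ : 14 ∣ C.index := by omega
  rw [← h11, hm, hi, h] at h15
  have h16 : Nat.card (Sylow 19 C) ∣ 432 := ⟨i * m, by linarith⟩
  have h17 : ∀ n ∈ Nat.divisors 432, n % 19 = 1 → n = 1 := by decide +kernel
  rw [h17 _ (Nat.mem_divisors.mpr ⟨h16, by norm_num⟩) h12] at h11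
  norm_num at h7
  omega

/-- No finite simple group has order 459648 = 2^7 * 3^3 * 7 * 19. -/
theorem result {G : Type*} [Group G] [Finite G] [IsSimpleGroup G] : Nat.card G ≠ 459648 := by
  exact aux

end Cfsg.Agent.S1022
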