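import Cfsg.Statements.S1258
import Cfsg.Agent.H7.Component

set_option autoImplicit false
open Cfsg

namespace Cfsg.Agent.S1258

open Subgroup Cfsg.Agent.H7


/-- If the central quotient of a finite group X is non-abelian simple, then X = X' Z(X) and the commutator subgroup X' is quasisimple. -/
theorem result {X : Type*} [Group X] [Finite X] (hs : IsSimpleGroup (X ⧸ Subgroup.center X)) (hna : ¬ IsMulCommutative (X ⧸ Subgroup.center X)) : commutator X ⊔ Subgroup.center X = ⊤ ∧ Cfsg.IsQuasisimple ↥(commutator X) := by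
  have hsup : commutator X ⊔ Subgroup.center X = ⊤ := by
    have hN : ((commutator X).map (QuotientGroup.mk' (Subgroup.center X))).Normal :=
      Normal.map inferInstance _ (QuotientGroup.mk'_surjective _)
    rcases hs.eq_bot_or_eq_top_of_normal _ hN with h | h
    · exfalso
      apply hna
      rw [Normal.quotient_commutative_iff_commutator_le]
      exact le_iff_map_mk'_eq_bot.mpr h
    · rw [← comap_map_mk', h, comap_top]
  refine ⟨hsup, ?_⟩
  have hq : IsQuasisimple (X ⧸ Subgroup.center X) := QS.of_isSimpleGroup hna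
  have hmap : (commutator X).map (QuotientGroup.mk' (Subgroup.center X)) = ⊤ := by
    rw [← map_comap_eq_self_of_surjective (QuotientGroup.mk'_surjective (Subgroup.center X)) ⊤,
      comap_top, ← hsup, Subgroup.map_sup, le_iff_map_mk'_eq_bot.mp (le_refl (Subgroup.center X)),
      sup_bot_eq]
  refine QS.of_map (QuotientGroup.mk' (Subgroup.center X)) ?_ ?_ ?_
  · apply le_antisymm (commutator_le_self _)
    rw [_root_.commutator_def X]
    nth_rewrite 1 [commutator_le]
    intro a _ b _
    have ha : a ∈ commutator X ⊔ Subgroup.center X := hsup ▸ mem_top a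
    have hb : b ∈ commutator X ⊔ Subgroup.center X := hsup ▸ mem_top b
    obtain ⟨a', ha', z, hz, rfl⟩ := mem_sup_of_normalizes (Or.inl le_normalizer_of_normal) ha
    obtain ⟨b', hb', w, hw, rfl⟩ := mem_sup_of_normalizes (Or.inl le_normalizer_of_normal) hb
    have h1 := commutator_mem_commutator ha' hb'
    rw [commutatorElement_def] at h1 ⊢
    suffices h : a' * z * (b' * w) * (a' * z)⁻¹ * (b' * w)⁻¹ = a' * b' * a'⁻¹ * b'⁻¹ by
      rw [h]; exact h1
    have hz' := mem_center_iff.mp hz
    have hw' := mem_center_iff.mp hw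
    calc a' * z * (b' * w) * (a' * z)⁻¹ * (b' * w)⁻¹
        = a' * (z * (b' * w)) * z⁻¹ * a'⁻¹ * w⁻¹ * b'⁻¹ := by group
      _ = a' * ((b' * w) * z) * z⁻¹ * a'⁻¹ * w⁻¹ * b'⁻¹ := by rw [← hz']
      _ = a' * b' * (w * a'⁻¹) * w⁻¹ * b'⁻¹ := by group
      _ = a' * b' * (a'⁻¹ * w) * w⁻¹ * b'⁻¹ := by rw [← hw']
      _ = a' * b' * a'⁻¹ * b'⁻¹ := by group
  · rw [QuotientGroup.ker_mk']
    exact comm_eq_bot_of_le (commutator_center_left (H := ⊤)) inf_le_right le_top
  · rw [hmap]
    exact QS.top_iff.mpr hq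

end Cfsg.Agent.S1258
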