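import Cfsg.Statements.S1263
import Cfsg.Agent.H7.Component

set_option autoImplicit false
open Cfsg

namespace Cfsg.Agent.S1263

open Subgroup Cfsg.Agent.H7


/-- For a finite group G, Z(E(G)) is the subgroup generated by the centres Z(L) of the components L of G (all viewed as subgroups of G). -/
theorem result {G : Type*} [Group G] [Finite G] : (Subgroup.center ↥(Cfsg.layer G)).map (Cfsg.layer G).subtype = ⨆ L : {K : Subgroup G // Cfsg.IsComponent K}, (Subgroup.center ↥(L : Subgroup G)).map (L : Subgroup G).subtype := by
  simp only [map_subtype_center]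
  apply le_antisymm
  · have h := inf_centralizer_sSup_le (H := (⊤ : Subgroup G)) {K : Subgroup G | IsComponent K}
      (fun L hL => Comp.compOf hL)
    rw [layerOf_top] at h
    refine le_trans h ?_
    refine iSup₂_le fun L hL => ?_
    exact le_iSup (fun L : {K : Subgroup G // Cfsg.IsComponent K} =>
      (L : Subgroup G) ⊓ centralizer ((L : Subgroup G) : Set G)) ⟨L, hL⟩
  · refine iSup_le fun L => ?_
    have h := (Comp.compOf L.2).center_le
    rwa [layerOf_top] at h

end Cfsg.Agent.S1263
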