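import Cfsg.Statements.S1271
import Cfsg.Agent.H7.Local

set_option autoImplicit false
open Cfsg

namespace Cfsg.Agent.S1271

open Subgroup Cfsg.Agent.H7


/-- Let G be finite with O_{p'}(G) = 1. Suppose that for every component L of G and every subgroup H ≥ L in which L is normal, the quotient H / C_H(L) is balanced for the prime p. Then G is balanced for p. -/
theorem result {G : Type*} [Group G] [Finite G] (p : ℕ) [Fact p.Prime] (hO : Cfsg.pPrimeCore p G = ⊥) (h : ∀ L : Subgroup G, Cfsg.IsComponent L → ∀ H : Subgroup G, L ≤ H → (L.subgroupOf H).Normal → ∀ [((Subgroup.centralizer (L : Set G)).subgroupOf H).Normal], Cfsg.IsBalancedFor p (↥H ⧸ (Subgroup.centralizer (L : Set G)).subgroupOf H)) : Cfsg.IsBalancedFor p G := by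
  intro x hx
  have h0 : opp p (⊤ : Subgroup G) = ⊥ := by rwa [opp_top]
  have hP : IsPGroup p (zpowers x) := isPGroup_zpowers_of_orderOf (k := 1) (by rw [hx, pow_one])
  show opp p (centralizer ({x} : Set G)) ≤ _
  set Y := opp p (centralizer ({x} : Set G)) with hY
  have hY1 : Y = opp p (⊤ ⊓ centralizer ((zpowers x : Subgroup G) : Set G)) := by
    rw [top_inf_eq, H8.centralizer_zpowers]
  have hY2 : Y = opp p (normalizer ((zpowers x ⊔ Cfsg.pCore p G : Subgroup G) : Set G)) := by
    rw [hY1, opp_eq_of_ope_eq ((ope_inf_centralizer_eq hP le_top).trans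
      (ope_inf_normalizer_sup_op hP le_top)), top_inf_eq, H7.op_top]
  have hYp : ¬ p ∣ Nat.card Y := not_dvd_card_opp _
  have hYx : Y ≤ centralizer ({x} : Set G) := opp_le _
  suffices hs : Y ≤ op p ⊤ by
    rw [L0.eq_bot_of_isPGroup_of_not_dvd ((op_isPGroup _).to_le hs) hYp]
    exact bot_le
  refine le_op_of_comm_components h0 le_top ?_ fun L hL => ?_
  · refine comm_eq_bot_of_le (comm_ope_inf_centralizer_op hP le_top) ?_ le_rfl
    rw [hY1]; exact opp_le_ope _
  by_cases hne : ⁅L, zpowers x⁆ ≠ L
  · have := comm_opp_inf_centralizer h0 hL (mem_top x) hx hne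
    rwa [top_inf_eq] at this
  push Not at hne
  have hL' := compOf_top_iff.mp hL
  have hxL : zpowers x ≤ normalizer (L : Set G) := by
    have := normalizer_commutator_ge_right L (zpowers x)
    rwa [hne] at this
  have hYL : Y ≤ normalizer (L : Set G) := by
    refine le_trans ?_ (ope_inf_centralizer_le_normalizer h0 hP le_top hL)
    rw [hY1]; exact opp_le_ope _
  set W := Y ⊔ zpowers x with hW
  have hWx : W ≤ centralizer ({x} : Set G) :=
    sup_le hYx (zpowers_le.mpr (mem_centralizer_singleton_iff.mpr rfl))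
  have hWL : W ≤ normalizer (L : Set G) := sup_le hYL hxL
  set H := L ⊔ W with hH
  have hHL : H ≤ normalizer (L : Set G) := sup_le le_normalizer hWL
  have hLH : L ≤ H := le_sup_left
  have hYH : Y ≤ H := le_sup_left.trans le_sup_right
  have hxH : x ∈ H := mem_sup_right (mem_sup_right (mem_zpowers x))
  have hCn : ((centralizer (L : Set G)).subgroupOf H).Normal :=
    normal_subgroupOf_of_le_normalizer (hHL.trans (normalizer_le_normalizer_centralizer L))
  have hb := h L hL' H hLH ((normal_subgroupOf_iff_le_normalizer hLH).mpr hHL)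
  let f := QuotientGroup.mk' ((centralizer (L : Set G)).subgroupOf H)
  have hxC : x ∉ centralizer (L : Set G) := by
    intro hc
    apply hL.ne_bot
    rw [← hne]
    exact comm_eq_bot_symm (commutator_eq_bot_iff_le_centralizer.mpr (zpowers_le.mpr hc))
  have hx' : orderOf (f ⟨x, hxH⟩) = p := by
    refine orderOf_eq_prime ?_ ?_
    · rw [← map_pow]
      have : (⟨x, hxH⟩ : H) ^ p = 1 := Subtype.ext (by
        show x ^ p = 1
        rw [← hx, pow_orderOf_eq_one])
      rw [this, map_one]
    · intro h1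
      exact hxC (mem_subgroupOf.mp ((QuotientGroup.eq_one_iff (⟨x, hxH⟩ : H)).mp h1))
  have h1 : (Y.subgroupOf H).map f ≤ Cfsg.centralizerPPrimeCore p (f ⟨x, hxH⟩) := by
    refine L0.le_map_pPrimeCore ?_ ?_ (L0.not_dvd_card_map f (by rwa [L0.card_subgroupOf_of_le hYH]))
    · rintro _ ⟨y, hy, rfl⟩
      rw [mem_centralizer_singleton_iff, ← map_mul, ← map_mul]
      congr 1
      exact Subtype.ext (mem_centralizer_singleton_iff.mp (hYx hy))
    · intro g hg
      obtain ⟨g, rfl⟩ := QuotientGroup.mk'_surjective _ g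
      refine le_normalizer_map f (mem_map_of_mem f ?_)
      rw [← subgroupOf_normalizer_eq hYH, mem_subgroupOf]
      obtain ⟨l, hl, w, hw, hg'⟩ := mem_sup_of_normalizes (Or.inr hWL) g.2
      have h2 : (g : G) * x * (g : G)⁻¹ * x⁻¹ ∈ centralizer (L : Set G) := by
        have h3 : f (g * ⟨x, hxH⟩ * g⁻¹ * (⟨x, hxH⟩ : H)⁻¹) = 1 := by
          rw [mem_centralizer_singleton_iff] at hg
          simp only [map_mul, map_inv]
          rw [mul_inv_eq_one, mul_inv_eq_iff_eq_mul]
          exact hg
        have h4 : g * ⟨x, hxH⟩ * g⁻¹ * (⟨x, hxH⟩ : H)⁻¹ ∈ (centralizer (L : Set G)).subgroupOf H :=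
          (QuotientGroup.eq_one_iff _).mp h3
        exact mem_subgroupOf.mp h4
      have h4 : w * x = x * w := mem_centralizer_singleton_iff.mp (hWx hw)
      have h5 : l * x * l⁻¹ * x⁻¹ ∈ Cfsg.pCore p G := by
        rw [← L0.fitting_eq_pCore_of_pPrimeCore_eq_bot hO]
        refine Comp.center_le_fitting hL' ⟨?_, ?_⟩
        · exact le_normalizer_iff_commutator_le_left.mp hxL
            (commutator_mem_commutator hl (mem_zpowers x))
        · have : l * x * l⁻¹ * x⁻¹ = (g : G) * x * (g : G)⁻¹ * x⁻¹ := by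
            rw [← hg', mul_assoc l w x, h4]; group
          rwa [this]
      have h6 : l ∈ normalizer ((zpowers x ⊔ Cfsg.pCore p G : Subgroup G) : Set G) := by
        apply H8.mem_normalizer_of_cj_le
        rw [H8.cj_sup]
        refine sup_le ?_ ((H8.cj_eq_self (le_normalizer_of_normal (K := ⊤) (mem_top l))).le.trans
          le_sup_right)
        rw [H8.cj, MonoidHom.map_zpowers, zpowers_le]
        have : (MulAut.conj l).toMonoidHom x = (l * x * l⁻¹ * x⁻¹) * x := by simp
        rw [this]
        exact mul_mem (mem_sup_right h5) (mem_sup_left (mem_zpowers x))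
      rw [← hg']
      refine mul_mem ?_ (le_normalizer_opp _ (hWx hw))
      rw [hY2]
      exact le_normalizer_opp _ h6
  have h2 := h1.trans (hb _ hx')
  refine (QS.commutator_eq_or hL.qs hYL).resolve_left fun heq => ?_
  have h3 : (L.subgroupOf H).map f ≤ Cfsg.pPrimeCore p _ := by
    have h4 : L.subgroupOf H = ⁅L.subgroupOf H, Y.subgroupOf H⁆ := by
      apply map_injective H.subtype_injective
      rw [map_commutator, map_subgroupOf_eq_of_le hLH, map_subgroupOf_eq_of_le hYH, heq]
    rw [h4, map_commutator]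
    exact (commutator_mono le_top h2).trans (commutator_le_right _ _)
  obtain ⟨T, hT⟩ := H8.exists_isSylowIn p L
  refine QS.sylow_not_le_centralizer hL.qs (hL.dvd_card h0) hT ?_
  have h5 : (T.subgroupOf H).map f = ⊥ :=
    L0.eq_bot_of_isPGroup_of_not_dvd ((H8.pgroup_subgroupOf hT.pgroup H).map f)
      (L0.not_dvd_card_of_le ((map_mono (comap_mono hT.le)).trans h3) L0.not_dvd_card_pPrimeCore)
  rw [← le_iff_map_mk'_eq_bot] at h5
  intro t ht
  exact h5 (show (⟨t, hLH (hT.le ht)⟩ : H) ∈ T.subgroupOf H from ht)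

end Cfsg.Agent.S1271
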