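import Cfsg.Statements.S1272
import Cfsg.Agent.H7.PComp

set_option autoImplicit false
open Cfsg

namespace Cfsg.Agent.S1272

open Subgroup Cfsg.Agent.H7


/-- Let X be finite and Q = X / O_{p'}(X). For every component Kbar of Q there is a unique p-component K of X whose image in Q is Kbar; and the image of the p-layer L_{p'}(X) in Q is E(Q). -/
theorem result {X : Type*} [Group X] [Finite X] (p : ℕ) [Fact p.Prime] : (∀ Kbar : Subgroup (X ⧸ Cfsg.pPrimeCore p X), Cfsg.IsComponent Kbar → ∃! K : Subgroup X, Cfsg.IsPComponent p K ∧ K.map (QuotientGroup.mk' (Cfsg.pPrimeCore p X)) = Kbar) ∧ (Cfsg.pLayer p X).map (QuotientGroup.mk' (Cfsg.pPrimeCore p X)) = Cfsg.layer (X ⧸ Cfsg.pPrimeCore p X) := by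
  refine ⟨fun Kbar hK => ?_, map_pLayer_mk'⟩
  have hker : ¬ p ∣ Nat.card ↥((⊤ : Subgroup X) ⊓ (QuotientGroup.mk' (Cfsg.pPrimeCore p X)).ker) := by
    rw [QuotientGroup.ker_mk', top_inf_eq]
    exact L0.not_dvd_card_pPrimeCore
  have h1 : PCompOf p Kbar ((⊤ : Subgroup X).map (QuotientGroup.mk' (Cfsg.pPrimeCore p X))) := by
    rw [map_top_of_surjective _ (QuotientGroup.mk'_surjective _)]
    exact (Comp.compOf hK).pCompOf (Comp.dvd_card hK L0.pPrimeCore_quotient_pPrimeCore)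
  obtain ⟨K, h2, h3⟩ := h1.exists_lift hker
  refine ⟨K, ⟨pCompOf_top_iff.mp h2, h3⟩, fun L hL => ?_⟩
  exact (pCompOf_top_iff.mpr hL.1).eq_of_map_eq h2 hker (hL.2.trans h3.symm)

end Cfsg.Agent.S1272
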