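import Cfsg.Statements.S1277
import Cfsg.Agent.H7.PComp

set_option autoImplicit false
open Cfsg

namespace Cfsg.Agent.S1277

open Subgroup Cfsg.Agent.H7


/-- For a finite group X with core O(X): the image of E(X) in X / O(X) is all of E(X / O(X)) if and only if every 2-component of X is a component, i.e. L_{2'}(X) ≤ E(X). -/
theorem result {X : Type*} [Group X] [Finite X] : (Cfsg.layer X).map (QuotientGroup.mk' (Cfsg.oddCore X)) = Cfsg.layer (X ⧸ Cfsg.oddCore X) ↔ Cfsg.pLayer 2 X ≤ Cfsg.layer X := by
  rw [← map_pLayer_mk']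
  constructor
  · intro h
    have h1 := map_mk'_le_iff.mp h.ge
    rw [← playerOf_top, ← pClos_playerOf]
    refine pClos_le_of_le_sup le_normalizer_of_normal (Or.inl le_normalizer_of_normal)
      (L0.not_dvd_card_pPrimeCore (p := 2) (G := X)) ?_
    rwa [playerOf_top]
  · intro h
    refine le_antisymm ?_ (map_mono h)
    rw [map_pLayer_mk']
    exact map_layer_le (QuotientGroup.mk'_surjective _)

end Cfsg.Agent.S1277
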