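import Cfsg.Statements.S1279
import Cfsg.Agent.H8.Signalizer

set_option autoImplicit false
open Cfsg

namespace Cfsg.Agent.S1279

open Subgroup Cfsg.Agent.H8 Cfsg.Agent.L0

/-- Let A be a noncyclic elementary abelian p-subgroup of the finite group G such that C_G(a) is solvable for every non-identity a ∈ A. Then a ↦ O_{p'}(C_G(a)) is a solvable A-signalizer functor on G. -/
theorem result {G : Type*} [Group G] [Finite G] (p : ℕ) [Fact p.Prime] (A : Subgroup G) (hA : Cfsg.IsElementaryAbelian p A) (hA2 : p ^ 2 ≤ Nat.card ↥A) (hsolv : ∀ a ∈ A, a ≠ 1 → Group.IsSolvable ↥(Subgroup.centralizer ({a} : Set G))) : Cfsg.IsSolvableSignalizerFunctor p A (fun a => Cfsg.centralizerPPrimeCore p a) := by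
  refine ssf_iff.mpr ⟨fun a _ _ => map_subtype_le _, fun a _ _ => not_dvd_card_map_pPrimeCore _,
    fun a ha _ => ?_, fun a ha h1 b hb h2 => ?_, fun a ha h1 => ?_⟩
  · exact (le_centralizer_of_comm (elemAb_comm hA) (Set.singleton_subset_iff.mpr ha)).trans
      (le_normalizer_map_pPrimeCore _)
  · exact Opp_centralizer_balance ((elemAb_pgroup hA).to_le (zpowers_le_of_mem ha))
      (elemAb_mul_comm hA ha hb) (isPConstrained_of_solvable (hsolv b hb h2))
  · exact solvable_of_le (map_subtype_le _) (hsolv a ha h1)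

end Cfsg.Agent.S1279
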