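import Cfsg.Statements.S1286
import Cfsg.Agent.H8.Signalizer

set_option autoImplicit false
open Cfsg

namespace Cfsg.Agent.S1286

open Subgroup Cfsg.Agent.H8 Cfsg.Agent.L0

abbrev X := Equiv.Perm (Fin 5)

def a : X := Equiv.swap 0 1
def b : X := Equiv.swap 2 3
def x : X := Equiv.swap 2 3 * Equiv.swap 3 4
def y : X := Equiv.swap 0 1 * Equiv.swap 1 4

def A : Subgroup X where
  carrier := (({1, a, b, a * b} : Finset X) : Set X)
  mul_mem' := by
    intro g h hg hh
    simp only [Finset.coe_insert, Finset.coe_singleton, Set.mem_insert_iff,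
      Set.mem_singleton_iff] at *
    rcases hg with rfl | rfl | rfl | rfl <;> rcases hh with rfl | rfl | rfl | rfl <;> decide
  one_mem' := by simp
  inv_mem' := by
    intro g hg
    simp only [Finset.coe_insert, Finset.coe_singleton, Set.mem_insert_iff,
      Set.mem_singleton_iff] at *
    rcases hg with rfl | rfl | rfl | rfl <;> decide

theorem mem_A {g : X} : g ∈ A ↔ g = 1 ∨ g = a ∨ g = b ∨ g = a * b := by
  change g ∈ (({1, a, b, a * b} : Finset X) : Set X) ↔ _
  simp

theorem card_A : Nat.card A = 4 := by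
  change Nat.card (({1, a, b, a * b} : Finset X) : Set X) = 4
  rw [Nat.card_coe_set_eq, Set.ncard_coe_finset]
  decide

theorem mem_zp {z g : X} (hz : orderOf z = 3) (hg : g ∈ zpowers z) :
    g = 1 ∨ g = z ∨ g = z ^ 2 := by
  obtain ⟨k, hk, rfl⟩ := (mem_zpowers_iff_mem_range_orderOf.mp hg |> Finset.mem_image.mp)
  rw [hz, Finset.mem_range] at hk
  interval_cases k <;> simp

theorem ox : orderOf x = 3 := orderOf_eq_prime (by decide) (by decide)
theorem oy : orderOf y = 3 := orderOf_eq_prime (by decide) (by decide)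

def θ (g : X) : Subgroup X := if g = a then zpowers x else if g = b then zpowers y else ⊥

theorem θa : θ a = zpowers x := if_pos rfl
theorem θb : θ b = zpowers y := (if_neg (by decide)).trans (if_pos rfl)
theorem θab : θ (a * b) = ⊥ := (if_neg (by decide)).trans (if_neg (by decide))

theorem ssf : SSF 2 A θ := by
  refine ⟨fun g hg h1 => ?_, fun g hg h1 => ?_, fun g hg h1 => ?_, fun g hg h1 h hh h2 => ?_,
    fun g hg h1 => ?_⟩
  · rcases mem_A.mp hg with rfl | rfl | rfl | rfl
    · exact absurd rfl h1
    · rw [θa]; exact zpowers_le_of_mem (mem_centralizer_singleton_iff.mpr (by decide))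
    · rw [θb]; exact zpowers_le_of_mem (mem_centralizer_singleton_iff.mpr (by decide))
    · rw [θab]; exact bot_le
  · rcases mem_A.mp hg with rfl | rfl | rfl | rfl
    · exact absurd rfl h1
    · rw [θa, Nat.card_zpowers, ox]; norm_num
    · rw [θb, Nat.card_zpowers, oy]; norm_num
    · rw [θab, card_bot]; norm_num
  · have key : ∀ z : X, (∀ h ∈ A, h * z * h⁻¹ = z ∨ h * z * h⁻¹ = z ^ 2) →
        A ≤ normalizer (zpowers z : Set X) := by
      intro z hz
      refine le_normalizer_iff.mpr fun h hh _ ⟨k, hk⟩ => ?_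
      rw [← hk]
      simp only
      rw [← conj_zpow]
      rcases hz h hh with h3 | h3 <;> rw [h3]
      · exact zpow_mem (mem_zpowers _) _
      · exact zpow_mem (pow_mem (mem_zpowers _) _) _
    rcases mem_A.mp hg with rfl | rfl | rfl | rfl
    · exact absurd rfl h1
    · rw [θa]
      refine key _ fun h hh => ?_
      rcases mem_A.mp hh with rfl | rfl | rfl | rfl <;> decide
    · rw [θb]
      refine key _ fun h hh => ?_
      rcases mem_A.mp hh with rfl | rfl | rfl | rfl <;> decide
    · rw [θab]; exact le_normalizer_of_normal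
  · by_cases hgh : g = h
    · exact hgh ▸ inf_le_left
    refine le_trans ?_ bot_le
    rintro z ⟨hz, hc⟩
    have hc' := mem_centralizer_singleton_iff.mp hc
    rw [mem_bot]
    rcases mem_A.mp hg with rfl | rfl | rfl | rfl
    · exact absurd rfl h1
    · rw [θa] at hz
      revert hc' hgh h2
      rcases mem_A.mp hh with rfl | rfl | rfl | rfl <;>
        rcases mem_zp ox hz with rfl | rfl | rfl <;> decide
    · rw [θb] at hz
      revert hc' hgh h2
      rcases mem_A.mp hh with rfl | rfl | rfl | rfl <;>
        rcases mem_zp oy hz with rfl | rfl | rfl <;> decide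
    · rw [θab] at hz; exact hz
  · rcases mem_A.mp hg with rfl | rfl | rfl | rfl
    · exact absurd rfl h1
    · rw [θa]; infer_instance
    · rw [θb]; infer_instance
    · rw [θab]; infer_instance

/-- There exist a finite group X, an elementary abelian subgroup A of order 4 and a solvable A-signalizer functor θ on X for the prime 2 which is not complete. -/
theorem result : ∃ (X : Type) (_ : Group X) (_ : Finite X) (A : Subgroup X) (θ : X → Subgroup X), Cfsg.IsElementaryAbelian 2 A ∧ Nat.card ↥A = 4 ∧ Cfsg.IsSolvableSignalizerFunctor 2 A θ ∧ ¬ Cfsg.IsCompleteSignalizerFunctor 2 A θ := by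
  refine ⟨X, inferInstance, inferInstance, A, θ, elemAb_of ?_ ?_, card_A, ssf_iff.mpr ssf, ?_⟩
  · intro g hg h hh
    rcases mem_A.mp hg with rfl | rfl | rfl | rfl <;>
      rcases mem_A.mp hh with rfl | rfl | rfl | rfl <;> decide
  · intro g hg
    rcases mem_A.mp hg with rfl | rfl | rfl | rfl <;> decide
  · rintro ⟨-, Y, -, h2, h3⟩
    have hx : x ∈ Y := ((h3 a (mem_A.mpr (by decide)) (by decide)).trans θa).ge (mem_zpowers x) |>.1
    have hy : y ∈ Y := ((h3 b (mem_A.mpr (by decide)) (by decide)).trans θb).ge (mem_zpowers y) |>.1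
    have h4 : orderOf (x * x * y * x * y) = 2 := orderOf_eq_prime (by decide) (by decide)
    exact h2 (h4 ▸ Subgroup.orderOf_dvd_natCard Y
      (mul_mem (mul_mem (mul_mem (mul_mem hx hx) hy) hx) hy))

end Cfsg.Agent.S1286
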