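import Cfsg.Statements.S1289
import Cfsg.Agent.H7.PComp

set_option autoImplicit false
open Cfsg

namespace Cfsg.Agent.S1289

open Subgroup Cfsg.Agent.H7


/-- A p-component K of the finite group X is subnormal, perfect, of order divisible by p, and minimal among the subnormal perfect subgroups of X of order divisible by p. -/
theorem result {X : Type*} [Group X] [Finite X] (p : ℕ) [Fact p.Prime] (K : Subgroup X) (hK : Cfsg.IsPComponent p K) : K.IsSubnormal ∧ ⁅K, K⁆ = K ∧ p ∣ Nat.card ↥K ∧ ∀ H : Subgroup X, H ≤ K → H.IsSubnormal → ⁅H, H⁆ = H → p ∣ Nat.card ↥H → H = K := by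
  obtain ⟨h1, h2⟩ := isPComponent_iff.mp hK
  refine ⟨h1, h2.perfect, h2.dvd_card, fun H hHK hH hp hd => ?_⟩
  rcases h2.sn (SN.of_isSubnormal hH hHK) with h | h
  · exact h
  · exfalso
    have h3 : H ≤ opp p K := hp.ge.trans ((commutator_mono le_rfl hHK).trans h)
    exact not_dvd_card_opp K (hd.trans (card_dvd_of_le h3))

end Cfsg.Agent.S1289
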