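import Cfsg.Statements.S1300
import Cfsg.Agent.H8.Signalizer

set_option autoImplicit false
open Cfsg

namespace Cfsg.Agent.S1300

open Subgroup Cfsg.Agent.H8 Cfsg.Agent.L0

theorem mem_delta {G : Type*} [Group G] {p : ℕ} {A : Subgroup G} {x : G} :
    x ∈ signalizerDelta p A ↔ ∀ a ∈ A, a ≠ 1 → x ∈ centralizerPPrimeCore p a :=
  mem_signalizerInf (B := A) (θ := fun a => centralizerPPrimeCore p a)

theorem aux {G : Type*} [Group G] [Finite G] (h : Cfsg.IsKBalanced 2 1 G) (x y : G)
    (hx : orderOf x = 2) (hy : orderOf y = 2) (hxy : x * y = y * x) :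
    centralizerPPrimeCore 2 x ⊓ Subgroup.centralizer {y} ≤
      centralizerPPrimeCore 2 y ⊓ Subgroup.centralizer {x} := by
  classical
  refine le_inf ?_ (inf_le_left.trans (map_subtype_le _))
  have hx2 : x ^ 2 = 1 := hx ▸ pow_orderOf_eq_one x
  refine le_trans (inf_le_inf_right _ fun g hg => mem_delta.mpr fun a ha h1 => ?_)
    (h (zpowers x) (elemAb_zpowers hx2) (by rw [Nat.card_zpowers, hx, pow_one]) y hy ?_)
  · obtain ⟨k, hk, rfl⟩ := (mem_zpowers_iff_mem_range_orderOf.mp ha |> Finset.mem_image.mp)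
    rw [hx, Finset.mem_range] at hk
    interval_cases k
    · simp at h1
    · simpa using hg
  · rintro _ ⟨k, rfl⟩
    exact (Commute.zpow_left hxy k : _)

/-- For a finite group G, balance in the sense of commuting involutions is the same as 1-balance for the prime 2. -/
theorem result {G : Type*} [Group G] [Finite G] : Cfsg.IsBalanced G ↔ Cfsg.IsKBalanced 2 1 G := by
  constructor
  · intro h A hA hc b hb hab
    haveI : Fact (Nat.Prime 2) := ⟨Nat.prime_two⟩
    obtain ⟨a, ha, h1⟩ := exists_mem_ne_one_of_le_card one_ne_zero hc.ge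
    refine le_trans (inf_le_inf_right _ fun g hg => mem_delta.mp hg a ha h1) ?_
    rw [h a b (elemAb_orderOf hA ha h1) hb (hab a ha)]
    exact inf_le_left
  · intro h x y hx hy hxy
    exact le_antisymm (aux h x y hx hy hxy) (aux h y x hy hx hxy.symm)

end Cfsg.Agent.S1300
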