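import Cfsg.Statements.S1299
import Cfsg.Agent.H8.LocBal
import Cfsg.Agent.H8.Rank

set_option autoImplicit false
open Cfsg

namespace Cfsg.Agent.S1299

open Subgroup Cfsg.Agent.H8 Cfsg.Agent.L0

variable {G : Type*} [Group G] [Finite G] {p k : ℕ} [hp : Fact p.Prime] {A : Subgroup G}

theorem delta_anti {B C : Subgroup G} (h : B ≤ C) : signalizerDelta p C ≤ signalizerDelta p B :=
  le_signalizerDelta fun _ ha h1 => signalizerDelta_le (h ha) h1

theorem cent_le_norm (E : Subgroup G) :
    centralizer (E : Set G) ≤ normalizer (signalizerDelta p E : Set G) :=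
  le_normalizer_iff.mpr fun _ hg _ hx => mem_signalizerDelta.mpr fun _ he h1 =>
    conj_mem_of_le_normalizer (le_normalizer_map_pPrimeCore _) (centralizer_le_singleton he hg)
      (signalizerDelta_le he h1 hx)

theorem L1 (hbal : IsKBalanced p k G) (hA : IsElementaryAbelian p A) {E B : Subgroup G}
    (hE : E ≤ A) (hEk : p ^ k ≤ Nat.card E) (hB : B ≤ A) :
    signalizerDelta p E ⊓ centralizer (B : Set G) ≤ signalizerDelta p B := by
  obtain ⟨D, hD, hDc⟩ := exists_le_card ((elemAb_pgroup hA).to_le hE) hEk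
  refine le_signalizerDelta fun b hb h1 => le_trans (inf_le_inf (delta_anti hD)
    (centralizer_le_singleton hb)) (hbal D (elemAb_mono hA (hD.trans hE)) hDc b
    (elemAb_orderOf hA (hB hb) h1) fun d hd => elemAb_mul_comm hA (hE (hD hd)) (hB hb))

/-- The subgroup generated by the `Δ(B) ∩ N`. -/
def X (p : ℕ) (A : Subgroup G) (a : G) (N : Subgroup G) : Subgroup G :=
  ⨆ B : {B : Subgroup G // B ≤ A ∧ B.relIndex A = p ∧ a ∈ B}, signalizerDelta p B.1 ⊓ N

theorem X_le (a : G) (N : Subgroup G) : X p A a N ≤ N := iSup_le fun _ => inf_le_right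

theorem X_mono (a : G) {N M : Subgroup G} (h : N ≤ M) : X p A a N ≤ X p A a M :=
  iSup_mono fun _ => inf_le_inf_left _ h

theorem lt_of_card {B : Subgroup G} (hB : B ≤ A) (hA3 : p ^ 3 ≤ Nat.card A)
    (h : Nat.card B ≤ p ^ 2) : B < A := lt_of_le_of_ne hB fun h1 => by
  rw [h1] at h
  exact absurd (hA3.trans h) (not_le.mpr (Nat.pow_lt_pow_right hp.out.one_lt (by norm_num)))

theorem card_pair (hA : IsElementaryAbelian p A) {a b : G} (ha : a ∈ A) (hb : b ∈ A) :
    Nat.card ↥(zpowers a ⊔ zpowers b) ≤ p ^ 2 := by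
  have h1 := card_sup_dvd (H := zpowers b) (N := zpowers a) ((zpowers_le_of_mem hb).trans
    (le_normalizer_of_comm (elemAb_comm hA) (zpowers_le_of_mem ha)))
  refine (Nat.le_of_dvd (Nat.mul_pos Nat.card_pos Nat.card_pos) h1).trans ?_
  rw [sq, Nat.card_zpowers, Nat.card_zpowers]
  exact Nat.mul_le_mul (orderOf_le_of_pow_eq_one hp.out.pos (hA.2 a ha))
    (orderOf_le_of_pow_eq_one hp.out.pos (hA.2 b hb))

section
variable (hbal : IsKBalanced p k G) (hA : IsElementaryAbelian p A) (hA3 : p ^ 3 ≤ Nat.card A)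
  (hAk : p ^ (k + 2) ≤ Nat.card A) {a : G} (ha : a ∈ A)
include hA ha

theorem copY : CopAct A (Opp p (centralizer {a})) :=
  copAct_of_elemAb hA (not_dvd_card_map_pPrimeCore _) ((le_centralizer_of_comm (elemAb_comm hA)
    (Set.singleton_subset_iff.mpr ha)).trans (le_normalizer_map_pPrimeCore _))

omit ha in
theorem normD {E : Subgroup G} (hE : E ≤ A) : A ≤ normalizer (signalizerDelta p E : Set G) :=
  (le_centralizer_of_comm (elemAb_comm hA) hE).trans (cent_le_norm E)

omit ha in
theorem normX {N : Subgroup G} (hN : A ≤ normalizer (N : Set G)) :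
    A ≤ normalizer (X p A a N : Set G) := fun g hg => mem_normalizer_of_cj_le (by
  rw [cj, X, Subgroup.map_iSup]
  exact iSup_mono fun B => (cj_eq_self (le_normalizer_inf (normD hA B.2.1) hN hg)).le)

include hbal hA3

theorem L2 {E N : Subgroup G} (hE : E ≤ A) (hEk : p ^ k ≤ Nat.card E)
    (hN : N ≤ Opp p (centralizer {a})) (hAN : A ≤ normalizer (N : Set G)) :
    signalizerDelta p E ⊓ N ≤ X p A a N := by
  refine ((copY hA ha).mono_right (inf_le_right.trans hN)
    (le_normalizer_inf (normD hA hE) hAN)).le_of_hyperplanes_ge hA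
    (lt_of_card (zpowers_le_of_mem ha) hA3 ((card_le_of_le le_sup_left).trans (card_pair hA ha ha)))
    (by rw [centralizer_zpowers]; exact inf_le_right.trans (hN.trans (map_subtype_le _)))
    fun B h1 h2 h3 => le_iSup_of_le ⟨B, h2, h3, h1 (mem_zpowers a)⟩ (le_inf ?_ ?_)
  · exact (inf_le_inf_right _ inf_le_left).trans (L1 hbal hA hE hEk h2)
  · exact inf_le_left.trans inf_le_right

include hAk

theorem L3 {N : Subgroup G} (hN : N ≤ Opp p (centralizer {a})) (hAN : A ≤ normalizer (N : Set G))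
    (hYN : Opp p (centralizer {a}) ≤ normalizer (N : Set G)) :
    Opp p (centralizer {a}) ≤ normalizer (X p A a N : Set G) := by
  refine (copY hA ha).le_of_hyperplanes hA (ne_bot_of_pow_le_card (by norm_num) hA3)
    fun B' h1 h2 c hc => mem_normalizer_of_cj_le ?_
  rw [cj, X, Subgroup.map_iSup]
  refine iSup_le fun B => le_trans ?_ (L2 hbal hA hA3 ha (E := B.1 ⊓ B') (inf_le_right.trans h1)
    (pow_le_card_inf_of_hyperplanes B.2.1 h1 B.2.2.1 h2 hAk) hN hAN)
  exact cj_le_of_mem_normalizer (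
    (le_normalizer_inf (A := zpowers c) (zpowers_le_of_mem (cent_le_norm _
      (centralizer_le (inf_le_right : B.1 ⊓ B' ≤ B') hc.2))) (zpowers_le_of_mem (hYN hc.1)))
      (mem_zpowers c)) (inf_le_inf_right _ (delta_anti inf_le_left))

theorem L5 (hs : Group.IsSolvable (Opp p (centralizer {a}))) {N : Subgroup G}
    (hN : N ≤ Opp p (centralizer {a})) (hAN : A ≤ normalizer (N : Set G))
    (hYN : Opp p (centralizer {a}) ≤ normalizer (N : Set G)) :
    ∀ B, B ≤ A → X p A a N ⊓ centralizer (B : Set G) ≤ signalizerDelta p B := by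
  induction hn : Nat.card N using Nat.strong_induction_on generalizing N with
  | _ n ih =>
  by_cases h1 : N = ⊥
  · exact fun B _ => inf_le_left.trans ((X_le a N).trans (h1.le.trans bot_le))
  have hlt := commutator_lt_of_solvable (solvable_of_le hN hs) h1
  have hAN' := le_normalizer_commutator hAN hAN
  have hYN' := le_normalizer_commutator hYN hYN
  have h2 := ih _ (hn ▸ card_lt_of_lt hlt) (hlt.le.trans hN) hAN' hYN' rfl
  have h3 := L3 hbal hA hA3 hAk ha (hlt.le.trans hN) hAN' hYN'
  have h4 : ⁅X p A a N, X p A a N⁆ ≤ X p A a ⁅N, N⁆ := by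
    refine H4.commutator_iSup_left_le (fun B => inf_le_right.trans (hN.trans h3)) fun B => ?_
    rw [commutator_comm]
    refine H4.commutator_iSup_left_le (fun B => inf_le_right.trans (hN.trans h3)) fun B' => ?_
    refine le_trans (le_inf ?_ (commutator_mono inf_le_right inf_le_right))
      (L2 hbal hA hA3 ha (E := B.1 ⊓ B'.1) (inf_le_left.trans B.2.1)
      (pow_le_card_inf_of_hyperplanes B.2.1 B'.2.1 B.2.2.1 B'.2.2.1 hAk) (hlt.le.trans hN) hAN')
    exact (commutator_mono (inf_le_left.trans (delta_anti inf_le_right))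
      (inf_le_left.trans (delta_anti inf_le_left))).trans (commutator_le_self _)
  obtain ⟨T, hT1, ⟨hT2, hT3, hT4⟩, hT⟩ := Finite.exists_le_maximal (p := fun T : Subgroup G =>
    T ≤ X p A a N ∧ A ≤ normalizer (T : Set G) ∧
      ∀ B, B ≤ A → T ⊓ centralizer (B : Set G) ≤ signalizerDelta p B)
    ⟨X_mono a hlt.le, normX hA hAN', h2⟩
  refine fun B hB => (inf_le_inf_right _ (iSup_le fun D => ?_)).trans (hT4 B hB)
  have h5 : signalizerDelta p D.1 ⊓ N ≤ X p A a N := le_iSup_of_le D le_rfl
  have h6 := le_normalizer_inf (normD hA D.2.1) hAN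
  refine le_sup_right.trans (hT (y := T ⊔ (signalizerDelta p D.1 ⊓ N))
    ⟨sup_le hT2 h5, le_normalizer_sup hT3 h6, fun C hC => ?_⟩ le_sup_left)
  rw [(((copY hA ha).mono_right (inf_le_left.trans (hT2.trans ((X_le a N).trans hN)))
    (le_normalizer_inf hT3 h6)).mono_left hC).sup_inf_centralizer (hC.trans hT3) (hC.trans h6)
    (le_normalizer_iff_commutator_le_left.mpr ((commutator_mono hT2 h5).trans (h4.trans hT1)))]
  refine sup_le (hT4 C hC) ((inf_le_inf_right _ inf_le_left).trans (L1 hbal hA D.2.1 ?_ hC))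
  exact (Nat.pow_le_pow_right hp.out.pos k.le_succ).trans
    (pow_le_card_of_hyperplane D.2.1 D.2.2.1 hAk)

end

/-- Let G be finite and k-balanced for the prime p (k ≥ 1), A an elementary abelian p-subgroup of order at least p^(k+2) such that O_{p'}(C_G(a)) is solvable for every non-identity a ∈ A. For a ∈ A put θ a = the subgroup generated by the Δ_G(D) ∩ C_G(a) over the subgroups D ≤ A of order p^k. Then θ is an A-signalizer functor. -/
theorem result {G : Type*} [Group G] [Finite G] (p k : ℕ) [Fact p.Prime] (hk : 1 ≤ k) (hbal : Cfsg.IsKBalanced p k G) (A : Subgroup G) (hA : Cfsg.IsElementaryAbelian p A) (hAk : p ^ (k + 2) ≤ Nat.card ↥A) (hsolv : ∀ a ∈ A, a ≠ 1 → Group.IsSolvable ↥(Cfsg.centralizerPPrimeCore p a)) : Cfsg.IsSignalizerFunctor p A (fun a => ⨆ D : {D : Subgroup G // D ≤ A ∧ Nat.card ↥D = p ^ k}, Cfsg.signalizerDelta p (D : Subgroup G) ⊓ Subgroup.centralizer {a}) := by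
  have hA3 : p ^ 3 ≤ Nat.card A :=
    (Nat.pow_le_pow_right (Fact.out : p.Prime).pos (by omega)).trans hAk
  have hY : ∀ a ∈ A, a ≠ 1 → ∀ D : Subgroup G, D ≤ A → Nat.card D = p ^ k →
      signalizerDelta p D ⊓ centralizer {a} ≤ Opp p (centralizer {a}) := fun a ha h1 D hD hDc =>
    hbal D (elemAb_mono hA hD) hDc a (elemAb_orderOf hA ha h1)
      fun d hd => elemAb_mul_comm hA (hD hd) ha
  refine ⟨fun a _ _ => iSup_le fun _ => inf_le_right, fun a ha h1 => ?_, fun a ha _ => ?_,
    fun a ha h1 b hb h2 => ?_⟩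
  · exact H8.not_dvd_card_of_le (iSup_le fun D => hY a ha h1 D.1 D.2.1 D.2.2)
      (not_dvd_card_map_pPrimeCore _)
  · refine le_normalizer_iff.mp fun g hg => mem_normalizer_of_cj_le ?_
    rw [cj, Subgroup.map_iSup]
    exact iSup_mono fun D => (cj_eq_self (le_normalizer_inf (normD hA D.2.1)
      (elemAb_le_normalizer_centralizer_singleton hA ha) hg)).le
  have hc := copY hA ha
  have h3 : (⨆ D : {D : Subgroup G // D ≤ A ∧ Nat.card ↥D = p ^ k},
      signalizerDelta p (D : Subgroup G) ⊓ centralizer {a}) ≤ X p A a (Opp p (centralizer {a})) :=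
    iSup_le fun D => (le_inf inf_le_left (hY a ha h1 D.1 D.2.1 D.2.2)).trans
      (L2 hbal hA hA3 ha D.2.1 D.2.2.ge le_rfl hc.norm)
  refine (inf_le_inf_right _ h3).trans ((hc.mono_right (inf_le_left.trans (X_le a _))
    (le_normalizer_inf (normX hA hc.norm)
      (elemAb_le_normalizer_centralizer_singleton hA hb))).le_of_hyperplanes_ge hA
    (lt_of_card (sup_le (zpowers_le_of_mem ha) (zpowers_le_of_mem hb)) hA3 (card_pair hA ha hb))
    ?_ fun B h4 h5 h6 => ?_)
  · rw [centralizer_sup_zpowers, centralizer_zpowers]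
    exact inf_le_inf_right _ ((X_le a _).trans (map_subtype_le _))
  · obtain ⟨D, hD, hDc⟩ := exists_le_card ((elemAb_pgroup hA).to_le h5)
      ((Nat.pow_le_pow_right (Fact.out : p.Prime).pos k.le_succ).trans
        (pow_le_card_of_hyperplane h5 h6 hAk))
    refine le_iSup_of_le ⟨D, hD.trans h5, hDc⟩ (le_inf ?_ (inf_le_left.trans inf_le_right))
    exact (inf_le_inf_right _ inf_le_left).trans ((L5 hbal hA hA3 hAk ha (hsolv a ha h1) le_rfl
      hc.norm le_normalizer B h5).trans (delta_anti hD))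

end Cfsg.Agent.S1299
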