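import Cfsg.Statements.S1302
import Cfsg.Agent.H8.OddPxQ

set_option autoImplicit false
open Cfsg

namespace Cfsg.Agent.S1302

open Subgroup Cfsg.Agent.H8 Cfsg.Agent.L0

theorem aux {X : Type*} [Group X] [Finite X] {p : ℕ} [Fact p.Prime] (hp : p ≠ 2)
    (hX : centralizer (pCore p X : Set X) ≤ pCore p X) {A : Subgroup X} (hAp : IsPGroup p ↥A)
    (hΩ : ∀ x ∈ centralizer (A : Set X), x ^ p = 1 → x ∈ A) {Q : Subgroup X}
    (hQ : ¬ p ∣ Nat.card ↥Q) (hAQ : A ≤ normalizer (Q : Set X)) : Q = ⊥ := by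
  have h1 : pCore p X ≤ centralizer (Q : Set X) := by
    refine pxq_odd hp hAp pCore_isPGroup hQ hAQ le_normalizer_of_normal le_normalizer_of_normal
      fun x hx hxp => ?_
    refine commutator_eq_bot_iff_le_centralizer.mp (le_bot_iff.mp ?_ : ⁅A ⊓ pCore p X, Q⁆ = ⊥)
      ⟨hΩ x hx.2 hxp, hx.1⟩
    rw [← disjoint_of_coprime_card (coprime_of_pgroup (pCore_isPGroup (p := p) (G := X)) hQ)]
    exact le_inf ((commutator_mono inf_le_right le_rfl).trans (commutator_le_left _ _))
      (le_normalizer_iff_commutator_le_right.mp (inf_le_left.trans hAQ))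
  exact eq_bot_of_isPGroup_of_not_dvd (pCore_isPGroup.to_le ((le_centralizer_iff.mp h1).trans hX))
    hQ

/-- Let X be a finite p-constrained group, p an odd prime, and A an abelian p-subgroup of X containing every element of order p of C_X(A). Then every subgroup of X of order prime to p that is normalized by A lies in O_{p'}(X). -/
theorem result {X : Type*} [Group X] [Finite X] (p : ℕ) [Fact p.Prime] (hp : p ≠ 2) (hX : Cfsg.IsPConstrained p X) (A : Subgroup X) (hA : IsMulCommutative ↥A) (hAp : IsPGroup p ↥A) (hΩ : ∀ x ∈ Subgroup.centralizer (A : Set X), orderOf x = p → x ∈ A) (Q : Subgroup X) (hQ : ¬ p ∣ Nat.card ↥Q) (hAQ : A ≤ Subgroup.normalizer (Q : Set X)) : Q ≤ Cfsg.pPrimeCore p X := by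
  let f := QuotientGroup.mk' (pPrimeCore p X)
  have hker : f.ker = pPrimeCore p X := QuotientGroup.ker_mk' _
  have h2 : CopAct A f.ker :=
    CopAct.of_pgroup hAp (by rw [hker]; exact not_dvd_card_pPrimeCore) le_normalizer_of_normal
  rw [← hker, ← Subgroup.map_eq_bot_iff]
  refine aux hp (centralizer_pCore_quotient_le_of_isPConstrained hX) (hAp.map f) ?_
    (H8.not_dvd_card_map hQ f) (map_le_normalizer_map hAQ f)
  rw [h2.centralizer_map f (QuotientGroup.mk'_surjective _)]
  rintro _ ⟨x, hx, rfl⟩ hxp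
  rw [← map_pow, ← MonoidHom.mem_ker, hker] at hxp
  set n := Nat.card (pPrimeCore p X) with hn
  have hcop : n.Coprime p := card_pPrimeCore_coprime
  have h3 : (x ^ n) ^ p = 1 := by
    rw [← pow_mul, mul_comm, pow_mul]
    exact congrArg Subtype.val (pow_card_eq_one' (x := (⟨_, hxp⟩ : pPrimeCore p X)))
  have h4 : x ^ n ∈ A := by
    by_cases h5 : x ^ n = 1
    · rw [h5]; exact A.one_mem
    · exact hΩ _ (pow_mem hx n) (orderOf_eq_prime h3 h5)
  have h5 : f x ^ p = 1 := by rw [← map_pow, ← MonoidHom.mem_ker, hker]; exact hxp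
  have h6 : f x ∈ zpowers (f x ^ n) :=
    mem_zpowers_pow_iff.mpr (hcop.coprime_dvd_right (orderOf_dvd_of_pow_eq_one h5))
  exact zpowers_le_of_mem (by rw [← map_pow]; exact mem_map_of_mem f h4) h6

end Cfsg.Agent.S1302
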