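import Cfsg.Statements.S1303
import Cfsg.Agent.H8.Constraint

set_option autoImplicit false
open Cfsg

namespace Cfsg.Agent.S1303

open Subgroup Cfsg.Agent.H8 Cfsg.Agent.L0

abbrev X := Matrix.SpecialLinearGroup (Fin 2) (ZMod 3)

theorem h1 : ∀ g h : X, g ^ 4 = 1 → h ^ 4 = 1 → (g * h) ^ 4 = 1 := by decide +kernel
theorem h2 : ∀ g : X, (∀ h : X, h ^ 4 = 1 → h * g = g * h) → g ^ 4 = 1 := by decide +kernel
theorem h3 : ∀ g : X, g ^ 2 = 1 → ∀ h, h * g = g * h := by decide +kernel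
theorem h4 : ∀ g : X, g ≠ 1 → g = -1 ∨ ∃ h k : X, k * h = 1 ∧ (g * g * (h * g * k)) ^ 2 = -1 := by
  decide +kernel
theorem h5 : ∃ g : X, g ^ 3 = 1 ∧ g ≠ 1 := by decide +kernel
theorem h6 : (-1 : X) ^ 2 = 1 ∧ (-1 : X) ≠ 1 := by decide +kernel

def Q8 : Subgroup X where
  carrier := {g | g ^ 4 = 1}
  mul_mem' := h1 _ _
  one_mem' := one_pow 4
  inv_mem' := fun {g} (hg : g ^ 4 = 1) => show g⁻¹ ^ 4 = 1 by rw [inv_pow, hg, inv_one]

theorem Q8_normal : Q8.Normal := ⟨fun n (hn : n ^ 4 = 1) g => show (g * n * g⁻¹) ^ 4 = 1 by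
  rw [conj_pow, hn, mul_one, mul_inv_cancel]⟩

theorem core : pPrimeCore 2 X = ⊥ := by
  haveI : Fact (Nat.Prime 2) := ⟨Nat.prime_two⟩
  refine pPrimeCore_eq_bot_iff.mpr fun N hN h => ?_
  by_contra hne
  obtain ⟨g, hg, hg1⟩ := (N.bot_or_exists_ne_one).resolve_left hne
  have hm : (-1 : X) ∈ N := by
    rcases h4 g hg1 with rfl | ⟨h, k, hk, e⟩
    · exact hg
    · rw [← e, eq_inv_of_mul_eq_one_left hk]
      exact pow_mem (mul_mem (mul_mem hg hg) (hN.conj_mem g hg h)) 2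
  have h7 := Subgroup.orderOf_dvd_natCard N hm
  rw [orderOf_eq_prime h6.1 h6.2] at h7
  exact h h7

/-- The group X = SL(2, 3): it is 2-constrained, O_{2'}(X) = 1, its centre A = Z(X) contains every involution of X = C_X(A), and X has a subgroup of order 3 (normalized by A) not contained in O_{2'}(X). -/
theorem result : Cfsg.IsPConstrained 2 (Matrix.SpecialLinearGroup (Fin 2) (ZMod 3)) ∧ Cfsg.pPrimeCore 2 (Matrix.SpecialLinearGroup (Fin 2) (ZMod 3)) = ⊥ ∧ (∀ t : Matrix.SpecialLinearGroup (Fin 2) (ZMod 3), orderOf t = 2 → t ∈ Subgroup.center (Matrix.SpecialLinearGroup (Fin 2) (ZMod 3))) ∧ ∃ Q : Subgroup (Matrix.SpecialLinearGroup (Fin 2) (ZMod 3)), Nat.card ↥Q = 3 ∧ ¬ (Q ≤ Cfsg.pPrimeCore 2 (Matrix.SpecialLinearGroup (Fin 2) (ZMod 3))) := by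
  haveI : Fact (Nat.Prime 2) := ⟨Nat.prime_two⟩
  refine ⟨(isPConstrained_iff_of_pPrimeCore_eq_bot core).mpr ?_, core, fun t ht => ?_, ?_⟩
  · have h : Q8 ≤ pCore 2 X := le_pCore Q8_normal fun g => ⟨2, Subtype.ext g.2⟩
    exact fun g hg => h (h2 g fun x hx => hg x (h hx))
  · have h7 := pow_orderOf_eq_one t
    rw [ht] at h7
    exact mem_center_iff.mpr (h3 t h7)
  · obtain ⟨g, hg, hg1⟩ := h5
    haveI : Fact (Nat.Prime 3) := ⟨Nat.prime_three⟩
    refine ⟨zpowers g, by rw [Nat.card_zpowers, orderOf_eq_prime hg hg1], fun h => hg1 ?_⟩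
    rw [core] at h
    exact h (mem_zpowers g)

end Cfsg.Agent.S1303
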