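import Cfsg.Statements.S1304
import Cfsg.Agent.H7.Component

set_option autoImplicit false
open Cfsg

namespace Cfsg.Agent.S1304

open Subgroup Cfsg.Agent.H7


/-- Let X be a perfect group and α an automorphism of X with α(x) x⁻¹ central for every x. Then α is the identity. -/
theorem result {X : Type*} [Group X] (hperf : commutator X = ⊤) (α : X ≃* X) (h : ∀ x : X, α x * x⁻¹ ∈ Subgroup.center X) : ∀ x : X, α x = x := by
  have hp : ⁅(⊤ : Subgroup X), (⊤ : Subgroup X)⁆ = ⊤ := hperf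
  -- the fixed points of `α` contain all commutators
  have key : ⁅(⊤ : Subgroup X), (⊤ : Subgroup X)⁆ ≤ α.toMonoidHom.eqLocus (MonoidHom.id X) := by
    rw [commutator_le]
    intro a _ b _
    show α _ = _
    rw [commutatorElement_def]
    obtain ⟨z, hz, hz'⟩ : ∃ z ∈ Subgroup.center X, α a = z * a := ⟨_, h a, by group⟩
    obtain ⟨w, hw, hw'⟩ : ∃ w ∈ Subgroup.center X, α b = w * b := ⟨_, h b, by group⟩
    simp only [map_mul, map_inv, hz', hw', MonoidHom.id_apply]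
    have h1 := mem_center_iff.mp hz
    have h2 := mem_center_iff.mp hw
    calc z * a * (w * b) * (z * a)⁻¹ * (w * b)⁻¹
        = (z * (a * (w * b) * a⁻¹)) * z⁻¹ * b⁻¹ * w⁻¹ := by group
      _ = ((a * (w * b) * a⁻¹) * z) * z⁻¹ * b⁻¹ * w⁻¹ := by rw [← h1]
      _ = (a * w) * (b * a⁻¹ * b⁻¹) * w⁻¹ := by group
      _ = (w * a) * (b * a⁻¹ * b⁻¹) * w⁻¹ := by rw [h2]
      _ = (w * (a * b * a⁻¹ * b⁻¹)) * w⁻¹ := by group
      _ = ((a * b * a⁻¹ * b⁻¹) * w) * w⁻¹ := by rw [← h2]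
      _ = a * b * a⁻¹ * b⁻¹ := by group
  intro x
  rw [hp] at key
  exact key (mem_top x)

end Cfsg.Agent.S1304
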