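import Cfsg.Statements.S1305
import Cfsg.Agent.H7.Pump

set_option autoImplicit false
open Cfsg

namespace Cfsg.Agent.S1305

open Subgroup Cfsg.Agent.H7
open scoped commutatorElement


/-- Let G be a finite group of component type with the B-property and no nontrivial normal subgroup of odd order. Let a be an involution and K a component of C_G(a) such that (a) |K| is maximal among the orders of components of centralizers of involutions of G, (b) subject to (a) the 2-rank of the centralizer of K in C_G(a) is as large as possible, and (c) K has 2-rank at least 2. If B is an elementary abelian 2-subgroup of that centralizer of the largest possible order, then K is a component of C_G(b) for every non-identity b ∈ B. -/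
theorem result {G : Type*} [Group G] [Finite G] (hO : Cfsg.oddCore G = ⊥) (hB : Cfsg.HasBProperty G) (hct : Cfsg.IsComponentType G) (a : G) (ha : orderOf a = 2) (K : Subgroup G) (hKa : K ≤ Subgroup.centralizer ({a} : Set G)) (hK : Cfsg.IsComponent (K.subgroupOf (Subgroup.centralizer ({a} : Set G)))) (hmax : ∀ y : G, orderOf y = 2 → ∀ K' : Subgroup G, K' ≤ Subgroup.centralizer ({y} : Set G) → Cfsg.IsComponent (K'.subgroupOf (Subgroup.centralizer ({y} : Set G))) → Nat.card ↥K' ≤ Nat.card ↥K ∧ (Nat.card ↥K' = Nat.card ↥K → ∀ k : ℕ, Cfsg.PRankLE 2 k ↥(Subgroup.centralizer ({a} : Set G) ⊓ Subgroup.centralizer (K : Set G)) → Cfsg.PRankLE 2 k ↥(Subgroup.centralizer ({y} : Set G) ⊓ Subgroup.centralizer (K' : Set G)))) (hrk : ¬ Cfsg.PRankLE 2 1 ↥K) (B : Subgroup G) (hBle : B ≤ Subgroup.centralizer ({a} : Set G) ⊓ Subgroup.centralizer (K : Set G)) (hBel : Cfsg.IsElementaryAbelian 2 B) (hBmax : ∀ B' : Subgroup G, B' ≤ Subgroup.centralizer ({a} : Set G) ⊓ Subgroup.centralizer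 (K : Set G) → Cfsg.IsElementaryAbelian 2 B' → Nat.card ↥B' ≤ Nat.card ↥B) (b : G) (hb : b ∈ B) (hb1 : b ≠ 1) : K ≤ Subgroup.centralizer ({b} : Set G) ∧ Cfsg.IsComponent (K.subgroupOf (Subgroup.centralizer ({b} : Set G))) := by
  have ha2 := H4.mul_self_of_orderOf_two ha
  have hb2 : orderOf b = 2 := H4.orderOf_eq_two_of (by rw [← pow_two]; exact hBel.2 b hb) hb1
  have hKa' := compOf_iff.mpr ⟨hKa, hK⟩
  have hKb : K ≤ centralizer {b} := fun k hk =>
    mem_centralizer_singleton_iff.mpr ((hBle hb).2 k hk)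
  have hab : a ∈ centralizer ({b} : Set G) :=
    mem_centralizer_singleton_iff.mpr (mem_centralizer_singleton_iff.mp (hBle hb).1).symm
  obtain ⟨U, hUK, hU, hU4⟩ := H8.not_prankLE_iff.mp hrk
  have hK2 : 2 ∣ Nat.card K := by
    obtain ⟨n, hn⟩ := (H5.isPGroup_of_forall_pow_eq_one hU.2).exists_card_eq
    refine dvd_trans ?_ (card_dvd_of_le hUK)
    rw [hn] at hU4 ⊢
    exact dvd_pow_self 2 (by rintro rfl; omega)
  have hK1 : PCompOf 2 K (centralizer {b} ⊓ centralizer {a}) :=
    (hKa'.mono (le_inf hKb hKa) inf_le_right).pCompOf hK2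
  have h1 := hB b hb2
  rw [map_commutator, hO, le_bot_iff] at h1
  obtain ⟨L, hL, ⟨-, h2⟩ | ⟨hne, h, h2⟩⟩ := hK1.pumpup ha2 hab
    ((hK1.le_playerOf.trans (playerOf_inf_centralizer_singleton_le ha hab)).trans
      (playerOf_le_layerOf h1))
  · rw [H5.eq_of_le_of_card_le h2 (hmax b hb2 L hL.le (compOf_iff.mp hL).2).1]
    exact compOf_iff.mp hL
  exfalso
  obtain ⟨h3, h4⟩ := hmax b hb2 L hL.le (compOf_iff.mp hL).2
  have hinj : Function.Injective (diagHom h) := by
    have e := card_mul_index (diagHom h).ker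
    rw [index_ker, ← h2] at e
    have : Nat.card (diagHom h).ker = 1 := by
      have h5 : 0 < Nat.card K := Nat.card_pos
      have h6 : 0 < Nat.card (diagHom h).ker := Nat.card_pos
      nlinarith
    exact (MonoidHom.ker_eq_bot_iff _).mp (card_eq_one.mp this)
  have hcard : Nat.card L = Nat.card K := by
    rw [h2]; exact Nat.card_congr (MonoidHom.ofInjective hinj).toEquiv
  have hL' : CompOf (H8.cj a L) (centralizer {b}) := hL.conj (le_normalizer hab)
  have hBb : B ≤ centralizer {b} := H8.le_centralizer_of_comm hBel.1 (by simpa using hb)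
  have hBa : B ≤ centralizer {a} := hBle.trans inf_le_left
  have hKL : ⁅K, L⁆ ≠ ⊥ := fun e => QS.comm_ne_bot hL.qs (by
    refine comm_eq_bot_iff.mpr fun l hl m hm => ?_
    have e1 := comm_eq_bot_iff.mp e _ (h2.ge ⟨⟨l, hl⟩, rfl⟩) m hm
    have e2 := comm_eq_bot_iff.mp h m hm _ (H8.conj_mem_cj a hl)
    rw [diagHom_apply, mul_assoc, ← e2, ← mul_assoc, ← mul_assoc m] at e1
    exact mul_right_cancel e1)
  -- elements of `B` normalize `L` or send it to `L ^ a`
  have h5 : ∀ β ∈ B, β ∉ normalizer (L : Set G) → H8.cj β L = H8.cj a L := fun β hβ hβL => by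
    have hc : CompOf (H8.cj β L) (centralizer {b}) := hL.conj (le_normalizer (hBb hβ))
    by_contra hne2
    have e1 := hc.comm_of_ne hL fun e => hβL (H8.cj_eq_self_iff.mp e)
    have e2 := hc.comm_of_ne hL' hne2
    have e3 : ⁅H8.cj β K, H8.cj β L⁆ = ⊥ := by
      rw [H8.cj_eq_self_of_mem_centralizer (hBle hβ).2]
      exact comm_eq_bot_symm (comm_eq_bot_of_le (comm_sup_right_eq_bot e1 e2) le_rfl
        (h2 ▸ diagHom_range_le_sup h))
    rw [← H8.cj_commutator, H8.cj_eq_bot_iff] at e3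
    exact hKL e3
  set B₀ := B ⊓ normalizer (L : Set G) with hB₀
  have h6 : B₀ ≤ centralizer (L : Set G) := by
    refine commutator_eq_bot_iff_le_centralizer.mp (comm_eq_bot_of_perfect hL.perfect
      (comm_eq_bot_symm (comm_eq_bot_of_le h le_rfl ?_)))
    rw [commutator_le]
    intro β hβ l hl
    have e1 : Commute (l * (a * l * a⁻¹)) β := (hBle hβ.1).2 _ (h2 ▸ ⟨⟨l, hl⟩, rfl⟩)
    have e2 : Commute β a := mem_centralizer_singleton_iff.mp (hBa hβ.1)
    have hl' : β * l * β⁻¹ ∈ L := (mem_normalizer_iff.mp hβ.2 l).mp hl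
    have e3 : ⁅β, l⁆ = a * ((β * l * β⁻¹)⁻¹ * l) * a⁻¹ := by
      have e4 := comm_eq_bot_iff.mp h _ hl' _ (H8.conj_mem_cj a hl')
      have e5 := comm_eq_bot_iff.mp h _ hl _ (H8.conj_mem_cj a hl)
      have e6 : β * l * β⁻¹ * (a * (β * l * β⁻¹) * a⁻¹) = l * (a * l * a⁻¹) := by
        calc _ = β * l * (β⁻¹ * (a * β)) * l * (β⁻¹ * a⁻¹) := by group
          _ = β * (l * (a * l * a⁻¹)) * β⁻¹ := by
            rw [← e2.eq, e2.inv_inv.eq]; group
          _ = _ := by rw [← e1.eq, mul_inv_cancel_right]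
      rw [e4, e5] at e6
      calc ⁅β, l⁆ = (a * (β * l * β⁻¹) * a⁻¹)⁻¹ *
          (a * (β * l * β⁻¹) * a⁻¹ * (β * l * β⁻¹)) * l⁻¹ := by
            rw [commutatorElement_def]; group
        _ = _ := by rw [e6]; group
    rw [e3]
    exact H8.conj_mem_cj a (mul_mem (inv_mem hl') hl)
  have h7 : B₀ ≤ centralizer (H8.cj a L : Set G) := fun β hβ => by
    rw [← H8.cj_centralizer, H8.mem_cj, mul_assoc, mem_centralizer_singleton_iff.mp (hBa hβ.1),
      inv_mul_cancel_left]
    exact h6 hβ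
  have h8 : Nat.card B ≤ Nat.card B₀ * 2 := by
    by_cases hc : B ≤ normalizer (L : Set G)
    · rw [hB₀, inf_eq_left.mpr hc]; omega
    · obtain ⟨β, hβ, hβL⟩ := SetLike.not_le_iff_exists.mp hc
      have := H9.relIndex_eq_two_of (M := B₀) hβ (fun h => hβL h.2) fun s hs hs' =>
        ⟨B.mul_mem hs hβ, H8.cj_eq_self_iff.mp (by
          have e1 := h5 s hs fun h => hs' ⟨hs, h⟩
          have e2 : s * s = 1 := by rw [← pow_two]; exact hBel.2 s hs
          rw [H8.cj_mul, h5 β hβ hβL, ← e1, cj_cj_of_sq e2])⟩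
      rw [← H5.card_mul_relIndex_of_le (inf_le_left : B₀ ≤ B), this]
  -- a four-group in `L ^ a`
  obtain ⟨W, hWL, hW, hW4⟩ : ∃ W : Subgroup G, W ≤ H8.cj a L ∧ IsElementaryAbelian 2 W ∧
      4 ≤ Nat.card W := by
    have hrkL : ¬ PRankLE 2 1 L := fun hr => hrk fun A hA hA2 => by
      let e : K ≃* L := (MulEquiv.subgroupCongr h2).trans (MonoidHom.ofInjective hinj).symm
      have := hr (A.map e.toMonoidHom) (map_isMulCommutative _ _) (by
        rintro _ ⟨x, hx, rfl⟩
        rw [← map_pow, hA2 x hx, map_one])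
      rwa [card_map_of_injective e.injective] at this
    obtain ⟨V, hVL, hV, hV4⟩ := H8.not_prankLE_iff.mp hrkL
    have := hV.1
    refine ⟨H8.cj a V, H8.cj_mono a hVL, ⟨map_isMulCommutative _ _, ?_⟩, by rwa [H8.card_cj]⟩
    rintro _ ⟨x, hx, rfl⟩
    rw [← map_pow, hV.2 x hx, map_one]
  have h9 : B₀ ⊓ W = ⊥ := eq_bot_iff.mpr fun β hβ => by
    have e1 : Commute β a := mem_centralizer_singleton_iff.mp (hBa hβ.1.1)
    have e2 : β ∈ L := by
      have := H8.mem_cj.mp (hWL hβ.2)
      rwa [mul_assoc, e1.eq, inv_mul_cancel_left] at this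
    have := hinj (a₁ := ⟨β, e2⟩) (a₂ := 1) (by
      rw [diagHom_apply, map_one, ← e1.eq, mul_inv_cancel_right, ← pow_two]
      exact hBel.2 β hβ.1.1)
    exact congrArg Subtype.val this
  have hWB : W ≤ centralizer (B₀ : Set G) := le_centralizer_iff.mp (h7.trans (centralizer_le hWL))
  have h10 := H5.card_sup_mul_card_inf (hWB.trans (centralizer_le_normalizer _))
  rw [h9, card_bot, mul_one] at h10
  obtain ⟨n, hn⟩ := (H5.isPGroup_of_forall_pow_eq_one hBel.2).exists_card_eq
  have h11 := h4 hcard n fun A hA hA2 => by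
    have := hBmax (A.map (Subgroup.subtype _)) (map_subtype_le A) ⟨map_isMulCommutative _ _, by
      rintro _ ⟨x, hx, rfl⟩
      rw [← map_pow, hA2 x hx, map_one]⟩
    rwa [card_map_of_injective (Subgroup.subtype_injective _), hn] at this
  refine H8.not_prankLE_iff.mpr ⟨B₀ ⊔ W, sup_le (le_inf (inf_le_left.trans hBb) h6)
    (le_inf (hWL.trans hL'.le) (hWL.trans (commutator_eq_bot_iff_le_centralizer.mp
      (comm_eq_bot_symm h)))), ⟨H5.isMulCommutative_sup
        (H5.isMulCommutative_of_le hBel.1 inf_le_left) hW.1 hWB, fun x hx => ?_⟩, ?_⟩ h11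
  · obtain ⟨u, hu, w, hw, rfl⟩ :=
      mem_sup_of_normalizes (Or.inr (hWB.trans (centralizer_le_normalizer _))) hx
    rw [(show Commute u w from hWB hw u hu).mul_pow, hBel.2 u hu.1, hW.2 w hw, one_mul]
  · rw [h10, pow_succ, ← hn]
    nlinarith

end Cfsg.Agent.S1305
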