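import Cfsg.Statements.S1306
import Cfsg.Agent.H7.Misc

set_option autoImplicit false
open Cfsg

namespace Cfsg.Agent.S1306

open Subgroup Cfsg.Agent.H7


/-- Let G be finite, x an involution and L ≤ C_G(x) a component of C_G(x). Suppose L is a component of C_G(y) for every involution y ∈ C_G(L), and ⁅L, g L g⁻¹⁆ ≠ 1 whenever g L g⁻¹ ≠ L. Then L is a standard subgroup of G. -/
theorem result {G : Type*} [Group G] [Finite G] (x : G) (hx : orderOf x = 2) (L : Subgroup G) (hLx : L ≤ Subgroup.centralizer ({x} : Set G)) (hL : Cfsg.IsComponent (L.subgroupOf (Subgroup.centralizer ({x} : Set G)))) (hne : ∀ y : G, orderOf y = 2 → y ∈ Subgroup.centralizer (L : Set G) → L ≤ Subgroup.centralizer ({y} : Set G) ∧ Cfsg.IsComponent (L.subgroupOf (Subgroup.centralizer ({y} : Set G)))) (hnc : ∀ g : G, L.map (MulAut.conj g).toMonoidHom ≠ L → ⁅L, L.map (MulAut.conj g).toMonoidHom⁆ ≠ ⊥) : Cfsg.IsStandardSubgroup L := by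
  have hq : IsQuasisimple L := (compOf_iff.mpr ⟨hLx, hL⟩).qs
  have hxK : x ∈ centralizer (L : Set G) := mem_centralizer_iff.mpr fun l hl =>
    mem_centralizer_singleton_iff.mp (hLx hl)
  have key : ∀ g y : G, orderOf y = 2 → y ∈ centralizer (L : Set G) →
      y ∈ H8.cj g (centralizer (L : Set G)) → g ∈ normalizer (L : Set G) := by
    intro g y hy h1 h2
    have c1 := compOf_iff.mpr (hne y hy h1)
    have hy' : orderOf (g⁻¹ * y * g) = 2 := by
      rw [← hy]
      simpa using (MulAut.conj g⁻¹).orderOf_eq y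
    have c2 := (compOf_iff.mpr (hne _ hy' (H8.mem_cj.mp h2))).map_of_injective
      (f := (MulAut.conj g).toMonoidHom) (MulAut.conj g).injective
    have e : H8.cj g (centralizer {g⁻¹ * y * g}) = centralizer {y} := by
      rw [H8.cj_centralizer_singleton]; congr 2; group
    change CompOf (H8.cj g L) (H8.cj g _) at c2
    rw [e] at c2
    by_contra hg
    have hne' : H8.cj g L ≠ L := fun h => hg (H8.cj_eq_self_iff.mp h)
    exact hnc g hne' (c1.comm_of_ne c2 hne'.symm)
  have hev : ∀ X : Subgroup G, x ∈ X → Even (Nat.card X) := fun X h => by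
    have h2 := orderOf_dvd_natCard (⟨x, h⟩ : X)
    rw [← Subgroup.orderOf_coe, hx] at h2
    exact even_iff_two_dvd.mpr h2
  refine ⟨hq, ⟨hev _ hxK, fun g hg => ?_⟩, hnc, le_antisymm (normalizer_le_normalizer_centralizer L) ?_⟩
  · by_contra hodd
    haveI : Fact (Nat.Prime 2) := ⟨Nat.prime_two⟩
    obtain ⟨y, hy⟩ := exists_prime_orderOf_dvd_card' 2
      (even_iff_two_dvd.mp (Nat.not_odd_iff_even.mp hodd))
    rw [← Subgroup.orderOf_coe] at hy
    exact hg (normalizer_le_normalizer_centralizer L (key g y hy y.2.1 y.2.2))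
  · intro g hg
    refine key g x hx hxK ?_
    rw [H8.cj_eq_self hg]; exact hxK

end Cfsg.Agent.S1306
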