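import Cfsg.Statements.S1307
import Cfsg.Agent.H7.Pump

set_option autoImplicit false
open Cfsg

namespace Cfsg.Agent.S1307

open Subgroup Cfsg.Agent.H7


/-- Let G be finite, x an involution and L ≤ C_G(x) a component of C_G(x) of even order and 2-rank 1, such that L is a component of C_G(y) for every involution y ∈ C_G(L). Then some involution of L is a classical involution of G. -/
theorem result {G : Type*} [Group G] [Finite G] (x : G) (hx : orderOf x = 2) (L : Subgroup G) (hLx : L ≤ Subgroup.centralizer ({x} : Set G)) (hL : Cfsg.IsComponent (L.subgroupOf (Subgroup.centralizer ({x} : Set G)))) (heven : Even (Nat.card ↥L)) (hrk : Cfsg.PRankLE 2 1 ↥L) (hne : ∀ y : G, orderOf y = 2 → y ∈ Subgroup.centralizer (L : Set G) → L ≤ Subgroup.centralizer ({y} : Set G) ∧ Cfsg.IsComponent (L.subgroupOf (Subgroup.centralizer ({y} : Set G)))) : ∃ t ∈ L, Cfsg.IsClassicalInvolution t := by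
  have hq : IsQuasisimple L := (compOf_iff.mpr ⟨hLx, hL⟩).qs
  obtain ⟨t, htL, ht⟩ := exists_involution_of_even (even_iff_two_dvd.mp heven)
  obtain ⟨h1, h2⟩ := hne t ht (QS.mem_centralizer_of_prank_one hq hrk htL ht)
  refine ⟨t, htL, ht, L, h1, htL, h2.1, ?_⟩
  obtain ⟨S⟩ : Nonempty (Sylow 2 L) := inferInstance
  rcases H5.cyclic_or_quaternion_of_pRankLE_one S.isPGroup' (fun A hA h2 => by
    have := hrk (A.map (S : Subgroup L).subtype) (map_isMulCommutative _ _) (by
      rintro _ ⟨a, ha, rfl⟩
      rw [← map_pow, h2 a ha, map_one])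
    rwa [card_map_of_injective (S : Subgroup L).subtype_injective] at this) with h | ⟨-, h⟩
  · exact absurd (quasisimple_iff.mp hq).1
      (H6.HasNormalPComplement.commutator_ne_top (H9.hasNormalPComplement_two_of_isCyclic S h)
        (even_iff_two_dvd.mp heven))
  · exact ⟨S, h⟩

end Cfsg.Agent.S1307
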