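import Cfsg.Statements.S1316
import Cfsg.Agent.H7.FStar

set_option autoImplicit false
open Cfsg

namespace Cfsg.Agent.S1316

open Subgroup Cfsg.Agent.H7


/-- For a finite group X, E(X) equals the intersection of the derived series of F*(X) (its last term). -/
theorem result {X : Type*} [Group X] [Finite X] : (⨅ n : ℕ, (derivedSeries ↥(Cfsg.generalizedFittingSubgroup X) n).map (Cfsg.generalizedFittingSubgroup X).subtype) = Cfsg.layer X := by
  set F := Cfsg.generalizedFittingSubgroup X with hF
  apply le_antisymm
  · have hs : Group.IsSolvable (F.map (QuotientGroup.mk' (Cfsg.layer X))) := by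
      rw [hF, fstar_def, Subgroup.map_sup, le_iff_map_mk'_eq_bot.mp (le_refl (Cfsg.layer X)),
        bot_sup_eq]
      exact L0.isSolvable_map _ _
    obtain ⟨n, hn⟩ := hs.solvable
    refine iInf_le_of_le n ?_
    have h1 := map_derivedSeries_le_derivedSeries
      ((QuotientGroup.mk' (Cfsg.layer X)).subgroupMap F) n
    rw [hn, le_bot_iff, Subgroup.map_eq_bot_iff] at h1
    rintro _ ⟨x, hx, rfl⟩
    have h2 := congrArg Subtype.val (MonoidHom.mem_ker.mp (h1 hx))
    exact (QuotientGroup.eq_one_iff _).mp h2
  · refine le_iInf fun n => ?_
    induction n with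
    | zero =>
      rw [derivedSeries_zero, ← MonoidHom.range_eq_map, range_subtype]
      exact layer_le_fstar
    | succ n ih =>
      rw [derivedSeries_succ, map_commutator, ← layer_perfect]
      exact commutator_mono ih ih

end Cfsg.Agent.S1316
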