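import Cfsg.Statements.S1318
import Cfsg.Agent.H7.FStar

set_option autoImplicit false
open Cfsg

namespace Cfsg.Agent.S1318

open Subgroup Cfsg.Agent.H7


/-- Let X be finite and S ≤ F*(X) a subgroup subnormal in F*(X). Then F(S) = F(X) ∩ S (inside X) and S = F(S)E(S). -/
theorem result {X : Type*} [Group X] [Finite X] (S : Subgroup X) (hS : S ≤ Cfsg.generalizedFittingSubgroup X) (hsn : (S.subgroupOf (Cfsg.generalizedFittingSubgroup X)).IsSubnormal) : (Cfsg.fittingSubgroup ↥S).map S.subtype = Cfsg.fittingSubgroup X ⊓ S ∧ Cfsg.fittingSubgroup ↥S ⊔ Cfsg.layer ↥S = ⊤ := by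
  have h1 : SN S (fstarOf (⊤ : Subgroup X)) := by
    rw [fstarOf_top]; exact ⟨hS, hsn⟩
  have h2 : S.IsSubnormal := (h1.trans (fstarOf_sn _)).isSubnormal .top
  refine ⟨L0.map_fitting_eq_inf_of_isSubnormal h2, ?_⟩
  have h3 := fstarOf_eq_self_of_sn h1
  apply map_injective S.subtype_injective
  rw [sup_comm, ← fstar_def, ← MonoidHom.range_eq_map, range_subtype]
  exact h3

end Cfsg.Agent.S1318
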