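import Cfsg.Statements.S1328
import Cfsg.Agent.H7.ExtLayer

set_option autoImplicit false
open Cfsg

namespace Cfsg.Agent.S1328

open Subgroup Cfsg.Agent.H7


/-- Let G be finite, H ≤ G with O(H) = 1, t an involution of G normalizing H, and Y a nontrivial subgroup of O(C_H(t)). Then some component E of H is normalized by t and by Y and centralized by neither t nor Y. -/
theorem result {G : Type*} [Group G] [Finite G] (H : Subgroup G) (hO : Cfsg.oddCore ↥H = ⊥) (t : G) (ht : orderOf t = 2) (htH : t ∈ Subgroup.normalizer (H : Set G)) (Y : Subgroup G) (hY1 : Y ≠ ⊥) (hY : Y ≤ (Cfsg.oddCore ↥(H ⊓ Subgroup.centralizer ({t} : Set G))).map (H ⊓ Subgroup.centralizer ({t} : Set G)).subtype) : ∃ E : Subgroup ↥H, Cfsg.IsComponent E ∧ (E.map H.subtype).map (MulAut.conj t).toMonoidHom = E.map H.subtype ∧ Y ≤ Subgroup.normalizer ((E.map H.subtype : Subgroup G) : Set G) ∧ ¬ (t ∈ Subgroup.centralizer ((E.map H.subtype : Subgroup G) : Set G)) ∧ ¬ (Y ≤ Subgroup.centralizer ((E.map H.subtype : Subgroup G) : Set G))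 := by
  have hO' : opp 2 H = ⊥ := L0.map_pPrimeCore_eq_bot_iff.mpr hO
  have hP : IsPGroup 2 (zpowers t) := isPGroup_zpowers_of_orderOf (k := 1) (by simpa using ht)
  have hPn : zpowers t ≤ normalizer (H : Set G) := zpowers_le.mpr htH
  set K := H ⊔ zpowers t with hKdef
  have he : ope 2 K = ope 2 H := ope_sup_eq hP hPn
  have hK0 : opp 2 K = ⊥ := (opp_eq_of_ope_eq he).trans hO'
  have hL : layerOf K = layerOf H := layerOf_eq_of_ope_eq he
  have htK : t ∈ K := mem_sup_right (mem_zpowers t)
  have hHK : K ≤ normalizer (H : Set G) := sup_le le_normalizer hPn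
  have hz : centralizer ((zpowers t : Subgroup G) : Set G) = centralizer {t} := by
    rw [zpowers_eq_closure, centralizer_closure]
  have hYK : Y ≤ opp 2 (K ⊓ centralizer {t}) :=
    hY.trans (opp_mono_of_sn ((SN.of_normalizer le_sup_left hHK).inf_right _))
  have hYodd : ¬ 2 ∣ Nat.card Y := L0.not_dvd_card_of_le hYK (not_dvd_card_opp _)
  have hYe : Y ≤ ope 2 (K ⊓ centralizer ((zpowers t : Subgroup G) : Set G)) := by
    rw [hz]; exact hYK.trans (opp_le_ope _)
  by_contra hcon
  push Not at hcon
  apply hY1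
  refine L0.eq_bot_of_isPGroup_of_not_dvd ((op_isPGroup K).to_le ?_) hYodd
  refine le_op_of_comm_components hK0 (hYK.trans ((opp_le _).trans inf_le_left))
    (comm_eq_bot_of_le (comm_ope_inf_centralizer_op hP le_sup_right) hYe le_rfl) fun L hLK => ?_
  by_cases hne : ⁅L, zpowers t⁆ = L
  swap
  · exact comm_eq_bot_of_le (comm_opp_inf_centralizer hK0 hLK htK ht hne) le_rfl hYK
  have hLH : L ≤ H := hLK.le_layerOf.trans (hL.le.trans (layerOf_le H))
  have hLH' : CompOf L H := hLK.mono hLH le_sup_left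
  have hm : (L.subgroupOf H).map H.subtype = L := map_subgroupOf_eq_of_le hLH
  have h1 := hcon (L.subgroupOf H) (compOf_iff.mp hLH').2
  rw [hm] at h1
  have htL : t ∈ normalizer (L : Set G) := by
    have : zpowers t ≤ normalizer ((⁅L, zpowers t⁆ : Subgroup G) : Set G) :=
      normalizer_commutator_ge_right L (zpowers t)
    rw [hne] at this
    exact this (mem_zpowers t)
  have h2 := h1 (H8.cj_eq_self htL)
    (hYe.trans (ope_inf_centralizer_le_normalizer hK0 hP le_sup_right hLK)) (fun h => by
      have : ⁅L, zpowers t⁆ = ⊥ := comm_eq_bot_symm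
        (commutator_eq_bot_iff_le_centralizer.mpr (zpowers_le.mpr h))
      exact hLK.ne_bot (hne.symm.trans this))
  exact comm_eq_bot_symm (commutator_eq_bot_iff_le_centralizer.mpr h2)

end Cfsg.Agent.S1328
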