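import Cfsg.Statements.S1329
import Cfsg.Agent.H8.Gold1
import Cfsg.Agent.FT.Main

set_option autoImplicit false
open Cfsg

namespace Cfsg.Agent.S1329

open Subgroup Cfsg.Agent.H8 Cfsg.Agent.L0

/-- Let A be an abelian 2-subgroup of the finite group G, B ≤ A, and Y a subgroup of odd order normalized by A with ⁅Y, A⁆ = Y. Then Y ∩ C_G(B) is generated by the subgroups Y ∩ C_G(B) ∩ ⁅Y ∩ C_G(B₀), A⁆, B₀ ranging over the subgroups of B with B / B₀ cyclic. -/
theorem result {G : Type*} [Group G] [Finite G] (A B Y : Subgroup G) (hA2 : IsPGroup 2 ↥A) (hAc : IsMulCommutative ↥A) (hB : B ≤ A) (hYodd : Odd (Nat.card ↥Y)) (hAY : A ≤ Subgroup.normalizer (Y : Set G)) (hYA : ⁅Y, A⁆ = Y) : Y ⊓ Subgroup.centralizer (B : Set G) = ⨆ B₀ : {B₀ : Subgroup G // B₀ ≤ B ∧ ∀ [(B₀.subgroupOf B).Normal], IsCyclic (↥B ⧸ B₀.subgroupOf B)}, Y ⊓ Subgroup.centralizer (B : Set G) ⊓ ⁅Y ⊓ Subgroup.centralizer ((B₀ : Subgroup G) : Set G),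 A⁆ := by
  haveI : Fact (Nat.Prime 2) := Nat.fact_prime_two
  have h : CopAct A Y := CopAct.of_pgroup hA2 (by rwa [← even_iff_two_dvd, Nat.not_even_iff_odd]) hAY
  refine le_antisymm (Gold.cent_le_of_cocyclic' h (FT.odd_solvable hYodd) hAc hB hYA fun B₀ hB₀ => ?_)
    (iSup_le fun B₀ => inf_le_left)
  have hc := h.inf_right (le_normalizer_centralizer_of_comm hAc (hB₀.1.trans hB))
  refine le_trans ?_ (le_iSup _ ⟨B₀, hB₀.1, fun [_] => (cocyclic_iff_isCyclic hB₀.1).1 hB₀⟩)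
  exact le_inf (le_inf (inf_le_left.trans (hc.commutator_le.trans inf_le_left)) inf_le_right) inf_le_left

end Cfsg.Agent.S1329
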