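import Cfsg.Statements.S1330
import Cfsg.Agent.H8.Gold2

set_option autoImplicit false
open Cfsg

namespace Cfsg.Agent.S1330

open Subgroup Cfsg.Agent.H8 Cfsg.Agent.L0

/-- Let A₁, A₂ be core-separated four-subgroups of the finite group G and A = A₁A₂. For a ∈ G put O_a = O(C_G(a)) and θ a = ⋂_{i=1,2} ( ⁅O_a, A_i⁆ · (O_a ∩ O(C_G(A_i))) ). Then θ is an A-signalizer functor for the prime 2. -/
theorem result {G : Type*} [Group G] [Finite G] (A₁ A₂ : Subgroup G) (hcs : Cfsg.IsCoreSeparated A₁ A₂) : Cfsg.IsSignalizerFunctor 2 (A₁ ⊔ A₂) (fun a => (⁅Cfsg.centralizerPPrimeCore 2 a, A₁⁆ ⊔ (Cfsg.centralizerPPrimeCore 2 a ⊓ ((Cfsg.oddCore ↥(Subgroup.centralizer ((A₁ : Subgroup G) : Set G))).map (Subgroup.centralizer ((A₁ : Subgroup G) : Set G)).subtype))) ⊓ (⁅Cfsg.centralizerPPrimeCore 2 a, A₂⁆ ⊔ (Cfsg.centralizerPPrimeCore 2 a ⊓ ((Cfsg.oddCore ↥(Subgroup.centralizer ((A₂ : Subgroup G) : Set G))).map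 (Subgroup.centralizer ((A₂ : Subgroup G) : Set G)).subtype)))) := by
  haveI : Fact (Nat.Prime 2) := Nat.fact_prime_two
  obtain ⟨h1, h2, c1, c2, -, -, hc, hs⟩ := hcs
  have h : Gold.Sep (A₁ ⊔ A₂) A₁ A₂ := ⟨FT.elemAb_sup h1 h2 fun y hy x hx => hc x hx y hy, rfl, c1, c2,
    fun a ha ha1 E hE => by
      have := hs a ha ha1 _ (H7.pCompOf_iff.1 hE).2
      rwa [subgroupOf_map_subtype, inf_eq_left.2 hE.le] at this⟩
  refine ⟨fun a ha _ => inf_le_left.trans ((h.th_le ha).trans (H7.opp_le _)), fun a ha _ =>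
    H8.not_dvd_card_of_le (inf_le_left.trans (h.th_le ha)) (H7.not_dvd_card_opp _), fun a ha _ b hb x hx =>
    conj_mem_of_le_normalizer (le_normalizer_inf (h.norm_th ha) (h.symm.norm_th ha)) hb hx,
    fun a ha _ b hb hb1 => h.balance ha hb hb1⟩

end Cfsg.Agent.S1330
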