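import Cfsg.Statements.S1336
import Cfsg.Agent.H8.Graph

set_option autoImplicit false
open Cfsg

namespace Cfsg.Agent.S1336

open Subgroup Cfsg.Agent.H8 Cfsg.Agent.L0

theorem exists_vertex {G : Type*} [Group G] [Finite G] {p : ℕ} [Fact p.Prime] {H : Subgroup G}
    (h : p ∣ Nat.card H) :
    ∃ E, E ≤ H ∧ IsElementaryAbelian p E ∧ p ^ 1 ≤ Nat.card E := by
  obtain ⟨x, hx⟩ := exists_prime_orderOf_dvd_card' p h
  rw [← Subgroup.orderOf_coe] at hx
  exact ⟨zpowers (x : G), zpowers_le_of_mem x.2, elemAb_zpowers (hx ▸ pow_orderOf_eq_one _),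
    by rw [Nat.card_zpowers, hx, pow_one]⟩

theorem dvd_of_vertex {G : Type*} [Group G] [Finite G] {p : ℕ} [Fact p.Prime] {H E : Subgroup G}
    (h : E ≤ H) (hE : IsElementaryAbelian p E) (hc : p ^ 1 ≤ Nat.card E) : p ∣ Nat.card H := by
  by_contra h1
  exact ne_bot_of_pow_le_card one_ne_zero hc
    (eq_bot_of_isPGroup_of_not_dvd (elemAb_pgroup hE) (H8.not_dvd_card_of_le h h1))

theorem exists_conn {G : Type*} [Group G] [Finite G] {p : ℕ} [Fact p.Prime] {H E F : Subgroup G}
    (h : E ≤ H) (hE : IsElementaryAbelian p E) (hc : p ^ 1 ≤ Nat.card E)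
    (h' : F ≤ H) (hF : IsElementaryAbelian p F) (hc' : p ^ 1 ≤ Nat.card F) :
    ∃ g ∈ H, KConn p 1 (cj g E) F := by
  obtain ⟨P, hP, hEP⟩ := exists_isSylowIn_ge (elemAb_pgroup hE) h
  obtain ⟨Q, hQ, hFQ⟩ := exists_isSylowIn_ge (elemAb_pgroup hF) h'
  obtain ⟨g, hg, e⟩ := hP.exists_cj_eq hQ
  exact ⟨g, hg, kConn_one_of_pgroup hQ.pgroup (e ▸ cj_mono g hEP) hFQ (elemAb_cj hE g)
    (by rwa [card_cj]) hF hc'⟩

/-- Let G be finite and p prime. Then G has a proper subgroup H with p ∣ |H| and p ∤ |H ∩ gHg⁻¹| for every g ∉ H (a strongly p-embedded subgroup) if and only if G is not 1-connected for p. -/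
theorem result {G : Type*} [Group G] [Finite G] (p : ℕ) [Fact p.Prime] : (∃ H : Subgroup G, H ≠ ⊤ ∧ p ∣ Nat.card ↥H ∧ ∀ g : G, g ∉ H → ¬ p ∣ Nat.card ↥(H ⊓ H.map (MulAut.conj g).toMonoidHom)) ↔ ¬ Cfsg.IsKConnected p 1 G := by
  constructor
  · rintro ⟨H, hH, hp, hse⟩ hconn
    obtain ⟨E, hEH, hE, hc⟩ := exists_vertex hp
    obtain ⟨g, hg⟩ : ∃ g, g ∉ H := by
      by_contra h
      push Not at h
      exact hH ((eq_top_iff' H).mpr h)
    have key : ∀ F, KConn p 1 E F → F ≤ H := by
      intro F hF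
      induction hF with
      | refl => exact hEH
      | @tail A B _ h ih =>
        intro b hb
        by_contra hb'
        refine hse b hb' (dvd_of_vertex (le_inf ih ?_) h.1 h.2.1)
        rw [← cj_eq_self_of_mem_centralizer (H := A) (g := b) fun a ha => h.2.2.2.2 a ha b hb]
        exact cj_mono b ih
    have h1 := key _ (isKConnected_iff.mp hconn E (cj g E) hE hc (elemAb_cj hE g)
      (by rwa [card_cj]))
    exact hse g hg (dvd_of_vertex (le_inf h1 (cj_mono g hEH)) (elemAb_cj hE g) (by rwa [card_cj]))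
  · intro h
    rw [isKConnected_iff] at h
    push Not at h
    obtain ⟨E, E', hE, hc, hE', hc', hn⟩ := h
    let H : Subgroup G :=
      { carrier := {g | KConn p 1 E (cj g E)}
        one_mem' := by
          change KConn p 1 E (cj 1 E)
          rw [cj_one]
        mul_mem' := fun {a b} (ha : KConn p 1 E (cj a E)) (hb : KConn p 1 E (cj b E)) => by
          change KConn p 1 E (cj (a * b) E)
          rw [cj_mul]
          exact ha.trans (hb.cj a)
        inv_mem' := fun {a} (ha : KConn p 1 E (cj a E)) => by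
          have h1 := (ha.cj a⁻¹).symm
          rwa [cj_inv_cj] at h1 }
    have hEH : E ≤ H := fun e he => by
      change KConn p 1 E (cj e E)
      rw [cj_eq_self (le_normalizer he)]
    have key : ∀ F, F ≤ H → IsElementaryAbelian p F → p ^ 1 ≤ Nat.card F → KConn p 1 E F := by
      intro F h1 h2 h3
      obtain ⟨g, hg, h4⟩ := exists_conn hEH hE hc h1 h2 h3
      exact Relation.ReflTransGen.trans hg h4
    refine ⟨H, fun h => hn (key E' (h ▸ le_top) hE' hc'), dvd_of_vertex hEH hE hc,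
      fun g hg hd => hg ?_⟩
    obtain ⟨F, hF, h1, h2⟩ := exists_vertex hd
    have h3 := (key _ (cj_le_iff.mpr (by rw [inv_inv]; exact hF.trans inf_le_right))
      (elemAb_cj h1 g⁻¹) (by rwa [card_cj])).cj g
    rw [cj_cj_inv] at h3
    exact (key F (hF.trans inf_le_left) h1 h2).trans h3.symm

end Cfsg.Agent.S1336
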