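import Cfsg.Statements.S1337
import Cfsg.Agent.H8.Graph

set_option autoImplicit false
open Cfsg

namespace Cfsg.Agent.S1337

open Subgroup Cfsg.Agent.H8 Cfsg.Agent.L0

/-- Let P be a finite p-group of p-rank greater than 2. Then P has a normal elementary abelian subgroup U of order p², and for every elementary abelian X ≤ P with |X| ≥ p²: X is joined to U by a chain of pairwise commuting elementary abelian subgroups of order ≥ p² if and only if C_P(X) has p-rank greater than 2. -/
theorem result {P : Type*} [Group P] [Finite P] (p : ℕ) [Fact p.Prime] (hP : IsPGroup p P) (hrk : ¬ Cfsg.PRankLE p 2 P) : ∃ U : Subgroup P, U.Normal ∧ Cfsg.IsElementaryAbelian p U ∧ Nat.card ↥U = p ^ 2 ∧ ∀ X : Subgroup P, Cfsg.IsElementaryAbelian p X → p ^ 2 ≤ Nat.card ↥X → (Relation.ReflTransGen (fun A B : Subgroup P => Cfsg.IsElementaryAbelian p A ∧ p ^ 2 ≤ Nat.card ↥A ∧ Cfsg.IsElementaryAbelian p B ∧ p ^ 2 ≤ Nat.card ↥B ∧ ∀ a ∈ A, ∀ b ∈ B, a * b = b * a) X U ↔ ¬ Cfsg.PRankLE p 2 ↥(Subgroup.centralizer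 (X : Set P))) := by
  have hT : IsPGroup p (⊤ : Subgroup P) := hP.to_subgroup _
  obtain ⟨B, hB, hB3⟩ := not_prankLE_iff_top.mp hrk
  obtain ⟨U, -, hU1, hU, hUc⟩ := exists_invariant_elemAb_sq hT le_top hB hB3
  refine ⟨U, H5.normal_of_top_le_normalizer hU1, hU, hUc, fun X hX hX2 => ?_⟩
  rw [not_prankLE_iff]
  constructor
  · intro h
    change KConn p 2 X U at h
    induction h using Relation.ReflTransGen.head_induction_on with
    | refl =>
      obtain ⟨E, h1, -, h2, h3⟩ := exists_elemAb_ge_sq hT le_top hU1 hU hUc le_top hB hB3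
      exact ⟨E, le_centralizer_of_comm (elemAb_comm h2) h1, h2, h3⟩
    | @head A C h _ ih =>
      by_cases hAC : A = C
      · subst hAC
        exact ih hX hX2
      · obtain ⟨h1, h2, h3⟩ := h.pow_succ_le_card_sup hAC
        exact ⟨_, h3, h1, h2⟩
  · rintro ⟨E, h1, h2, h3⟩
    exact kConn_two_of_rank hT hU1 hU hUc hX hX2 le_top h1 h2 h3

end Cfsg.Agent.S1337
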