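import Cfsg.Statements.S1338
import Cfsg.Agent.H8.Graph

set_option autoImplicit false
open Cfsg

namespace Cfsg.Agent.S1338

open Subgroup Cfsg.Agent.H8 Cfsg.Agent.L0

theorem exists_normal {P : Type*} [Group P] [Finite P] (hP : IsPGroup 3 P) {U B₀ : Subgroup P}
    (hU1 : ⊤ ≤ normalizer (U : Set P)) (hU : IsElementaryAbelian 3 U) (hUc : Nat.card U = 3 ^ 2)
    (hB₀ : IsElementaryAbelian 3 B₀) (hB4 : 3 ^ 4 ≤ Nat.card B₀) :
    ∃ N : Subgroup P, ⊤ ≤ normalizer (N : Set P) ∧ IsElementaryAbelian 3 N ∧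
      3 ^ 4 ≤ Nat.card N := by
  haveI : Fact (Nat.Prime 3) := ⟨Nat.prime_three⟩
  have hT : IsPGroup 3 (⊤ : Subgroup P) := hP.to_subgroup _
  by_contra hc
  push Not at hc
  obtain ⟨E, hUE, hE⟩ := Finite.exists_le_maximal
    (p := fun E : Subgroup P => ⊤ ≤ normalizer (E : Set P) ∧ IsElementaryAbelian 3 E) ⟨hU1, hU⟩
  have hA : ∀ x ∈ centralizer (E : Set P), x ^ 3 = 1 → x ∈ E := fun x hx h =>
    mem_of_maximal_elemAb (by norm_num) hT le_top hE.1.1 hE.1.2
      (fun F _ h1 h2 h3 => le_antisymm (hE.2 ⟨h1, h2⟩ h3) h3) ⟨mem_top x, hx⟩ h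
  have hE4 := hc E hE.1.1 hE.1.2
  obtain ⟨B₁, h1, -, h2, h3⟩ := exists_elemAb_ge_sq hT le_top hU1 hU hUc le_top hB₀ hB4
  obtain ⟨B, hUB, hB1, hBc⟩ := exists_between_card (m := 4) (elemAb_pgroup h2) h1
    (by rw [hUc]; norm_num) h3
  have hB := elemAb_mono h2 hB1
  have hEB : ¬ E ≤ B := fun h => by
    have h4 : B ≤ E := fun b hb => hA b (le_centralizer_of_comm (elemAb_comm hB) h hb) (hB.2 b hb)
    have := card_le_of_le h4
    omega
  have hEc : Nat.card E = 3 ^ 3 := by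
    have h4 := pow_succ_le_card_of_lt (elemAb_pgroup hE.1.2) (hUc.symm.trans_lt
      (card_lt_of_lt (lt_of_le_of_ne hUE fun h => hEB (h ▸ hUB))))
    by_contra h5
    have := pow_succ_le_card_of_lt (k := 3) (elemAb_pgroup hE.1.2) (lt_of_le_of_ne h4 (Ne.symm h5))
    omega
  have hEU : Nat.card E = Nat.card U * 3 := by rw [hEc, hUc]; norm_num
  have hBE : B ⊓ E = U := (eq_or_eq_of_relIndex_prime Nat.prime_three (relIndex_eq_of_card hUE hEU)
    (le_inf hUB hUE) inf_le_right).resolve_right fun h => hEB (inf_eq_right.mp h)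
  obtain ⟨g, -, hg, -, hgn⟩ := H5.exists_mem_normalizer_not_mem hT
    (le_top : normalizer (B : Set P) ≤ ⊤) fun h => absurd (hc B h hB) (by omega)
  have hn : normalizer ((cj g B : Subgroup P) : Set P) = normalizer (B : Set P) := by
    rw [← cj_normalizer, cj_eq_self hgn]
  set B' := cj g B with hB'def
  have hB' : IsElementaryAbelian 3 B' := elemAb_cj hB g
  have hB'c : Nat.card B' = 3 ^ 4 := by rw [card_cj, hBc]
  have hUB' : U ≤ B' := by
    rw [← cj_eq_self (hU1 (mem_top g))]; exact cj_mono g hUB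
  have n1 : B ≤ normalizer (B' : Set P) := hn ▸ le_normalizer
  have n2 : B' ≤ normalizer (B : Set P) := hn ▸ le_normalizer
  have hI : B ⊓ B' ≤ centralizer ((B ⊔ B' : Subgroup P) : Set P) := by
    rw [H4.centralizer_sup]
    exact inf_le_inf (le_centralizer_of_comm (elemAb_comm hB) le_rfl)
      (le_centralizer_of_comm (elemAb_comm hB') le_rfl)
  have hBB : ⁅B, B'⁆ ≤ B ⊓ B' := le_inf (le_normalizer_iff_commutator_le_left.mp n2)
    (le_normalizer_iff_commutator_le_right.mp n1)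
  have m1 : B ≤ normalizer ((B ⊓ B' : Subgroup P) : Set P) := le_normalizer_inf le_normalizer n1
  have m2 : B' ≤ normalizer ((B ⊓ B' : Subgroup P) : Set P) := le_normalizer_inf n2 le_normalizer
  have hDD : ⁅B ⊔ B', B ⊔ B'⁆ ≤ B ⊓ B' := by
    refine H4.commutator_sup_left_le m1 m2 (H4.commutator_sup_right_le m1 m2 ?_ hBB)
      (H4.commutator_sup_right_le m1 m2 (by rwa [commutator_comm]) ?_)
    · exact (commutator_eq_bot_iff_le_centralizer.mpr
        (le_centralizer_of_comm (elemAb_comm hB) le_rfl)).le.trans bot_le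
    · exact (commutator_eq_bot_iff_le_centralizer.mpr
        (le_centralizer_of_comm (elemAb_comm hB') le_rfl)).le.trans bot_le
  have hexp : ∀ x ∈ B ⊔ B', x ^ 3 = 1 := fun x hx =>
    (H5.pow_eq_one_of_mem_closure_of_class_two Nat.prime_three (by norm_num) (H := B ⊔ B')
      (S := (B : Set P) ∪ B') (commutator_eq_bot_iff_le_centralizer.mpr (hDD.trans hI))
      (by
        rintro y (hy | hy)
        · exact ⟨mem_sup_left hy, hB.2 y hy⟩
        · exact ⟨mem_sup_right hy, hB'.2 y hy⟩)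
      (by rwa [Subgroup.closure_union, Subgroup.closure_eq, Subgroup.closure_eq])).2
  have hDE : (B ⊔ B') ⊓ centralizer (E : Set P) ≤ E := fun x hx => hA x hx.2 (hexp x hx.1)
  have hcard := card_sup_mul_card_inf n2
  rw [hBc, hB'c] at hcard
  have key : ∀ k, 3 ^ (k + 2) ≤ Nat.card ↥(B ⊔ B') →
      3 ^ k ≤ Nat.card ↥((B ⊔ B') ⊓ centralizer (E : Set P)) := fun k hk =>
    pow_le_card_inf_centralizer_of_hyperplane (hP.to_subgroup _) (le_top.trans hE.1.1) hEc.le hUE
      hEU (sup_le (le_centralizer_of_comm (elemAb_comm hB) hUB)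
        (le_centralizer_of_comm (elemAb_comm hB') hUB')) hk
  have hI3 : Nat.card ↥(B ⊓ B') ≤ 3 ^ 3 := by
    by_contra h4
    have h5 := pow_succ_le_card_of_lt (hP.to_subgroup _) (not_le.mp h4)
    have h6 : B ⊓ B' = B' := H5.eq_of_le_of_card_le inf_le_right (hB'c.le.trans h5)
    exact hg (mem_normalizer_of_cj_le (inf_eq_right.mp h6))
  have h4 : (B ⊔ B') ⊓ centralizer (E : Set P) = E :=
    H5.eq_of_le_of_card_le hDE (hEc.le.trans (key 3 (by
      have := Nat.mul_le_mul_left (Nat.card ↥(B ⊔ B')) hI3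
      omega)))
  have h5 : B ⊓ B' ≤ U := by
    rw [← hBE]
    exact le_inf inf_le_left fun x hx => hA x
      (centralizer_le (h4.ge.trans inf_le_left) (hI hx)) (hB.2 x hx.1)
  have h6 := card_le_of_le h5
  rw [hUc] at h6
  have h7 := key 4 (by
    have := Nat.mul_le_mul_left (Nat.card ↥(B ⊔ B')) h6
    omega)
  rw [h4] at h7
  omega

/-- A finite 3-group of 3-rank at least 4 is 2-connected for the prime 3: its commuting graph on elementary abelian subgroups of order ≥ 9 is connected. -/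
theorem result {P : Type*} [Group P] [Finite P] (hP : IsPGroup 3 P) (hrk : ¬ Cfsg.PRankLE 3 3 P) : Cfsg.IsKConnected 3 2 P := by
  haveI : Fact (Nat.Prime 3) := ⟨Nat.prime_three⟩
  have hT : IsPGroup 3 (⊤ : Subgroup P) := hP.to_subgroup _
  obtain ⟨B, hB, hB4⟩ := not_prankLE_iff_top.mp hrk
  obtain ⟨U, -, hU1, hU, hUc⟩ := exists_invariant_elemAb_sq hT le_top hB (le_trans (by norm_num) hB4)
  obtain ⟨N, hN1, hN, hN4⟩ := exists_normal hP hU1 hU hUc hB hB4
  have key : ∀ X : Subgroup P, IsElementaryAbelian 3 X → 3 ^ 2 ≤ Nat.card X → KConn 3 2 X U := by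
    intro X hX hX2
    suffices h : ∃ E, E ≤ centralizer (X : Set P) ∧ IsElementaryAbelian 3 E ∧
        3 ^ 3 ≤ Nat.card E by
      obtain ⟨E, h1, h2, h3⟩ := h
      exact kConn_two_of_rank hT hU1 hU hUc hX hX2 le_top h1 h2 h3
    have hgen : ∀ Y : Subgroup P, IsElementaryAbelian 3 Y → Y ≤ centralizer (X : Set P) →
        ¬ Y ≤ X → ∃ E, E ≤ centralizer (X : Set P) ∧ IsElementaryAbelian 3 E ∧
        3 ^ 3 ≤ Nat.card E := fun Y hY h1 h2 =>
      ⟨X ⊔ Y, sup_le (le_centralizer_of_comm (elemAb_comm hX) le_rfl) h1,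
        elemAb_sup hX hY fun a ha b hb => h1 hb a ha, pow_succ_le_card_of_lt (hP.to_subgroup _)
          (hX2.trans_lt (card_lt_of_lt (left_lt_sup.mpr h2)))⟩
    by_cases hX3 : 3 ^ 3 ≤ Nat.card X
    · exact ⟨X, le_centralizer_of_comm (elemAb_comm hX) le_rfl, hX, hX3⟩
    have hXc : Nat.card X = 3 ^ 2 := by
      by_contra h
      exact hX3 (pow_succ_le_card_of_lt (hP.to_subgroup _) (lt_of_le_of_ne hX2 (Ne.symm h)))
    by_cases hXN : X ≤ N
    · exact ⟨N, le_centralizer_of_comm (elemAb_comm hN) hXN, hN, le_trans (by norm_num) hN4⟩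
    obtain ⟨z, -, hzo, hz, -⟩ := H5.exists_mem_centralizer_of_isPGroup hT hT le_normalizer
      (ne_bot_of_pow_le_card two_ne_zero (hX2.trans (card_le_of_le le_top)))
    by_cases hzX : zpowers z ≤ X
    swap
    · exact hgen _ (elemAb_zpowers (by rw [← hzo]; exact pow_orderOf_eq_one z))
        (zpowers_le_of_mem (centralizer_le (le_top : X ≤ ⊤) hz)) hzX
    refine hgen _ (elemAb_mono hN inf_le_left) (inf_le_right : N ⊓ _ ≤ _) fun h => ?_
    have h1 := card_inf_centralizer_le_pow hN hX (le_top.trans hN1) hzX (j := 1)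
      (by rw [hXc, Nat.card_zpowers, hzo]; norm_num)
    rw [inf_eq_left.mpr (le_top.trans (le_centralizer_iff.mp (zpowers_le_of_mem hz)))] at h1
    have h2 : Nat.card ↥(N ⊓ centralizer (X : Set P)) < 3 ^ 2 :=
      hXc ▸ card_lt_of_lt (lt_of_le_of_ne h fun h3 => hXN (h3 ▸ inf_le_left))
    have h3 : Nat.card ↥(N ⊓ centralizer (X : Set P)) ≤ 3 ^ 1 := by
      by_contra h4
      exact h2.not_ge (pow_succ_le_card_of_lt (hP.to_subgroup _) (not_le.mp h4))
    have := h1.trans (Nat.pow_le_pow_left h3 _)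
    omega
  exact isKConnected_iff.mpr fun E E' h1 h2 h3 h4 => (key E h1 h2).trans (key E' h3 h4).symm

end Cfsg.Agent.S1338
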