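import Cfsg.Statements.S1341
import Cfsg.Agent.H7.ExtLayer

set_option autoImplicit false
open Cfsg

namespace Cfsg.Agent.S1341

open Subgroup Cfsg.Agent.H7


/-- Let X be finite and T a Sylow 2-subgroup of L_{2'}(X) O_{2',2}(X). Then L*_{2'}(X) = L_{2'}(X) ⊔ O(X) ⊔ O(C_X(T)). -/
theorem result {X : Type*} [Group X] [Finite X] (T : Sylow 2 ↥(Cfsg.pLayer 2 X ⊔ Cfsg.pPrimePCore 2 X)) : Cfsg.extendedTwoLayer X = Cfsg.pLayer 2 X ⊔ Cfsg.oddCore X ⊔ ((Cfsg.oddCore ↥(Subgroup.centralizer (((T : Subgroup ↥(Cfsg.pLayer 2 X ⊔ Cfsg.pPrimePCore 2 X)).map (Cfsg.pLayer 2 X ⊔ Cfsg.pPrimePCore 2 X).subtype : Subgroup X) : Set X))).map (Subgroup.centralizer (((T : Subgroup ↥(Cfsg.pLayer 2 X ⊔ Cfsg.pPrimePCore 2 X)).map (Cfsg.pLayer 2 X ⊔ Cfsg.pPrimePCore 2 X).subtype : Subgroup X) : Set X)).subtype) := by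
  exact extendedTwoLayer_eq (H8.isSylowIn_map_subtype T)

end Cfsg.Agent.S1341
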