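import Cfsg.Statements.S1346
import Cfsg.Agent.H7.LBalance

set_option autoImplicit false
open Cfsg

namespace Cfsg.Agent.S1346

open Subgroup Cfsg.Agent.H7

theorem opp_inf_centralizer_le {G : Type*} [Group G] [Finite G] {R H : Subgroup G}
    (hR : IsPGroup 2 R) (hRH : R ≤ H) :
    opp 2 (H ⊓ centralizer (R : Set G)) ≤ (extendedTwoLayer H).map H.subtype := by
  have := map_mono (f := H.subtype) (opp_centralizer_le (H8.pgroup_subgroupOf hR H))
  rwa [← opp_map_subtype, map_subtype_centralizer, map_subgroupOf_eq_of_le hRH] at this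


/-- Let G be a finite group all of whose 2-local subgroups have known non-abelian composition factors, and x, y commuting involutions. Then the extended 2-layer of L*_{2'}(C_G(x)) ∩ C_G(y) (as a group) is contained in L*_{2'}(C_G(y)). -/
theorem result {G : Type*} [Group G] [Finite G] (hK : ∀ T : Subgroup G, IsPGroup 2 ↥T → T ≠ ⊥ → Cfsg.IsCompositionKGroup ↥(Subgroup.normalizer (T : Set G))) (x y : G) (hx : orderOf x = 2) (hy : orderOf y = 2) (hxy : x * y = y * x) : (Cfsg.extendedTwoLayer ↥((Cfsg.extendedTwoLayer ↥(Subgroup.centralizer ({x} : Set G))).map (Subgroup.centralizer ({x} : Set G)).subtype ⊓ Subgroup.centralizer ({y} : Set G))).map ((Cfsg.extendedTwoLayer ↥(Subgroup.centralizer ({x} : Set G))).map (Subgroup.centralizer ({x} : Set G)).subtype ⊓ Subgroup.centralizer ({y} : Set G)).subtype ≤ (Cfsg.extendedTwoLayer ↥(Subgroup.centralizer ({y} : Set G))).map (Subgroup.centralizer ({y} : Set G)).subtype := by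
  set D := (Cfsg.extendedTwoLayer ↥(Subgroup.centralizer ({x} : Set G))).map
    (Subgroup.centralizer ({x} : Set G)).subtype ⊓ Subgroup.centralizer ({y} : Set G) with hD
  have hxC : x ∈ centralizer ({y} : Set G) := mem_centralizer_singleton_iff.mpr hxy
  have hsn : SN D (centralizer {y} ⊓ centralizer {x}) := by
    rw [inf_comm]
    exact (SN.of_subtype (Subgroup.Normal.isSubnormal inferInstance)).inf_right _
  have hx2 : IsPGroup 2 (zpowers x) := isPGroup_zpowers_of_orderOf (k := 1) hx
  obtain ⟨T, hT⟩ := H8.exists_isSylowIn 2 (pLayer 2 D ⊔ pPrimePCore 2 D)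
  rw [extendedTwoLayer_eq hT, Subgroup.map_sup, Subgroup.map_sup]
  refine sup_le (sup_le ?_ ?_) ?_
  · exact ((playerOf_mono_of_sn hsn).trans (playerOf_inf_centralizer_singleton_le hx hxC)).trans
      (map_mono pLayer_le_extendedTwoLayer)
  · refine (opp_mono_of_sn hsn).trans ?_
    rw [← H8.centralizer_zpowers x]
    exact opp_inf_centralizer_le hx2 (zpowers_le.mpr hxC)
  · rw [← opp_map_subtype, map_subtype_centralizer]
    have hTD : T.map D.subtype ≤ centralizer {y} ⊓ centralizer {x} := (map_subtype_le T).trans hsn.le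
    have h1 := hsn.inf_right (centralizer ((T.map D.subtype : Subgroup G) : Set G))
    have h2 : centralizer {y} ⊓ centralizer {x} ⊓ centralizer ((T.map D.subtype : Subgroup G) : Set G)
        = centralizer {y} ⊓ centralizer ((zpowers x ⊔ T.map D.subtype : Subgroup G) : Set G) := by
      rw [inf_assoc, ← H8.centralizer_zpowers x]
      congr 1
      refine le_antisymm (le_centralizer_iff.mpr (sup_le (le_centralizer_iff.mp inf_le_left)
        (le_centralizer_iff.mp inf_le_right)))
        (le_inf (centralizer_le (le_sup_left : zpowers x ≤ _))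
          (centralizer_le (le_sup_right : T.map D.subtype ≤ _)))
    rw [h2] at h1
    refine (opp_mono_of_sn h1).trans (opp_inf_centralizer_le ?_
      (sup_le (zpowers_le.mpr hxC) (hTD.trans inf_le_left)))
    refine IsPGroup.to_sup_of_normal_left' hx2 (hT.pgroup.map _) ?_
    refine (hTD.trans inf_le_right).trans ?_
    rw [← H8.centralizer_zpowers x]
    exact centralizer_le_normalizer _

end Cfsg.Agent.S1346
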