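import Cfsg.Statements.S1347
import Cfsg.Agent.H7.Pump
import Cfsg.Agent.FT.Main

set_option autoImplicit false
open Cfsg

namespace Cfsg.Agent.S1347

open Subgroup Cfsg.Agent.H7
open scoped commutatorElement

theorem eq_bot_of_sn {G : Type*} [Group G] [Finite G] (hO : pPrimeCore 2 G = ⊥) {Z : Subgroup G}
    (hZ : SN Z ⊤) (h : ∀ z ∈ Z, orderOf z ≠ 2) : Z = ⊥ := by
  have := hZ.le_opp (p := 2) fun h2 => by
    obtain ⟨z, hz, hz2⟩ := exists_involution_of_even h2
    exact h z hz hz2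
  rwa [opp_top, hO, le_bot_iff] at this

theorem simple_of {G : Type*} [Group G] {D : Subgroup G} (hD : IsQuasisimple D)
    (h : D ⊓ centralizer (D : Set G) = ⊥) : IsSimpleGroup D :=
  QS.isSimpleGroup_of_center_eq_bot hD (by
    rw [← map_subtype_center, map_eq_bot_iff_of_injective _ D.subtype_injective] at h; exact h)

/-- Let A be a standard subgroup of the finite group G with O(G) = 1, and t an involution of C_G(A). Then (i) A is normal in G; or (ii) there is a non-abelian simple subgroup X ≅ A with X and tXt⁻¹ commuting, meeting trivially and generating E(G), and C_G(A) = ⟨t⟩; or (iii) A ≤ E(G) and E(G) is non-abelian simple. -/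
theorem result {G : Type*} [Group G] [Finite G] (A : Subgroup G) (hA : Cfsg.IsStandardSubgroup A) (hO : Cfsg.oddCore G = ⊥) (t : G) (ht : orderOf t = 2) (htA : t ∈ Subgroup.centralizer (A : Set G)) : A.Normal ∨ (∃ X : Subgroup G, IsSimpleGroup ↥X ∧ ¬ IsMulCommutative ↥X ∧ Nonempty (↥X ≃* ↥A) ∧ (∀ a ∈ X, ∀ b ∈ X.map (MulAut.conj t).toMonoidHom, a * b = b * a) ∧ X ⊓ X.map (MulAut.conj t).toMonoidHom = ⊥ ∧ X ⊔ X.map (MulAut.conj t).toMonoidHom = Cfsg.layer G ∧ Subgroup.centralizer (A : Set G) = Subgroup.zpowers t) ∨ (A ≤ Cfsg.layer G ∧ IsSimpleGroup ↥(Cfsg.layer G) ∧ ¬ IsMulCommutative ↥(Cfsg.layer G)) := by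
  have hC := Std.compOf hA ht htA
  have h2 : 2 ∣ Nat.card A := by
    by_contra h
    exact QS.not_isSolvable hC.qs (FT.odd_solvable (Nat.not_even_iff_odd.1 (mt even_iff_two_dvd.1 h)))
  have ht2 := sq_eq_one_of_orderOf_two ht
  have hE : A ≤ layer G := by
    refine (Std.le_pLayer hA h2).trans ?_
    rw [← playerOf_top, ← layerOf_top]
    exact playerOf_le_layerOf (by rw [opp_top, show pPrimeCore 2 G = ⊥ from hO, commutator_bot_right])
  by_cases hn : A.Normal
  · exact Or.inl hn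
  right
  have hnc : ¬ CompOf A ⊤ := fun h => hn (H5.normal_of_top_le_normalizer fun g _ => by
    by_contra h3
    have h4 : H8.cj g A ≠ A := mt H8.cj_eq_self_iff.1 h3
    exact hA.2.2.1 g h4 (h.comm_of_ne (h.conj (by rw [normalizer_eq_top]; trivial)) h4.symm))
  have key : ∀ M : Subgroup G, SN M ⊤ → A ≤ M → ∀ Z : Subgroup G, SN Z ⊤ → ⁅Z, M⁆ = ⊥ → Z = ⊥ := by
    intro M hM hAM Z hZ hc
    refine eq_bot_of_sn hO hZ fun z hz hz2 => hnc ⟨SN.step hAM ?_ hM, hA.1⟩
    have h3 := commutator_eq_bot_iff_le_centralizer.1 hc hz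
    exact fun m hm => Std.centralizer_le hA hz2 (centralizer_le hAM h3)
      (mem_centralizer_singleton_iff.2 (h3 m hm))
  have hZ : ∀ D : Subgroup G, CompOf D ⊤ → SN (D ⊓ centralizer (D : Set G)) ⊤ := fun D hD =>
    SN.step inf_le_left (le_normalizer_inf le_normalizer (H8.le_normalizer_centralizer le_normalizer)) hD.sn
  obtain ⟨D, hD, ⟨-, h⟩ | ⟨h, hc, e⟩⟩ := PCompOf.pumpup (H := ⊤) ht2 (mem_top t)
    (by rw [top_inf_eq]; exact hC.pCompOf h2) (by rwa [layerOf_top])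
  · right
    have h3 : layer G = D := le_antisymm (layer_le_iff.2 fun J hJ => by
      rcases (Comp.compOf hJ).eq_or_comm hD with h4 | h4
      · exact h4.le
      · exact absurd (key D hD.sn h J (Comp.compOf hJ).sn h4) (Comp.ne_bot hJ))
      (Comp.le_layer (compOf_top_iff.1 hD))
    rw [h3]
    exact ⟨h, simple_of hD.qs (key D hD.sn h _ (hZ D hD) (commutator_eq_bot_iff_le_centralizer.2 inf_le_right)),
      QS.not_isMulCommutative hD.qs⟩
  left
  have hT : ∀ g : G, g ∈ normalizer ((⊤ : Subgroup G) : Set G) := fun g => by rw [normalizer_eq_top]; trivial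
  have hD' : CompOf (H8.cj t D) ⊤ := hD.conj (hT t)
  have hM : SN (D ⊔ H8.cj t D) ⊤ := SN.step (sup_le hD.le_layerOf hD'.le_layerOf)
    (le_normalizer_sup (layerOf_le_normalizer hD) (layerOf_le_normalizer hD')) (layerOf_sn ⊤)
  have hAM : A ≤ D ⊔ H8.cj t D := e ▸ diagHom_range_le_sup hc
  have h3 : D ⊓ centralizer (D : Set G) = ⊥ := key _ hM hAM _ (hZ D hD) (comm_sup_right_eq_bot
    (commutator_eq_bot_iff_le_centralizer.2 inf_le_right) (comm_eq_bot_of_le hc inf_le_left le_rfl))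
  have h4 : D ⊓ H8.cj t D = ⊥ := le_bot_iff.1 (h3 ▸ inf_le_inf_left D
    (commutator_eq_bot_iff_le_centralizer.1 (comm_eq_bot_symm hc)))
  have h5 : ∀ J : Subgroup G, CompOf J ⊤ → J = D ∨ J = H8.cj t D := fun J hJ => by
    by_contra h5
    rw [not_or] at h5
    exact hJ.ne_bot (key _ hM hAM J hJ.sn (comm_sup_right_eq_bot (hJ.comm_of_ne hD h5.1) (hJ.comm_of_ne hD' h5.2)))
  have h6 : D ⊔ H8.cj t D = layer G := le_antisymm (layerOf_top (G := G) ▸ sup_le hD.le_layerOf hD'.le_layerOf)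
    (layer_le_iff.2 fun J hJ => (h5 J (Comp.compOf hJ)).elim (fun e => e ▸ le_sup_left) fun e => e ▸ le_sup_right)
  have h7 : ∀ k ∈ centralizer (A : Set G), H8.cj k D = D → k = 1 := by
    intro k hk hkD
    have hkD' : H8.cj k (H8.cj t D) = H8.cj t D :=
      (h5 _ (hD'.conj (hT k))).resolve_left fun e' => h (H8.cj_injective k (e'.trans hkD.symm))
    have h8 : ∀ d ∈ D, k * d * k⁻¹ = d ∧ k * (t * d * t⁻¹) * k⁻¹ = t * d * t⁻¹ := by
      intro d hd
      have e1 : d * (t * d * t⁻¹) * k = k * (d * (t * d * t⁻¹)) := hk _ (e ▸ ⟨⟨d, hd⟩, rfl⟩)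
      have e2 : d⁻¹ * (k * d * k⁻¹) = (t * d * t⁻¹) * (k * (t * d * t⁻¹) * k⁻¹)⁻¹ := by
        rw [eq_mul_inv_iff_mul_eq, show d⁻¹ * (k * d * k⁻¹) * (k * (t * d * t⁻¹) * k⁻¹) =
          d⁻¹ * (k * (d * (t * d * t⁻¹))) * k⁻¹ by group, ← e1]; group
      have e3 : d⁻¹ * (k * d * k⁻¹) ∈ D ⊓ H8.cj t D :=
        ⟨D.mul_mem (D.inv_mem hd) (hkD ▸ H8.conj_mem_cj k hd :), e2 ▸ Subgroup.mul_mem _ (H8.conj_mem_cj t hd)
          (Subgroup.inv_mem _ (hkD' ▸ H8.conj_mem_cj k (H8.conj_mem_cj t hd) :))⟩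
      rw [h4, mem_bot] at e3
      exact ⟨(inv_mul_eq_one.1 e3).symm, (mul_inv_eq_one.1 (e2 ▸ e3)).symm⟩
    have h9 : k ∈ centralizer (layer G : Set G) := by
      rw [← h6]
      refine le_centralizer_iff.1 (sup_le (fun d hd => ?_) fun d hd => ?_) (mem_zpowers k) <;>
        rw [H8.centralizer_zpowers, mem_centralizer_singleton_iff]
      · exact (mul_inv_eq_iff_eq_mul.1 (h8 d hd).1).symm
      · obtain ⟨d, hd, rfl⟩ := hd
        exact (mul_inv_eq_iff_eq_mul.1 (h8 d hd).2).symm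
    have := key _ (SN.of_normal le_top) hE (centralizer (layer G : Set G)) (SN.of_normal le_top)
      (commutator_eq_bot_iff_le_centralizer.2 le_rfl)
    rwa [this, mem_bot] at h9
  refine ⟨D, simple_of hD.qs h3, QS.not_isMulCommutative hD.qs, ?_, comm_eq_bot_iff.1 hc, h4, h6,
    le_antisymm (fun k hk => ?_) (zpowers_le.2 htA)⟩
  · rw [e]
    refine ⟨MonoidHom.ofInjective ((MonoidHom.ker_eq_bot_iff _).1 (le_bot_iff.1 ((diagHom_ker_le hc).trans ?_)))⟩
    rw [← map_subtype_center, map_eq_bot_iff_of_injective _ D.subtype_injective] at h3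
    exact h3.le
  · rcases h5 _ (hD.conj (hT k)) with h8 | h8
    · rw [h7 k hk h8]; exact one_mem _
    · have := h7 (t * k) (mul_mem htA hk) (by rw [H8.cj_mul, show H8.cj k D = _ from h8, cj_cj_of_sq ht2])
      rw [eq_inv_of_mul_eq_one_right this]
      exact inv_mem (mem_zpowers t)

end Cfsg.Agent.S1347
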