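import Cfsg.Statements.S1741
import Cfsg.Agent.H4.BF8

set_option autoImplicit false
open Cfsg

namespace Cfsg.Agent.S1741

/-- Let G be a finite simple group whose Sylow 2-subgroups are isomorphic to a Sylow 2-subgroup of the Mathieu group of degree 12, and suppose G has two involutions that are not conjugate. Then G is isomorphic to the Mathieu group of degree 12. -/
theorem result {G : Type*} [Group G] [Finite G] [IsSimpleGroup G]
    (S : Sylow 2 G) (P : Sylow 2 ↥Cfsg.Spor.M12) (hS : Nonempty (↥(S : Subgroup G) ≃* ↥(P : Subgroup ↥Cfsg.Spor.M12)))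
    (h2 : ∃ x y : G, orderOf x = 2 ∧ orderOf y = 2 ∧ ¬ IsConj x y) : Cfsg.Spor.IsoM12 G := by
  have := Fact.mk Nat.prime_two
  have hM : Cfsg.Spor.M12 = H1.stabS (H1.toSet 340831) := by
    rw [← (by decide +kernel : Cfsg.Spor.squareDodecad = H1.toSet 340831)]; rfl
  unfold Cfsg.Spor.IsoM12
  revert P
  rw [hM]
  rintro P ⟨e⟩
  have := H1.simple_stabS_dodecad0
  let ψ := H3.frM12.ψ.comp H4.BF.T.ι
  have hψ : Function.Injective ψ := H3.frM12.inj.comp H4.BF.T.ι_inj
  have c1 : Nat.card ψ.range = 64 := (Nat.card_congr (MonoidHom.ofInjective hψ).toEquiv).symm.trans H4.BF.T.card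
  obtain ⟨k, -, hk⟩ := (H8.IsSylowIn.of_not_dvd_relIndex le_top ((H4.BF.pgroup 0).of_surjective _ ψ.rangeRestrict_surjective) (by
    have := ψ.range.card_mul_index
    rw [c1, H1.card_stabS_dodecad0] at this
    rw [Subgroup.relIndex_top_right]
    omega)).exists_cj_eq (H8.isSylowIn_top P)
  let e1 : H4.BF.T 0 ≃* S := ((MonoidHom.ofInjective hψ).trans ((ψ.range.equivMapOfInjective (MulAut.conj k).toMonoidHom
    (MulAut.conj k).injective).trans (MulEquiv.subgroupCongr hk))).trans e.symm
  have hr : ((S : Subgroup G).subtype.comp e1.toMonoidHom).range = S := by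
    rw [MonoidHom.range_comp, MonoidHom.range_eq_top.2 e1.surjective, ← MonoidHom.range_eq_map, Subgroup.range_subtype]
  refine H3.equiv_of_card_95040 (H4.BF.card_eq_of_model (fun hc => ?_)
    ⟨_, (Subgroup.subtype_injective _).comp e1.injective, hr.symm ▸ H8.isSylowIn_top S⟩ h2) H1.card_stabS_dodecad0
  exact H4.BF.T.gens.2.2.2.2.2.2.1 (e1.injective (Subtype.ext (by
    rw [map_mul, map_mul]; exact hc.is_comm.comm _ _)))

end Cfsg.Agent.S1741
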