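import Cfsg.Statements.S1743
import Cfsg.Agent.H4.G2h

set_option autoImplicit false
open Cfsg

namespace Cfsg.Agent.S1743

/-- Let G be a finite simple group whose Sylow 2-subgroups are isomorphic to a Sylow 2-subgroup of the Chevalley group of type G₂ over a finite field of odd order, and let S be a Sylow 2-subgroup of G. Then either all involutions of G are conjugate, or S has order 64 and the involutions of G form exactly two conjugacy classes. -/
theorem result {G : Type*} [Group G] [Finite G] [IsSimpleGroup G]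
    {F : Type*} [Field F] [Fintype F] (hF : Odd (Fintype.card F)) (S : Sylow 2 G) (P : Sylow 2 ↥(Cfsg.Lie.chevG2.group F))
    (hS : Nonempty (↥(S : Subgroup G) ≃* ↥(P : Subgroup ↥(Cfsg.Lie.chevG2.group F)))) :
    (∀ x y : G, orderOf x = 2 → orderOf y = 2 → IsConj x y) ∨
      (Nat.card ↥(S : Subgroup G) = 64 ∧ ∃ x y : G, orderOf x = 2 ∧ orderOf y = 2 ∧ ¬ IsConj x y ∧
        ∀ z : G, orderOf z = 2 → IsConj z x ∨ IsConj z y) := by
  obtain ⟨m, ⟨e⟩⟩ := H4.G2.exists_model hF P
  obtain ⟨e'⟩ := hS
  let ι := e.trans e'.symm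
  refine ((H4.G2.zh m).main ⟨(S : Subgroup G).subtype.comp ι.toMonoidHom, Subtype.val_injective.comp ι.injective, by
    rw [MonoidHom.range_comp, MonoidHom.range_eq_top.2 ι.surjective, ← MonoidHom.range_eq_map, Subgroup.range_subtype]
    exact H8.isSylowIn_top S⟩).imp_right fun ⟨h1, h2⟩ => ⟨?_, h2⟩
  rcases m with _ | m
  · rw [← Nat.card_congr ι.toEquiv, H4.G2.card_Mo, Nat.card_zmod]
    rfl
  · exact (h1 ⟨2 ^ m, by ring⟩).elim

end Cfsg.Agent.S1743
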