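import Cfsg.Statements.S1753
import Cfsg.Agent.H7.Component

set_option autoImplicit false
universe u
open Cfsg

namespace Cfsg.Agent.S1753

open Subgroup Cfsg.Agent.H7


/-- Let K be any property of groups. (1) If G is a minimal counterexample relative to K — a finite non-abelian simple group not satisfying K such that every finite non-abelian simple group of smaller order satisfies K — then every proper subgroup of G is a K-group (all its non-abelian simple sections satisfy K), since such sections have smaller order than G. (2) Consequently (induction on the order), if every finite non-abelian simple group all of whose proper subgroups are K-groups satisfies K, then every finite non-abelian simple group satisfies K. -/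
theorem result (K : ∀ (X : Type u) [Group X], Prop) :
    (∀ (G : Type u) [Group G], Cfsg.IsMinCounterexampleWith K G → Cfsg.IsKProperWith K G) ∧
      ((∀ (X : Type u) [Group X] [Finite X], IsSimpleGroup X → ¬ IsMulCommutative X → Cfsg.IsKProperWith K X → K X) →
        ∀ (G : Type u) [Group G] [Finite G], IsSimpleGroup G → ¬ IsMulCommutative G → K G) := by
  have key : ∀ (G : Type u) [Group G] [Finite G],
      (∀ (X : Type u) [Group X] [Finite X],
        IsSimpleGroup X → ¬ IsMulCommutative X → Nat.card X < Nat.card G → K X) →
      Cfsg.IsKProperWith K G := by
    intro G _ _ h H hH L N _ hs hc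
    apply h _ hs hc
    have h1 : Nat.card (L ⧸ N) ≤ Nat.card L :=
      Nat.card_le_card_of_surjective _ (QuotientGroup.mk'_surjective N)
    have h2 : Nat.card L ≤ Nat.card H := card_le_card_group L
    have h3 : Nat.card H < Nat.card G := by
      have h4 := card_le_card_group H
      refine lt_of_le_of_ne h4 fun h5 => hH ?_
      exact eq_top_of_card_eq H h5
    omega
  refine ⟨fun G _ hG => ?_, fun h G _ _ => ?_⟩
  · have := hG.1
    exact key G hG.2.2.2.2
  · have main : ∀ n : ℕ, ∀ (G : Type u) [Group G] [Finite G], Nat.card G = n →
        IsSimpleGroup G → ¬ IsMulCommutative G → K G := by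
      intro n
      induction n using Nat.strong_induction_on with
      | _ n ih =>
        intro G _ _ hn hs hc
        exact h G hs hc (key G fun X _ _ hsX hcX hlt => ih _ (hn ▸ hlt) X rfl hsX hcX)
    exact main _ G rfl

end Cfsg.Agent.S1753
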