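import Cfsg.Statements.S1754
import Cfsg.Agent.H7.Component

set_option autoImplicit false
open Cfsg

namespace Cfsg.Agent.S1754

open Subgroup Cfsg.Agent.H7


/-- Let A be a standard subgroup of the finite group G (A quasisimple, C_G(A) tightly embedded of even order, A commuting elementwise with no other conjugate of itself, and N_G(A) = N_G(C_G(A))), and let t be an involution of G centralizing A. Then the centralizer of t lies in the normalizer of A; in particular A, viewed inside C_G(t), is a component of C_G(t). -/
theorem result {G : Type*} [Group G] [Finite G]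
    (A : Subgroup G) (hA : Cfsg.IsStandardSubgroup A) (t : G) (ht : orderOf t = 2) (htA : t ∈ Subgroup.centralizer (A : Set G)) :
    Subgroup.centralizer ({t} : Set G) ≤ Subgroup.normalizer (A : Set G) ∧
      Cfsg.IsComponent (A.subgroupOf (Subgroup.centralizer ({t} : Set G))) := by
  obtain ⟨hq, ⟨_, hte⟩, _, hN⟩ := hA
  have h1 : Subgroup.centralizer ({t} : Set G) ≤ Subgroup.normalizer (A : Set G) := by
    intro g hg
    rw [hN]
    by_contra hng
    have hodd := hte g hng
    have hgt : g * t * g⁻¹ = t := by
      rw [mem_centralizer_singleton_iff.mp hg]; group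
    have hmem : t ∈ Subgroup.centralizer (A : Set G) ⊓
        (Subgroup.centralizer (A : Set G)).map (MulAut.conj g).toMonoidHom :=
      ⟨htA, t, htA, hgt⟩
    have h2 := orderOf_dvd_natCard (⟨t, hmem⟩ : ↥(Subgroup.centralizer (A : Set G) ⊓
        (Subgroup.centralizer (A : Set G)).map (MulAut.conj g).toMonoidHom))
    rw [← Subgroup.orderOf_coe, ht] at h2
    exact (Nat.not_even_iff_odd.mpr hodd) (even_iff_two_dvd.mpr h2)
  have h2 : A ≤ Subgroup.centralizer ({t} : Set G) := fun a ha =>
    mem_centralizer_singleton_iff.mpr (mem_centralizer_iff.mp htA a ha)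
  exact ⟨h1, (compOf_iff.mp ⟨SN.of_normalizer h2 h1, hq⟩).2⟩

end Cfsg.Agent.S1754
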