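import Cfsg.Statements.S1755
import Cfsg.Agent.H9.Extra
import Cfsg.Agent.H7.FStar

set_option autoImplicit false
open Cfsg

namespace Cfsg.Agent.S1755

open Subgroup Cfsg.Agent.H9

/-- Let G be a finite group and let z be an involution of G such that Q, the generalized Fitting subgroup of the centralizer C of z, is a 2-group of symplectic type (every characteristic abelian subgroup of Q is cyclic). Let B be a characteristic abelian subgroup of Q, viewed as a subgroup of G. Then for every g in G, the conjugate of B by g either equals B or meets B trivially. -/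
theorem result {G : Type*} [Group G] [Finite G] (z : G) (hz : orderOf z = 2) (hQ : Cfsg.IsOfSymplecticType ↥(Cfsg.generalizedFittingSubgroup ↥(Subgroup.centralizer ({z} : Set G))))
    (B : Subgroup ↥(Cfsg.generalizedFittingSubgroup ↥(Subgroup.centralizer ({z} : Set G)))) (hBc : B.Characteristic) (hBa : IsMulCommutative ↥B) (g : G) :
    ((B.map (Cfsg.generalizedFittingSubgroup ↥(Subgroup.centralizer ({z} : Set G))).subtype).map (Subgroup.centralizer ({z} : Set G)).subtype).map (MulAut.conj g).toMonoidHom =
        (B.map (Cfsg.generalizedFittingSubgroup ↥(Subgroup.centralizer ({z} : Set G))).subtype).map (Subgroup.centralizer ({z} : Set G)).subtype ∨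
      ((B.map (Cfsg.generalizedFittingSubgroup ↥(Subgroup.centralizer ({z} : Set G))).subtype).map (Subgroup.centralizer ({z} : Set G)).subtype).map (MulAut.conj g).toMonoidHom ⊓
        (B.map (Cfsg.generalizedFittingSubgroup ↥(Subgroup.centralizer ({z} : Set G))).subtype).map (Subgroup.centralizer ({z} : Set G)).subtype = ⊥ := by
  have hzC : z ∈ centralizer ({z} : Set G) := mem_centralizer_singleton_iff.mpr rfl
  have hzc : ∀ q : centralizer ({z} : Set G), q * ⟨z, hzC⟩ = ⟨z, hzC⟩ * q := fun q =>
    Subtype.ext (mem_centralizer_singleton_iff.mp q.2)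
  have hzQ : (⟨z, hzC⟩ : centralizer ({z} : Set G)) ∈
      Cfsg.generalizedFittingSubgroup ↥(centralizer ({z} : Set G)) :=
    Cfsg.Agent.H7.centralizer_fstar_le fun q _ => hzc q
  have hcyc := hQ.2 (B ⊔ center _) inferInstance (Cfsg.Agent.H5.isMulCommutative_sup hBa
    inferInstance (fun c hc b _ => mem_center_iff.mp hc b))
  have huniq : ∀ u ∈ (B.map (Cfsg.generalizedFittingSubgroup ↥(centralizer ({z} : Set G))).subtype).map
      (centralizer ({z} : Set G)).subtype, u ≠ 1 → u * u = 1 → u = z := by
    rintro _ ⟨_, ⟨u, hu, rfl⟩, rfl⟩ h1 h2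
    have := eq_of_isCyclic_of_mul_self hcyc (mem_sup_left hu) (mem_sup_right (x := ⟨_, hzQ⟩)
      (mem_center_iff.mpr fun q => Subtype.ext (hzc q))) (Subtype.ext (Subtype.ext h2))
      (Subtype.ext (Subtype.ext (mul_self_of_orderOf_two hz))) (by rintro rfl; exact h1 rfl)
      (fun h => ne_one_of_orderOf_two hz (congrArg (fun x => x.1.1) h))
    rw [this]; rfl
  have hp : IsPGroup 2 ((B.map (Cfsg.generalizedFittingSubgroup ↥(centralizer ({z} : Set G))).subtype).map
      (centralizer ({z} : Set G)).subtype) := ((hQ.1.to_subgroup B).map _).map _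
  have hn : centralizer ({z} : Set G) ≤ normalizer
      (((B.map (Cfsg.generalizedFittingSubgroup ↥(centralizer ({z} : Set G))).subtype).map
      (centralizer ({z} : Set G)).subtype : Subgroup G) : Set G) := by
    intro c hc
    apply mem_normalizer_of_conj_mem
    rintro _ ⟨y, hy, rfl⟩
    exact ⟨_, (inferInstance : (B.map (Cfsg.generalizedFittingSubgroup
      ↥(centralizer ({z} : Set G))).subtype).Normal).conj_mem y hy ⟨c, hc⟩, rfl⟩
  generalize (B.map (Cfsg.generalizedFittingSubgroup ↥(centralizer ({z} : Set G))).subtype).map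
      (centralizer ({z} : Set G)).subtype = B' at huniq hp hn ⊢
  refine or_iff_not_imp_right.mpr fun hne => ?_
  obtain ⟨u, hu, hu1, hu2⟩ := exists_involution_of_ne_bot (hp.to_le inf_le_right) hne
  have h1 := huniq u hu.2 hu1 hu2
  have h2 := huniq _ (mem_map_conj.mp hu.1) (fun h => hu1 (by
    rw [← mul_left_cancel_iff (a := g⁻¹), ← mul_right_cancel_iff (a := g), h]; group)) (by
    calc g⁻¹ * u * g * (g⁻¹ * u * g) = g⁻¹ * (u * u) * g := by group
      _ = 1 := by rw [hu2]; group)
  rw [h1] at h2
  apply map_conj_eq_iff.mpr (hn (mem_centralizer_singleton_iff.mpr _))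
  nth_rewrite 1 [← h2]; group

end Cfsg.Agent.S1755
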