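import Cfsg.Statements.S1756
import Cfsg.Agent.H9.Extra

set_option autoImplicit false
open Cfsg

namespace Cfsg.Agent.S1756

open Subgroup Cfsg.Agent.H9

/-- Let Q be an extraspecial 2-subgroup of the finite group G (special with centre of order 2) and t an involution of G normalizing Q such that the centralizer of t in Q has index at most 2 in Q. Then t lies in the product of Q with the centralizer of Q. -/
theorem result {G : Type*} [Group G] [Finite G] (Q : Subgroup G)
    (hQ : Cfsg.IsExtraspecial 2 ↥Q) (t : G) (ht : orderOf t = 2) (htN : t ∈ Subgroup.normalizer (Q : Set G))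
    (hi : (Subgroup.centralizer ({t} : Set G) ⊓ Q).relIndex Q ≤ 2) :
    t ∈ Q ⊔ Subgroup.centralizer (Q : Set G) := by
  obtain ⟨z, h⟩ := exists_es_of_isExtraspecial hQ
  rw [inf_relIndex_right] at hi
  obtain ⟨w, hw, hw'⟩ := h.exists_inner_of_relIndex (mul_self_of_orderOf_two ht) htN hi
  rw [show t = w * (w⁻¹ * t) by group]
  refine mul_mem_sup hw (mem_centralizer_iff.mpr fun q hq => ?_)
  calc q * (w⁻¹ * t) = w⁻¹ * (w * q * w⁻¹) * t := by group
    _ = _ := by rw [← hw' q hq]; group

end Cfsg.Agent.S1756
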