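import Cfsg.Statements.S1774
import Cfsg.Agent.H9.Extra
import Cfsg.Agent.H7.FStar

set_option autoImplicit false
open Cfsg

namespace Cfsg.Agent.S1774

open Subgroup Cfsg.Agent.H9

theorem symp {K : Type*} [Group K] [Finite K] (h : Cfsg.IsOfSymplecticType K)
    (h4 : ∀ q : K, q ^ 4 = 1) {z : K} (hz : z ∈ center K) (hz1 : z ≠ 1) (hz2 : z * z = 1) :
    (∀ q : K, q * q = 1 ∨ q * q = z) ∧ ∀ c ∈ center K, c * c = 1 → c = 1 ∨ c = z := by
  have huniq : ∀ B : Subgroup K, B.Characteristic → IsMulCommutative B → ∀ c ∈ B, c * c = 1 →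
      c = 1 ∨ c = z := by
    intro B hB hBa c hc hc2
    have hcyc := h.2 (B ⊔ center _) inferInstance (Cfsg.Agent.H5.isMulCommutative_sup hBa
      inferInstance (fun c hc b _ => mem_center_iff.mp hc b))
    exact or_iff_not_imp_left.mpr fun h1 =>
      eq_of_isCyclic_of_mul_self hcyc (mem_sup_left hc) (mem_sup_right hz) hc2 hz2 h1 hz1
  refine ⟨?_, huniq _ inferInstance inferInstance⟩
  have hsq : ∀ q : K, q * q * (q * q) = 1 := fun q => by simpa [pow_succ, mul_assoc] using h4 q
  let D : Subgroup K := closure (Set.range fun x : K => x * x)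
  haveI hD : D.Characteristic := by
    rw [characteristic_iff_map_le]
    intro φ
    rw [MonoidHom.map_closure, closure_le]
    rintro _ ⟨_, ⟨x, rfl⟩, rfl⟩
    exact subset_closure ⟨φ x, by simp⟩
  have hZ := huniq (D ⊓ centralizer (D : Set K)) inferInstance
    (isMulCommutative_of_comm fun a ha b hb => hb.2 a ha.1)
  have hle : D ≤ D ⊓ centralizer (D : Set K) := by
    by_contra hne
    obtain ⟨x, hx, hxZ, hx2, hxc⟩ := exists_not_mem_comm_mem_pow_mem (K := ⊤) (h.1.to_subgroup _)
      le_top (by rw [normalizer_eq_top]) (by rw [normalizer_eq_top]) hne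
    apply hxZ
    refine ⟨hx, ?_⟩
    rw [centralizer_closure]
    rintro _ ⟨y, rfl⟩
    rw [pow_two] at hx2
    have h1 : y * (x * x) * y⁻¹ = x * x := by
      rcases hZ _ hx2 (hsq x) with e | e <;> rw [e]
      · simp
      · rw [mem_center_iff.mp hz y, mul_inv_cancel_right]
    obtain ⟨c, hc⟩ : ∃ c, c = y * x * y⁻¹ * x⁻¹ := ⟨_, rfl⟩
    have hcZ := hxc y (mem_top y)
    rw [← hc] at hcZ
    have h2 : y * x * y⁻¹ = c * x := by rw [hc]; group
    have h3 : c * c = 1 := by
      rw [show y * (x * x) * y⁻¹ = (y * x * y⁻¹) * (y * x * y⁻¹) by group, h2, mul_assoc,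
        ← mul_assoc x, hcZ.2 x hx, mul_assoc, ← mul_assoc] at h1
      simpa using h1
    have h5 : y * c * y⁻¹ = c := by
      rcases hZ _ hcZ h3 with e | e <;> rw [e]
      · simp
      · rw [mem_center_iff.mp hz y, mul_inv_cancel_right]
    calc y * y * x = y * (y * x * y⁻¹) * y⁻¹ * (y * y) := by group
      _ = (y * c * y⁻¹) * (y * x * y⁻¹) * (y * y) := by nth_rewrite 1 [h2]; group
      _ = _ := by rw [h5, h2, ← mul_assoc c, h3, one_mul]
  exact fun q => hZ _ (hle (subset_closure ⟨q, rfl⟩)) (hsq q)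

structure SY {G : Type*} [Group G] (Q : Subgroup G) (z : G) : Prop extends C2 Q z where
  sqs : ∀ q ∈ Q, q * q = 1 ∨ q * q = z
  cen : ∀ c ∈ Q, (∀ q ∈ Q, q * c = c * q) → c * c = 1 → c = 1 ∨ c = z
  norm : centralizer ({z} : Set G) ≤ normalizer (Q : Set G)
  self : ∀ c : G, c * z = z * c → (∀ q ∈ Q, q * c = c * q) → c ∈ Q

theorem SY.conj {G : Type*} [Group G] [Finite G] {Q : Subgroup G} {z : G} (h : SY Q z) (g : G) :
    SY (Q.map (MulAut.conj g).toMonoidHom) (g * z * g⁻¹) := by
  refine ⟨h.toC2.map_conj g, ?_, ?_, ?_, ?_⟩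
  · rintro _ ⟨q, hq, rfl⟩
    simp only [MulEquiv.coe_toMonoidHom, MulAut.conj_apply, conj_mul]
    rcases h.sqs q hq with e | e <;> simp [e]
  · rintro _ ⟨q, hq, rfl⟩ h1 h2
    simp only [MulEquiv.coe_toMonoidHom, MulAut.conj_apply, conj_mul] at h1 h2 ⊢
    rcases h.cen q hq (fun r hr => by
      simpa [conj_mul] using h1 _ (conj_mem_map_conj g hr)) (by simpa using h2) with e | e <;>
      simp [e]
  · intro c hc
    rw [mem_centralizer_singleton_iff] at hc
    have : g⁻¹ * c * g ∈ normalizer (Q : Set G) := h.norm (mem_centralizer_singleton_iff.mpr (by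
      calc g⁻¹ * c * g * z = g⁻¹ * (c * (g * z * g⁻¹)) * g := by group
        _ = _ := by rw [hc]; group))
    apply mem_normalizer_of_conj_mem
    intro x hx
    rw [mem_map_conj] at hx ⊢
    have := conj_mem_of_mem_normalizer this hx
    convert this using 1; group
  · intro c hc hc'
    rw [mem_map_conj]
    apply h.self
    · calc g⁻¹ * c * g * z = g⁻¹ * (c * (g * z * g⁻¹)) * g := by group
        _ = _ := by rw [hc]; group
    · intro q hq
      calc q * (g⁻¹ * c * g) = g⁻¹ * (g * q * g⁻¹ * c) * g := by group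
        _ = _ := by rw [hc' _ (conj_mem_map_conj g hq)]; group

theorem SY.isPGroup {G : Type*} [Group G] {Q : Subgroup G} {z : G} (h : SY Q z) : IsPGroup 2 Q :=
  fun x => ⟨2, Subtype.ext (by
    have : (x : G) * x * (x * x) = 1 := by
      rcases h.sqs x x.2 with e | e <;> rw [e]
      · simp
      · exact h.sq
    simpa [pow_succ, mul_assoc] using this)⟩

theorem SY.exists_conj {G : Type*} [Group G] {Q : Subgroup G} {z t : G} (h : SY Q z) (ht : t ∈ Q)
    (h1 : t ≠ 1) (h2 : t ≠ z) (ht2 : t * t = 1) : ∃ y ∈ Q, y * t * y⁻¹ = t * z := by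
  by_contra hc
  push Not at hc
  rcases h.cen t ht (fun q hq => by
    by_contra hne
    exact hc q hq (h.conj_eq_of_ne hq ht hne)) ht2 with e | e
  exacts [h1 e, h2 e]

/-- an element of `Q` centralizing `C_Q(t)` -/
theorem SY.mem_of {G : Type*} [Group G] [Finite G] {Q : Subgroup G} {z t w : G} (h : SY Q z)
    (ht : t ∈ Q) (ht2 : t * t = 1) (hw : w ∈ Q) (hw2 : w * w = 1)
    (hc : ∀ y ∈ Q, y * t = t * y → y * w = w * y) : w = 1 ∨ w = t ∨ w = z ∨ w = t * z := by
  have h1 : zpowers t ≤ normalizer (((center Q).map Q.subtype : Subgroup G) : Set G) := by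
    rw [zpowers_le]
    apply mem_normalizer_of_conj_mem
    intro x hx
    rwa [(mem_center_map_subtype.mp hx).2 t ht, mul_inv_cancel_right]
  have := h.toC2.mem_of_comm (H := zpowers t ⊔ (center Q).map Q.subtype)
    (sup_le (zpowers_le.mpr ht) (map_subtype_le _))
    (fun x hx hc => mem_sup_right (mem_center_map_subtype.mpr ⟨hx, hc⟩)) hw
    (fun y hy hy' => hc y hy (hy' t (mem_sup_left (mem_zpowers t))))
  obtain ⟨a, ha, c, hc', rfl⟩ := (mem_sup_of_le_normalizer h1).mp this
  obtain ⟨hc1, hc2⟩ := mem_center_map_subtype.mp hc'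
  rcases (mem_zpowers_of_mul_self ht2).mp ha with rfl | rfl
  · rw [one_mul] at hw2 ⊢
    rcases h.cen c hc1 hc2 hw2 with e | e <;> simp [e]
  · rw [mul_assoc, ← mul_assoc c, ← hc2 a ht, mul_assoc, ← mul_assoc, ht2, one_mul] at hw2
    rcases h.cen c hc1 hc2 hw2 with e | e <;> simp [e]

theorem main {G : Type*} [Group G] [Finite G] {Q : Subgroup G} {z : G} (h : SY Q z) (g : G)
    (hne : g * z * g⁻¹ ≠ z) (hin : g * z * g⁻¹ ∈ Q) :
    ∃ x ∈ Q.map (MulAut.conj g).toMonoidHom, x * z * x⁻¹ = z * (g * z * g⁻¹) := by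
  have hP := h.conj g
  have hcard := card_map_conj Q g
  have hES : ES Q z → ES _ _ := fun h => h.map_conj g
  generalize Q.map (MulAut.conj g).toMonoidHom = P at hP hcard hES ⊢
  generalize g * z * g⁻¹ = t at hP hES hne hin ⊢
  by_contra hc
  push Not at hc
  have hzP : z ∉ P := fun hz => by
    obtain ⟨y, hy, hy'⟩ := hP.exists_conj hz h.ne hne.symm h.sq
    exact hc y hy hy'
  have htz := h.cz t hin
  have hzN : z ∈ normalizer (P : Set G) := hP.norm (mem_centralizer_singleton_iff.mpr htz.symm)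
  have hD : ∀ x ∈ P, (z * x * z⁻¹ = x ∨ z * x * z⁻¹ = x * t) → x * z = z * x := by
    rintro x hx (e | e)
    · exact (mul_inv_eq_iff_eq_mul.mp e).symm
    · refine absurd ?_ (hc x⁻¹ (inv_mem hx))
      calc x⁻¹ * z * x⁻¹⁻¹ = x⁻¹ * (z * x * z⁻¹) * z := by group
        _ = _ := by rw [e, ← htz]; group
  have hnot : ¬ ∀ x ∈ P, x * z = z * x := fun h' => hzP (hP.self z htz.symm h')
  have hPQ : ∀ w ∈ P, w ∈ Q → w = 1 ∨ w = t := by
    intro w hwP hwQ
    have hw2 : w * w = 1 := by
      rcases h.sqs w hwQ with e | e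
      · exact e
      · exact absurd (e ▸ mul_mem hwP hwP) hzP
    rcases h.mem_of hin hP.sq hwQ hw2 (fun y hy hyt => by
      by_contra hne
      have h1 := conj_mem_of_mem_normalizer (hP.norm (mem_centralizer_singleton_iff.mpr hyt)) hwP
      rw [h.conj_eq_of_ne hy hwQ hne] at h1
      exact hzP (by simpa using mul_mem (inv_mem hwP) h1)) with e | e | e | e
    · exact Or.inl e
    · exact Or.inr e
    · exact absurd (e ▸ hwP) hzP
    · exact absurd (by simpa [e] using mul_mem (inv_mem hP.mem) hwP) hzP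
  by_cases hr : ∃ r ∈ Q, r * t = t * r ∧ r * r = z
  · obtain ⟨r, hr, hrt, hr2⟩ := hr
    have hrN : r ∈ normalizer (P : Set G) := hP.norm (mem_centralizer_singleton_iff.mpr hrt)
    have hrt' : r * t * r⁻¹ = t := mul_inv_eq_iff_eq_mul.mpr hrt
    let F : Subgroup G :=
      { carrier := {x | x ∈ P ∧ (r * x * r⁻¹ = x ∨ r * x * r⁻¹ = x * t)}
        one_mem' := ⟨one_mem _, by simp⟩
        mul_mem' := by
          rintro a b ⟨ha, ha'⟩ ⟨hb, hb'⟩
          refine ⟨mul_mem ha hb, ?_⟩
          rw [← conj_mul]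
          rcases ha' with e | e <;> rcases hb' with e' | e' <;> rw [e, e']
          · simp
          · right; rw [mul_assoc]
          · right; rw [mul_assoc, ← hP.cz b hb, mul_assoc]
          · left; rw [mul_assoc, ← mul_assoc t, ← hP.cz b hb, mul_assoc, hP.sq, mul_one]
        inv_mem' := by
          rintro a ⟨ha, ha'⟩
          refine ⟨inv_mem ha, ?_⟩
          rw [← conj_inv]
          rcases ha' with e | e <;> rw [e]
          · simp
          · right; rw [mul_inv_rev, hP.inv, hP.cz _ (inv_mem ha)] }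
    have hF : P ≤ F := by
      by_contra hne
      obtain ⟨x, hx, hxF, hxc⟩ := exists_not_mem_comm_mem (K := zpowers r ⊔ P)
        ((h.isPGroup.to_le (zpowers_le.mpr hr)).to_sup_of_normal_right' hP.isPGroup
          (zpowers_le.mpr hrN)).isNilpotent le_sup_right
        (sup_le (zpowers_le.mpr hrN) le_normalizer) hne
      obtain ⟨⟨h1, h2⟩, -⟩ := hxc r (mem_sup_left (mem_zpowers r))
      rw [commutatorElement_def] at h1 h2
      obtain ⟨c, hc'⟩ : ∃ c, c = x * r * x⁻¹ * r⁻¹ := ⟨_, rfl⟩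
      rw [← hc'] at h1 h2
      have e1 : r * x * r⁻¹ = c⁻¹ * x := by rw [hc']; group
      have e2 : z * x * z⁻¹ = (c * (r * c * r⁻¹))⁻¹ * x := by
        calc z * x * z⁻¹ = r * (r * x * r⁻¹) * r⁻¹ := by rw [← hr2]; group
          _ = (r * c * r⁻¹)⁻¹ * (r * x * r⁻¹) := by nth_rewrite 1 [e1]; group
          _ = _ := by rw [e1]; group
      have e3 : c * (r * c * r⁻¹) = 1 ∨ c * (r * c * r⁻¹) = t := by
        rcases h2 with e | e <;> rw [e] <;> rcases hP.sqs c h1 with e' | e'
        · exact Or.inl e'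
        · exact Or.inr e'
        · right; rw [← mul_assoc, e', one_mul]
        · left; rw [← mul_assoc, e', hP.sq]
      have e4 := hD x hx (by
        rw [e2]
        rcases e3 with e | e <;> rw [e]
        · simp
        · right; rw [hP.inv, hP.cz x hx])
      have hcQ : c ∈ Q := hc' ▸ mul_mem (conj_mem_of_mem_normalizer
        (h.norm (mem_centralizer_singleton_iff.mpr e4)) hr) (inv_mem hr)
      refine hxF ⟨hx, ?_⟩
      rw [e1]
      rcases hPQ c h1 hcQ with e | e <;> rw [e]
      · simp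
      · right; rw [hP.inv, hP.cz x hx]
    apply hnot
    intro x hx
    apply hD x hx
    left
    rw [← hr2, show r * r * x * (r * r)⁻¹ = r * (r * x * r⁻¹) * r⁻¹ by group]
    rcases (hF hx).2 with e | e
    · rw [e, e]
    · rw [e, ← conj_mul, e, hrt', mul_assoc, hP.sq, mul_one]
  · push Not at hr
    have hR : ∀ r ∈ Q, r * t = t * r → r * r = 1 := fun r hrQ hrt =>
      (h.sqs r hrQ).resolve_right (hr r hrQ hrt)
    obtain ⟨y, hy, hy'⟩ := h.exists_conj hin hP.ne hne hP.sq
    have hyt : y * t ≠ t * y := fun e => h.ne (by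
      rw [e, mul_inv_cancel_right] at hy'; simpa using hy')
    have hE : ES P t := hES ⟨h.toC2, fun x hx hc => h.cen x hx hc (hR x hx (hc t hin).symm),
      y, hy, t, hin, hyt⟩
    have c1 : Nat.card (centralizer ({t} : Set G) ⊓ Q : Subgroup G) ≤ 4 := by
      refine (card_le_of_subset (Set.toFinite _) ?_).trans (ncard_le_four 1 t z (t * z))
      intro w hw
      have hwt := mem_centralizer_singleton_iff.mp hw.1
      exact h.mem_of hin hP.sq hw.2 (hR w hw.2 hwt) fun y hy hyt =>
        comm_of_sq_eq_one (H := centralizer ({t} : Set G) ⊓ Q) (fun a ha => by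
          rw [pow_two]; exact hR a ha.2 (mem_centralizer_singleton_iff.mp ha.1))
          ⟨mem_centralizer_singleton_iff.mpr hyt, hy⟩ hw
    have c2 := card_inf_mul_relIndex (centralizer ({t} : Set G)) Q
    rw [h.relIndex_centralizer hin hy hyt] at c2
    obtain ⟨x, hx, hxF, hxc⟩ := exists_not_mem_comm_mem (K := zpowers z ⊔ P) (M := zpowers t)
      ((h.isPGroup.to_le (zpowers_le.mpr h.mem)).to_sup_of_normal_right' hP.isPGroup
        (zpowers_le.mpr hzN)).isNilpotent le_sup_right
      (sup_le (zpowers_le.mpr hzN) le_normalizer) (fun h' => by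
        obtain ⟨a, ha, b, hb, hab⟩ := hE.nonab
        rcases (mem_zpowers_of_mul_self hP.sq).mp (h' ha) with rfl | rfl
        · simp at hab
        · exact hab (hP.cz b hb).symm)
    rw [mem_zpowers_of_mul_self hP.sq, not_or] at hxF
    have e4 := hD x hx (by
      obtain ⟨h1, -⟩ := hxc z (mem_sup_left (mem_zpowers z))
      rw [commutatorElement_def] at h1
      have e1 : z * x * z⁻¹ = (x * z * x⁻¹ * z⁻¹)⁻¹ * x := by group
      rw [e1]
      rcases (mem_zpowers_of_mul_self hP.sq).mp h1 with e | e <;> rw [e]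
      · simp
      · right; rw [hP.inv, hP.cz x hx])
    have c3 : 4 ≤ Nat.card (centralizer ({z} : Set G) ⊓ P : Subgroup G) := by
      rw [← ncard_four_of hxF.1 hP.ne hxF.2 (fun e => hxF.2 (by
        rw [eq_inv_of_mul_eq_one_left e, hP.inv]))]
      apply Set.ncard_le_ncard (t := ((centralizer ({z} : Set G) ⊓ P : Subgroup G) : Set G))
      have m1 : x ∈ centralizer ({z} : Set G) ⊓ P := ⟨mem_centralizer_singleton_iff.mpr e4, hx⟩
      have m2 : t ∈ centralizer ({z} : Set G) ⊓ P := ⟨mem_centralizer_singleton_iff.mpr htz, hP.mem⟩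
      rintro y (rfl | rfl | rfl | rfl)
      exacts [one_mem _, m1, m2, mul_mem m1 m2]
    have c4 := card_inf_mul_relIndex (centralizer ({z} : Set G)) P
    obtain ⟨w, hw, hw'⟩ := hE.exists_inner_of_relIndex h.sq hzN (by nlinarith)
    exact hnot fun x hx => hD x hx (by rw [hw' x hx]; exact hP.conj_eq hw hx)

/-- Let G be a finite group and let z be an involution of G such that Q, the generalized Fitting subgroup of the centralizer C of z, is a 2-group of symplectic type (every characteristic abelian subgroup of Q is cyclic); suppose every element of Q has order dividing 4. Let g ∈ G with z' = g z g⁻¹ ≠ z and z' ∈ Q. Then z lies in the conjugate g Q g⁻¹, and the subgroup X generated by Q and g Q g⁻¹ induces every automorphism of the four-group generated by z and z': for any two distinct non-identity elements u, v of that four-group there is x ∈ X with x z x⁻¹ = u and x z' x⁻¹ = v. -/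
theorem result {G : Type*} [Group G] [Finite G] (z : G) (hz : orderOf z = 2) (hQ : Cfsg.IsOfSymplecticType ↥(Cfsg.generalizedFittingSubgroup ↥(Subgroup.centralizer ({z} : Set G))))
    (h4 : ∀ q ∈ (Cfsg.generalizedFittingSubgroup ↥(Subgroup.centralizer ({z} : Set G))).map (Subgroup.centralizer ({z} : Set G)).subtype, q ^ 4 = 1) (g : G) (hne : g * z * g⁻¹ ≠ z) (hin : g * z * g⁻¹ ∈ (Cfsg.generalizedFittingSubgroup ↥(Subgroup.centralizer ({z} : Set G))).map (Subgroup.centralizer ({z} : Set G)).subtype) :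
    z ∈ ((Cfsg.generalizedFittingSubgroup ↥(Subgroup.centralizer ({z} : Set G))).map (Subgroup.centralizer ({z} : Set G)).subtype).map (MulAut.conj g).toMonoidHom ∧
      ∀ u ∈ Subgroup.closure ({z, g * z * g⁻¹} : Set G), ∀ v ∈ Subgroup.closure ({z, g * z * g⁻¹} : Set G),
        u ≠ 1 → v ≠ 1 → u ≠ v →
          ∃ x ∈ (Cfsg.generalizedFittingSubgroup ↥(Subgroup.centralizer ({z} : Set G))).map (Subgroup.centralizer ({z} : Set G)).subtype ⊔ ((Cfsg.generalizedFittingSubgroup ↥(Subgroup.centralizer ({z} : Set G))).map (Subgroup.centralizer ({z} : Set G)).subtype).map (MulAut.conj g).toMonoidHom, x * z * x⁻¹ = u ∧ x * (g * z * g⁻¹) * x⁻¹ = v := by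
  have hN := Cfsg.Agent.H7.le_normalizer_fstarOf (centralizer ({z} : Set G))
  have hC := Cfsg.Agent.H7.inf_centralizer_fstarOf_le (centralizer ({z} : Set G))
  have hle := Cfsg.Agent.H7.fstarOf_le (centralizer ({z} : Set G))
  rw [Cfsg.Agent.H7.fstarOf_def] at hN hC hle
  have hzc := fun q hq => mem_centralizer_singleton_iff.mp (hle (x := q) hq)
  have hzQ := hC ⟨mem_centralizer_singleton_iff.mpr rfl, hzc⟩
  have hz1 := ne_one_of_orderOf_two hz
  have hz2 := mul_self_of_orderOf_two hz
  have h : SY ((Cfsg.generalizedFittingSubgroup ↥(centralizer ({z} : Set G))).map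
      (centralizer ({z} : Set G)).subtype) z := by
    obtain ⟨z', hz', hzz⟩ := id hzQ
    replace hzz : (z' : G) = z := hzz
    obtain ⟨h1, h2⟩ := symp hQ (fun q => Subtype.ext (Subtype.ext (h4 _ ⟨q.1, q.2, rfl⟩)))
      (z := ⟨z', hz'⟩) (mem_center_iff.mpr fun q => Subtype.ext (Subtype.ext (by
        simpa [hzz] using hzc _ ⟨q.1, q.2, rfl⟩))) (fun e => hz1 (by
          rw [← hzz]; exact congrArg (fun x => x.1.1) e))
        (Subtype.ext (Subtype.ext (by simpa [hzz] using hz2)))
    have hsq : ∀ q ∈ (Cfsg.generalizedFittingSubgroup ↥(centralizer ({z} : Set G))).map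
        (centralizer ({z} : Set G)).subtype, q * q = 1 ∨ q * q = z := by
      rintro _ ⟨q, hq, rfl⟩
      rcases h1 ⟨q, hq⟩ with e | e
      · exact Or.inl (congrArg (fun x => x.1.1) e)
      · exact Or.inr ((congrArg (fun x => x.1.1) e).trans hzz)
    refine ⟨⟨hzQ, hz1, hz2, hzc, fun x hx y hy => ?_⟩, hsq, ?_, hN,
      fun c hc hc' => hC ⟨mem_centralizer_singleton_iff.mpr hc, hc'⟩⟩
    · rcases (mem_zpowers_of_mul_self hz2).mp (comm_mem_of_sq_mem (H := zpowers z)
        (fun a ha => (mem_zpowers_of_mul_self hz2).mpr (hsq a ha)) hx hy) with e | e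
      · left; rw [← one_mul (y * x), ← e]; group
      · right; rw [hzc _ (mul_mem hy hx), ← e]; group
    · rintro _ ⟨c, hc, rfl⟩ hc1 hc2
      rcases h2 ⟨c, hc⟩ (mem_center_iff.mpr fun q => Subtype.ext (Subtype.ext
        (hc1 _ ⟨q.1, q.2, rfl⟩))) (Subtype.ext (Subtype.ext hc2)) with e | e
      · exact Or.inl (congrArg (fun x => x.1.1) e)
      · exact Or.inr ((congrArg (fun x => x.1.1) e).trans hzz)
  generalize (Cfsg.generalizedFittingSubgroup ↥(centralizer ({z} : Set G))).map
      (centralizer ({z} : Set G)).subtype = Q at *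
  obtain ⟨x, hx, hxz⟩ := main h g hne hin
  have hP := h.conj g
  have htz := h.cz _ hin
  obtain ⟨y, hy, hyt⟩ := h.exists_conj hin hP.ne hne hP.sq
  have hxt := mul_inv_eq_iff_eq_mul.mpr (hP.cz x hx)
  have hyz := mul_inv_eq_iff_eq_mul.mpr (h.cz y hy)
  have hg : ∀ s : G, s * z * s⁻¹ = g * z * g⁻¹ → ∀ q ∈ Q, s * q * s⁻¹ ∈
      Q.map (MulAut.conj g).toMonoidHom := by
    intro s hs q hq
    rw [mem_map_conj]
    have := conj_mem_of_mem_normalizer (h.norm (mem_centralizer_singleton_iff.mpr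
      (show g⁻¹ * s * z = z * (g⁻¹ * s) by
        calc g⁻¹ * s * z = g⁻¹ * (s * z * s⁻¹) * s := by group
          _ = _ := by rw [hs]; group))) hq
    convert this using 1; group
  generalize Q.map (MulAut.conj g).toMonoidHom = P at *
  generalize g * z * g⁻¹ = t at *
  have cm : ∀ a b c : G, a * b * c * (a * b)⁻¹ = a * (b * c * b⁻¹) * a⁻¹ := fun a b c => by group
  have e1 : y * x * z * (y * x)⁻¹ = t := by
    rw [cm, hxz, ← conj_mul, hyz, hyt, htz, ← mul_assoc, hz2, one_mul]
  have e2 : y * x * t * (y * x)⁻¹ = z * t := by rw [cm, hxt, hyt, htz]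
  have e3 : x * (y * x) * z * (x * (y * x))⁻¹ = t := by rw [cm, e1, hxt]
  have e4 : x * (y * x) * t * (x * (y * x))⁻¹ = z := by
    rw [cm, e2, ← conj_mul, hxz, hxt, mul_assoc, hP.sq, mul_one]
  have e5 : x * y * z * (x * y)⁻¹ = z * t := by rw [cm, hyz, hxz]
  have e6 : x * y * t * (x * y)⁻¹ = z := by
    rw [cm, hyt, htz, ← conj_mul, hxz, hxt, mul_assoc, hP.sq, mul_one]
  refine ⟨e4 ▸ hg _ e3 t hin, ?_⟩
  have hV : ∀ u ∈ closure ({z, t} : Set G), u = 1 ∨ u = z ∨ u = t ∨ u = z * t := by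
    intro u hu
    rw [← Cfsg.Agent.H5.zpowers_sup_zpowers] at hu
    obtain ⟨a, ha, b, hb, rfl⟩ := (mem_sup_of_le_normalizer (by
      rw [zpowers_le]
      apply centralizer_le_normalizer
      intro c hc
      rcases (mem_zpowers_of_mul_self hP.sq).mp hc with rfl | rfl
      · simp
      · exact htz)).mp hu
    rcases (mem_zpowers_of_mul_self hz2).mp ha with rfl | rfl <;>
      rcases (mem_zpowers_of_mul_self hP.sq).mp hb with rfl | rfl <;> simp
  have hx' : x ∈ Q ⊔ P := mem_sup_right hx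
  have hy' : y ∈ Q ⊔ P := mem_sup_left hy
  intro u hu v hv hu1 hv1 huv
  rcases hV u hu with rfl | rfl | rfl | rfl <;> rcases hV v hv with rfl | rfl | rfl | rfl <;>
    first
    | exact absurd rfl hu1
    | exact absurd rfl hv1
    | exact absurd rfl huv
    | exact ⟨y, hy', hyz, hyt.trans htz⟩
    | exact ⟨x, hx', hxz, hxt⟩
    | exact ⟨_, mul_mem hy' hx', e1, e2⟩
    | exact ⟨_, mul_mem hx' (mul_mem hy' hx'), e3, e4⟩
    | exact ⟨_, mul_mem hx' hy', e5, e6⟩
    | exact ⟨1, one_mem _, by simp, by simp⟩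

end Cfsg.Agent.S1774
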