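import Cfsg.Statements.S1775
import Cfsg.Agent.H7.Pump

set_option autoImplicit false
open Cfsg

namespace Cfsg.Agent.S1775

open Subgroup Cfsg.Agent.H7
open scoped commutatorElement


/-- Let G be a finite group whose generalized Fitting subgroup is a non-abelian simple group and in which every proper section (every quotient H/N of a proper subgroup H, or of G by a nontrivial normal subgroup) has the B-property. Let x, y be commuting involutions, let D be the intersection of the 2-layer of C_G(x) with C_G(y), and let J be a 2-component of D. Write Q for the quotient of C_G(y) by its largest normal odd-order subgroup. Then (i) the image of J in Q is a component of the centralizer in Q of the image of x; and (ii) for every J-invariant subgroup E of odd order of C_G(x) ∩ C_G(y), the commutator subgroup [J, E] lies in the largest normal odd-order subgroup of C_G(y). -/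
theorem result {G : Type*} [Group G] [Finite G]
    (hF : IsSimpleGroup ↥(Cfsg.generalizedFittingSubgroup G)) (hF' : ¬ IsMulCommutative ↥(Cfsg.generalizedFittingSubgroup G))
    (hsec : ∀ (H : Subgroup G) (N : Subgroup ↥H) [N.Normal], (H ≠ ⊤ ∨ N ≠ ⊥) → Cfsg.HasBProperty (↥H ⧸ N))
    (x y : G) (hx : orderOf x = 2) (hy : orderOf y = 2) (hxy : x * y = y * x)
    (J : Subgroup ↥((Cfsg.pLayer 2 ↥(Subgroup.centralizer ({x} : Set G))).map (Subgroup.centralizer ({x} : Set G)).subtype ⊓ Subgroup.centralizer ({y} : Set G)))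
    (hJ : Cfsg.IsPComponent 2 J) :
    Cfsg.IsComponent
        ((((J.map (Subgroup.subtype _)).subgroupOf (Subgroup.centralizer ({y} : Set G))).map (QuotientGroup.mk' (Cfsg.oddCore ↥(Subgroup.centralizer ({y} : Set G))))).subgroupOf
          (Subgroup.centralizer ({(QuotientGroup.mk' (Cfsg.oddCore ↥(Subgroup.centralizer ({y} : Set G))) ⟨x, Subgroup.mem_centralizer_singleton_iff.mpr hxy⟩ : ↥(Subgroup.centralizer ({y} : Set G)) ⧸ Cfsg.oddCore ↥(Subgroup.centralizer ({y} : Set G)))} : Set _))) ∧
      ∀ E : Subgroup G, E ≤ Subgroup.centralizer ({x} : Set G) ⊓ Subgroup.centralizer ({y} : Set G) → Odd (Nat.card ↥E) →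
        (∀ j ∈ J.map (Subgroup.subtype _), ∀ e ∈ E, j * e * j⁻¹ ∈ E) →
          ⁅J.map (Subgroup.subtype _), E⁆ ≤ (Cfsg.oddCore ↥(Subgroup.centralizer ({y} : Set G))).map (Subgroup.centralizer ({y} : Set G)).subtype := by
  have hJ1 : PCompOf 2 (J.map (Subgroup.subtype _)) (centralizer {y} ⊓ centralizer {x}) := by
    refine (pCompOf_map_subtype_iff.mpr hJ).trans ?_
    rw [inf_comm (centralizer {y})]
    exact (playerOf_sn _).inf_right _
  generalize J.map (Subgroup.subtype _) = K at hJ1 ⊢
  set C := centralizer ({y} : Set G) with hC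
  have hxC : x ∈ C := Subgroup.mem_centralizer_singleton_iff.mpr hxy
  have hCt : C ≠ ⊤ := fun e => by
    have h1 : zpowers y ≤ center G := zpowers_le.mpr (mem_center_iff.mpr fun g =>
      mem_centralizer_singleton_iff.mp (show g ∈ C from e ▸ mem_top g))
    have h2 : y ∈ generalizedFittingSubgroup G :=
      centralizer_fstar_le (center_le_centralizer _ (h1 (mem_zpowers y)))
    rcases (inferInstance : (center (generalizedFittingSubgroup G)).Normal).eq_bot_or_eq_top
      with h3 | h3
    · have : (⟨y, h2⟩ : generalizedFittingSubgroup G) ∈ center _ := mem_center_iff.mpr fun g =>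
        Subtype.ext (mem_center_iff.mp (h1 (mem_zpowers y)) g)
      rw [h3, mem_bot] at this
      exact H4.ne_one_of_orderOf_two hy (congrArg Subtype.val this)
    · exact hF' ⟨⟨fun a b => mem_center_iff.mp (h3 ▸ mem_top b) a⟩⟩
  have hB := hsec C (oddCore C) (Or.inl hCt)
  have hKC : K ≤ C := hJ1.le.trans inf_le_left
  have hx' : orderOf (⟨x, hxC⟩ : C) = 2 := by rwa [← Subgroup.orderOf_coe]
  have hJ2 : PCompOf 2 (K.subgroupOf C) (centralizer {(⟨x, hxC⟩ : C)}) := by
    have := (PCompOf.subgroupOf_iff hKC inf_le_left).mpr hJ1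
    convert this using 1
    ext g
    simp only [mem_subgroupOf, mem_inf, mem_centralizer_singleton_iff, g.2, true_and]
    exact Subtype.ext_iff
  set f := QuotientGroup.mk' (oddCore C) with hf
  have hmap : (centralizer {(⟨x, hxC⟩ : C)}).map f = centralizer {f ⟨x, hxC⟩} := by
    rw [← H8.centralizer_zpowers, ← H8.centralizer_zpowers, ← MonoidHom.map_zpowers,
      (copAct_ker_mk' (isPGroup_zpowers_of_orderOf (p := 2) (k := 1) hx')).centralizer_map _
        (QuotientGroup.mk'_surjective _)]
  have hJ3 := hJ2.map f (hJ2.pqs.map_ne_bot (not_dvd_card_inf_ker_mk' _))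
  rw [hmap] at hJ3
  have hfx : orderOf (f ⟨x, hxC⟩) = 2 := H4.orderOf_eq_two_of
    (by rw [← map_mul, H4.mul_self_of_orderOf_two hx', map_one]) fun e =>
      L0.not_dvd_card_pPrimeCore (two_dvd_card_of_mem ((QuotientGroup.eq_one_iff _).mp e) hx')
  have h1 := hB _ hfx
  rw [map_commutator, show oddCore (C ⧸ oddCore C) = ⊥ from L0.pPrimeCore_quotient_pPrimeCore,
    le_bot_iff] at h1
  have hJ4 := hJ3.compOf_iff_comm.mpr (comm_eq_bot_of_le h1 hJ3.le_playerOf le_rfl)
  refine ⟨(compOf_iff.mp hJ4).2, fun E hE hEo hEn => ?_⟩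
  have hEC : E ≤ C := hE.trans inf_le_right
  have h2 := hJ4.comm_of_not_dvd hJ3.dvd_card (N := (E.subgroupOf C).map f)
    (hmap ▸ map_mono fun e he => mem_centralizer_singleton_iff.mpr
      (Subtype.ext (mem_centralizer_singleton_iff.mp (hE he).1)))
    (H8.map_le_normalizer_map (K := E.subgroupOf C)
      (fun k hk => H5.mem_normalizer_of_conj_mem fun e he => hEn k hk e he) f)
    (H8.not_dvd_card_map (by
      rw [Nat.card_congr (subgroupOfEquivOfLe hEC).toEquiv]
      exact fun h => (Nat.not_even_iff_odd.mpr hEo) (even_iff_two_dvd.mpr h)) f)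
  rw [← map_commutator, ← le_iff_map_mk'_eq_bot] at h2
  have := map_mono (f := C.subtype) h2
  rwa [map_commutator, map_subgroupOf_eq_of_le hKC, map_subgroupOf_eq_of_le hEC] at this

end Cfsg.Agent.S1775
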