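import Cfsg.Statements.S1779
import Cfsg.Agent.H4.TI12

set_option autoImplicit false
open Cfsg Subgroup Cfsg.Agent.FT Cfsg.Agent.L0 Cfsg.Agent.H8 Cfsg.Agent.H4.TI
open Cfsg.Agent.H2.CI (mem_cj')

namespace Cfsg.Agent.S1779

/-- Let G be a finite group with no nontrivial normal 2-subgroup, M a maximal 2-local subgroup of G such that C_M(O₂(M)) ≤ O₂(M), and B an abelian normal subgroup of M such that every G-conjugate of B equals B or meets B trivially. Then B is cyclic, or B is isomorphic to the direct product of two cyclic groups of order 4 and the generalized Fitting subgroup of G is isomorphic to the projective special linear group of dimension 3 over the field with 4 elements, or B is an elementary abelian 2-group. -/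
theorem result {G : Type*} [Group G] [Finite G] (hO : Cfsg.pCore 2 G = ⊥)
    (M : Subgroup G) (hM : Cfsg.IsMaximalTwoLocal M) (hMc : Cfsg.IsOfCharacteristicTwo ↥M)
    (B : Subgroup G) (hBM : B ≤ M) (hBn : ∀ m ∈ M, ∀ b ∈ B, m * b * m⁻¹ ∈ B) (hBa : IsMulCommutative ↥B)
    (hti : ∀ g : G, B.map (MulAut.conj g).toMonoidHom = B ∨ B.map (MulAut.conj g).toMonoidHom ⊓ B = ⊥) :
    IsCyclic ↥B ∨
      (Nonempty (↥B ≃* Multiplicative (ZMod 4) × Multiplicative (ZMod 4)) ∧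
        ∃ (F : Type) (_ : Field F) (_ : Fintype F), Fintype.card F = 4 ∧
          Nonempty (↥(Cfsg.generalizedFittingSubgroup G) ≃* Matrix.ProjectiveSpecialLinearGroup (Fin 3) F)) ∨
      Cfsg.IsElementaryAbelian 2 B := by
  have := Fact.mk Nat.prime_two
  refine or_iff_not_imp_left.2 fun hc => or_iff_not_imp_right.2 fun he => ?_
  have ab : ∀ a ∈ B, ∀ b ∈ B, a * b = b * a := fun a ha b hb =>
    congrArg Subtype.val (hBa.is_comm.comm (⟨a, ha⟩ : B) ⟨b, hb⟩)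
  have two : IsPGroup 2 B := by
    have := le_fitting_of_isMulCommutative (N := B.subgroupOf M) ⟨fun b hb m => hBn m m.2 b hb⟩
      ⟨⟨fun a b => Subtype.ext (Subtype.ext (ab _ a.2 _ b.2))⟩⟩
    rw [fitting_eq_pCore_of_pPrimeCore_eq_bot (pPrimeCore_eq_bot_of_centralizer_pCore_le hMc)] at this
    exact (pCore_isPGroup.to_le this).of_equiv (subgroupOfEquivOfLe hBM)
  obtain ⟨y, hy, y2⟩ : ∃ y ∈ B, y * y ≠ 1 := by
    by_contra hn
    push Not at hn
    exact he (H9.isElementaryAbelian_two_iff.2 fun a ha => (pow_two a).trans (hn a ha))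
  have hN : 𝐍(B) = M := hM.2 _ ⟨B, two, fun e => y2 (by rw [e] at hy; rw [mem_bot.1 hy, mul_one]), rfl⟩
    fun m hm => H9.mem_normalizer_of_conj_mem (hBn m hm)
  obtain ⟨a, ha, b, hb, a2, b2, a1, b1, hab⟩ : ∃ a ∈ B, ∃ b ∈ B, a * a = 1 ∧ b * b = 1 ∧ a ≠ 1 ∧ b ≠ 1 ∧ a ≠ b := by
    let _ : CommGroup B := { (inferInstance : Group B) with mul_comm := hBa.is_comm.comm }
    obtain ⟨r, a, b, hr, h1, h2, h3⟩ := exists_pair_of_not_isCyclic hc
    obtain ⟨k, hk⟩ := two b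
    obtain rfl : r = 2 := (Nat.prime_dvd_prime_iff_eq hr Nat.prime_two).1
      (hr.dvd_of_dvd_pow (h2 ▸ orderOf_dvd_of_pow_eq_one hk))
    exact ⟨a, a.2, b, b.2, congrArg Subtype.val ((pow_two a).symm.trans h1),
      congrArg Subtype.val (H4.mul_self_of_orderOf_two h2), fun e => h3 (by rw [show a = 1 from Subtype.ext e]; exact one_mem _),
      fun e => H4.ne_one_of_orderOf_two h2 (Subtype.ext e), fun e => h3 (by rw [Subtype.ext e]; exact mem_zpowers b)⟩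
  have h : TF {A | ∃ g, cj g B = A} := by
    refine ⟨?_, ?_, ?_, ?_, ?_, ?_, ?_, ?_, ?_⟩
    · rintro _ ⟨g, rfl⟩ k
      exact ⟨k * g, cj_mul _ _ _⟩
    · rintro _ ⟨g, rfl⟩ _ ⟨k, rfl⟩
      exact ⟨k * g⁻¹, by rw [cj_mul, cj_inv_cj]⟩
    · rintro _ ⟨g, rfl⟩ _ ⟨a, ha, rfl⟩ _ ⟨b, hb, rfl⟩
      exact ccj (ab a ha b hb) g
    · rintro _ ⟨g, rfl⟩
      exact pgroup_cj two g
    · rintro _ ⟨g, rfl⟩ _ ⟨k, rfl⟩ x h1 h2 x1
      refine (hti (k⁻¹ * g)).elim (fun e => ?_) fun e => (cne x1 k⁻¹ (mem_bot.1 (e ▸ ⟨?_, ?_⟩))).elim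
      · conv_rhs => rw [← show cj _ B = B from e, ← cj_mul, mul_inv_cancel_left]
      · exact (cj_mul k⁻¹ g B).ge (conj_mem_cj k⁻¹ h1)
      · simpa using mem_cj.1 h2
    · rintro _ ⟨g, rfl⟩
      exact ⟨_, conj_mem_cj g ha, _, conj_mem_cj g hb, sqc a2 g, sqc b2 g, cne a1 g, cne b1 g,
        fun e => hab (by simpa using e)⟩
    · rintro _ ⟨g, rfl⟩
      exact ⟨_, conj_mem_cj g hy, fun e => y2 (sq_of e)⟩
    · rintro _ ⟨g, rfl⟩
      rw [← cj_normalizer, ← cj_Op', ← cj_centralizer, ← cj_inf, cj_le_cj_iff, hN]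
      exact fun x hx => ⟨⟨x, hx.1⟩, hMc fun y hy => Subtype.ext (hx.2 _ ⟨y, hy, rfl⟩), rfl⟩
    · rintro _ ⟨g, rfl⟩ R h1 h2 h3
      rw [← cj_normalizer, hN] at h3 ⊢
      rw [← hM.2 _ ⟨cj g⁻¹ R, pgroup_cj h1 _, mt cj_eq_bot_iff.1 h2, rfl⟩ (by
        rw [← cj_normalizer, ← cj_le_cj_iff (g := g), cj_cj_inv]; exact h3), ← cj_normalizer, cj_cj_inv]
  have hB : B ∈ {A | ∃ g, cj g B = A} := ⟨1, cj_one B⟩
  have q := h.gf hO hB
  obtain ⟨A, hA, D, hD, p⟩ := q.gt B hB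
  have := Fintype.ofFinite (GaloisField 2 2)
  have hF : Fintype.card (GaloisField 2 2) = 4 := Fintype.card_eq_nat_card.trans (GaloisField.card 2 2 two_ne_zero)
  exact ⟨q.z44 hA hB hD p, _, inferInstance, inferInstance, hF, q.fstar hA hB hD p hO ▸ q.iso hA hB hD p hF⟩

end Cfsg.Agent.S1779
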