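import Cfsg.Statements.S1780
import Cfsg.Agent.H9.Basic

set_option autoImplicit false
open Cfsg

namespace Cfsg.Agent.S1780

open Cfsg.Agent.H9 Subgroup

/-- Let A be a finite abelian 2-group and t an automorphism of A whose order is a power of 2. If every element of A fixed by t² is fixed by t, then t fixes every element of A. -/
theorem result {A : Type*} [CommGroup A] [Finite A]
    (hA : IsPGroup 2 A) (t : MulAut A) (ht : ∃ k : ℕ, orderOf t = 2 ^ k) (hC : ∀ a : A, t (t a) = a → t a = a) :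
    ∀ a : A, t a = a := by
  by_contra hne
  push Not at hne
  obtain ⟨a₀, ha₀⟩ := hne
  let d : A →* A := MonoidHom.mk' (fun a => t a * a⁻¹) (fun a b => by
    simp only [map_mul, mul_inv_rev]; ac_rfl)
  have hd : ∀ a, d a = t a * a⁻¹ := fun _ => rfl
  have hr : d.range ≠ ⊥ := by
    intro h
    have : d a₀ ∈ d.range := ⟨a₀, rfl⟩
    rw [h, mem_bot, hd, mul_inv_eq_one] at this
    exact ha₀ this
  obtain ⟨k, hk⟩ := ht
  obtain ⟨c, ⟨a, rfl⟩, hc1, hc2⟩ := exists_aut_fixed_ne_one (p := 2) (σ := t)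
    ⟨k, by rw [← hk, pow_orderOf_eq_one]⟩ d.range (hA.to_subgroup _) hr (by
      rintro _ ⟨a, rfl⟩
      exact ⟨t a, by simp [hd]⟩)
  obtain ⟨j, hj1, hj2⟩ := exists_pow_ne_one_pow_eq_one hc1 (hA (d a))
  have h3 : t (d a ^ 2 ^ j) = d a ^ 2 ^ j := by rw [map_pow, hc2]
  rw [← map_pow] at hj1 hj2 h3
  generalize a ^ 2 ^ j = b at hj1 hj2 h3
  have h4 : t b = d b * b := by simp [hd]
  have h5 : t (t b) = b := by
    rw [h4, map_mul, h3, h4, ← mul_assoc, ← pow_two, hj2, one_mul]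
  apply hj1
  rw [hd, hC b h5, mul_inv_cancel]

end Cfsg.Agent.S1780
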