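import Cfsg.Statements.S1781
import Cfsg.Agent.H9.Basic
import Cfsg.Agent.S1780
import Cfsg.Agent.S1757

set_option autoImplicit false
open Cfsg

namespace Cfsg.Agent.S1781

open Cfsg.Agent.H9 Subgroup

theorem ti_mem_normalizer {G : Type*} [Group G] {A : Subgroup G}
    (hti : ∀ h : G, A.map (MulAut.conj h).toMonoidHom = A ∨
      A.map (MulAut.conj h).toMonoidHom ⊓ A = ⊥) {a h : G} (ha : a ∈ A) (h1 : a ≠ 1)
    (hh : h * a * h⁻¹ ∈ A) : h ∈ normalizer (A : Set G) := by
  rcases hti h with e | e
  · exact map_conj_eq_iff.1 e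
  · exfalso
    have : h * a * h⁻¹ ∈ A.map (MulAut.conj h).toMonoidHom ⊓ A := ⟨conj_mem_map_conj h ha, hh⟩
    rw [e, mem_bot] at this
    apply h1
    have e2 : a = h⁻¹ * (h * a * h⁻¹) * h := by group
    rw [e2, this]; group

theorem ti_map_conj {G : Type*} [Group G] {A : Subgroup G}
    (hti : ∀ h : G, A.map (MulAut.conj h).toMonoidHom = A ∨
      A.map (MulAut.conj h).toMonoidHom ⊓ A = ⊥) (g h : G) :
    (A.map (MulAut.conj g).toMonoidHom).map (MulAut.conj h).toMonoidHom =
        A.map (MulAut.conj g).toMonoidHom ∨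
      (A.map (MulAut.conj g).toMonoidHom).map (MulAut.conj h).toMonoidHom ⊓
        A.map (MulAut.conj g).toMonoidHom = ⊥ := by
  rcases hti (g⁻¹ * h * g) with e | e
  · left
    have := congrArg (fun X => X.map (MulAut.conj g).toMonoidHom) e
    simp only [map_conj_map_conj] at this ⊢
    rw [← this]
    congr 3
    group
  · right
    rw [eq_bot_iff] at e ⊢
    intro x hx
    have : g⁻¹ * x * g ∈ A.map (MulAut.conj (g⁻¹ * h * g)).toMonoidHom ⊓ A := by
      refine ⟨?_, mem_map_conj.1 hx.2⟩
      have := mem_map_conj.1 (mem_map_conj.1 hx.1)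
      apply mem_map_conj.2
      convert this using 1
      group
    have h2 := mem_bot.1 (e this)
    rw [mem_bot]
    have e2 : x = g * (g⁻¹ * x * g) * g⁻¹ := by group
    rw [e2, h2]; group

/-- Let A be an abelian 2-subgroup of the finite group G such that every conjugate of A equals A or meets A trivially, and let g ∈ G with g A g⁻¹ ≠ A. Then either the subgroup of those elements of A that normalize g A g⁻¹ is an elementary abelian 2-group, or A and g A g⁻¹ commute elementwise. -/
theorem result {G : Type*} [Group G] [Finite G] (A : Subgroup G)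
    (hA2 : IsPGroup 2 ↥A) (hAa : IsMulCommutative ↥A)
    (hti : ∀ h : G, A.map (MulAut.conj h).toMonoidHom = A ∨ A.map (MulAut.conj h).toMonoidHom ⊓ A = ⊥)
    (g : G) (hg : A.map (MulAut.conj g).toMonoidHom ≠ A) :
    Cfsg.IsElementaryAbelian 2 (A ⊓ Subgroup.normalizer ((A.map (MulAut.conj g).toMonoidHom : Subgroup G) : Set G)) ∨
      ⁅A, A.map (MulAut.conj g).toMonoidHom⁆ = ⊥ := by
  set B := A.map (MulAut.conj g).toMonoidHom with hB
  have hAB : A ⊓ B = ⊥ := by
    rcases hti g with e | e
    · exact absurd e hg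
    · rw [inf_comm]; exact e
  rw [or_iff_not_imp_left, isElementaryAbelian_two_iff]
  intro hne
  push Not at hne
  obtain ⟨a, ⟨haA, haN⟩, ha2⟩ := hne
  have hB2 : IsPGroup 2 B := isPGroup_map_conj hA2 g
  have hBa : IsMulCommutative B := inferInstance
  have hcomm : ∀ b ∈ B, b ∈ normalizer (A : Set G) → a * b * a⁻¹ = b := by
    intro b hb hbN
    have h1 : a * b * a⁻¹ * b⁻¹ ∈ A ⊓ B := by
      refine ⟨?_, B.mul_mem (conj_mem_of_mem_normalizer haN hb) (B.inv_mem hb)⟩
      have := A.mul_mem haA (conj_mem_of_mem_normalizer hbN (A.inv_mem haA))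
      simpa [mul_assoc] using this
    rw [hAB, mem_bot, mul_inv_eq_one] at h1
    exact h1
  letI : CommGroup B := IsMulCommutative.instCommGroup
  have key := Cfsg.Agent.S1780.result (A := B) hB2 (B.normalizerMonoidHom ⟨a, haN⟩) (by
      obtain ⟨k, hk⟩ := exists_pow_eq_one_of_mem hA2 haA
      have : B.normalizerMonoidHom ⟨a, haN⟩ ^ 2 ^ k = 1 := by
        rw [← map_pow]
        have : (⟨a, haN⟩ : normalizer (B : Set G)) ^ 2 ^ k = 1 := Subtype.ext hk
        rw [this, map_one]
      obtain ⟨j, -, hj⟩ := (Nat.dvd_prime_pow Nat.prime_two).1 (orderOf_dvd_of_pow_eq_one this)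
      exact ⟨j, hj⟩) (by
      intro b hb
      have hb' : a * (a * b * a⁻¹) * a⁻¹ = b := congrArg Subtype.val hb
      apply Subtype.ext
      apply hcomm b b.2
      apply ti_mem_normalizer hti (A.pow_mem haA 2) ha2
      have : (b : G) * a ^ 2 * (b : G)⁻¹ = a ^ 2 := by
        rw [pow_two]
        nth_rewrite 1 [← hb']
        group
      rw [this]
      exact A.pow_mem haA 2)
  have ha1 : a ≠ 1 := by rintro rfl; simp at ha2
  have hBN : B ≤ normalizer (A : Set G) := by
    intro b hb
    have h1 : a * b * a⁻¹ = b := congrArg Subtype.val (key ⟨b, hb⟩)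
    apply ti_mem_normalizer hti haA ha1
    have : b * a * b⁻¹ = a := by
      nth_rewrite 1 [← h1]
      group
    rwa [this]
  exact Cfsg.Agent.S1757.result 2 A B hA2 hB2 hti (ti_map_conj hti g) (card_map_conj A g).ge hAB hBN

end Cfsg.Agent.S1781
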