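import Cfsg.Statements.S1784
import Cfsg.Agent.H9.Extra
import Cfsg.Agent.H7.FStar

set_option autoImplicit false
open Cfsg

namespace Cfsg.Agent.S1784

open Subgroup Cfsg.Agent.H9

/-- Let G be a finite group and let z be an involution of G such that Q, the generalized Fitting subgroup of the centralizer C of z, is a 2-group of symplectic type (every characteristic abelian subgroup of Q is cyclic); suppose Q is extraspecial, and view Q inside G. Let α be an involution of C that is not in Q, and let Q₀ be the subgroup of those q ∈ Q whose commutator with α lies in the subgroup generated by z. Then (a) the subgroup generated by the commutators α q α⁻¹ q⁻¹, q ∈ Q, equals the centre of Q₀; and (b) if Q₀ is not contained in the product of the centralizer of α in Q with the subgroup generated by z, then some element of Q conjugates α to α z. -/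
theorem result {G : Type*} [Group G] [Finite G] (z : G) (hz : orderOf z = 2) (hQ : Cfsg.IsOfSymplecticType ↥(Cfsg.generalizedFittingSubgroup ↥(Subgroup.centralizer ({z} : Set G)))) (hE : Cfsg.IsExtraspecial 2 ↥(Cfsg.generalizedFittingSubgroup ↥(Subgroup.centralizer ({z} : Set G))))
    (α : G) (hα : orderOf α = 2) (hαC : α ∈ Subgroup.centralizer ({z} : Set G)) (hαQ : α ∉ (Cfsg.generalizedFittingSubgroup ↥(Subgroup.centralizer ({z} : Set G))).map (Subgroup.centralizer ({z} : Set G)).subtype)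
    (Q₀ : Subgroup G) (hQ₀ : ∀ q : G, q ∈ Q₀ ↔ (q ∈ (Cfsg.generalizedFittingSubgroup ↥(Subgroup.centralizer ({z} : Set G))).map (Subgroup.centralizer ({z} : Set G)).subtype ∧ α * q * α⁻¹ * q⁻¹ ∈ Subgroup.zpowers z)) :
    Subgroup.closure ((fun q : G => α * q * α⁻¹ * q⁻¹) '' ((Cfsg.generalizedFittingSubgroup ↥(Subgroup.centralizer ({z} : Set G))).map (Subgroup.centralizer ({z} : Set G)).subtype : Set G)) = (Subgroup.center ↥Q₀).map Q₀.subtype ∧
      (¬ Q₀ ≤ ((Cfsg.generalizedFittingSubgroup ↥(Subgroup.centralizer ({z} : Set G))).map (Subgroup.centralizer ({z} : Set G)).subtype ⊓ Subgroup.centralizer ({α} : Set G)) ⊔ Subgroup.zpowers z →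
        ∃ q ∈ (Cfsg.generalizedFittingSubgroup ↥(Subgroup.centralizer ({z} : Set G))).map (Subgroup.centralizer ({z} : Set G)).subtype, q * α * q⁻¹ = α * z) := by
  obtain ⟨z', hE'⟩ := exists_es_of_isExtraspecial hE
  replace hE' := hE'.map (centralizer ({z} : Set G)).subtype_injective
  have hN := Cfsg.Agent.H7.le_normalizer_fstarOf (centralizer ({z} : Set G))
  have hC := Cfsg.Agent.H7.inf_centralizer_fstarOf_le (centralizer ({z} : Set G))
  have hle := Cfsg.Agent.H7.fstarOf_le (centralizer ({z} : Set G))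
  rw [Cfsg.Agent.H7.fstarOf_def] at hN hC hle
  generalize (Cfsg.generalizedFittingSubgroup ↥(centralizer ({z} : Set G))).map
      (centralizer ({z} : Set G)).subtype = Q at *
  have hzc : ∀ q ∈ Q, q * z = z * q := fun q hq => mem_centralizer_singleton_iff.mp (hle hq)
  have h : ES Q z := hE'.eq_of_central (hC ⟨mem_centralizer_singleton_iff.mpr rfl, hzc⟩)
    (ne_one_of_orderOf_two hz) hzc
  have hα2 := mul_self_of_orderOf_two hα
  have hαi := inv_eq_of_orderOf_two hα
  have hαN := hN hαC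
  have hcj : ∀ q ∈ Q, α * q * α⁻¹ ∈ Q := fun q hq => conj_mem_of_mem_normalizer hαN hq
  have hαα : ∀ q, α * (α * q * α⁻¹) * α⁻¹ = q := fun q => by
    calc α * (α * q * α⁻¹) * α⁻¹ = (α * α) * q * (α * α)⁻¹ := by group
      _ = q := by rw [hα2]; group
  have hcc : ∀ x y, (α * x * α⁻¹) * y = y * (α * x * α⁻¹) ↔
      x * (α * y * α⁻¹) = (α * y * α⁻¹) * x := by
    intro x y
    rw [← (MulAut.conj α).injective.eq_iff]
    simp only [map_mul (MulAut.conj α) _ y, map_mul (MulAut.conj α) y, MulAut.conj_apply, hαα]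
  have hinv : ∀ x y : G, x * y⁻¹ = y⁻¹ * x ↔ x * y = y * x := fun x y => Commute.inv_right_iff
  have hkey : ∀ w ∈ Q, ∀ q ∈ Q, (w * (α * q * α⁻¹ * q⁻¹) = α * q * α⁻¹ * q⁻¹ * w ↔
      q * (α * w * α⁻¹ * w⁻¹) = α * w * α⁻¹ * w⁻¹ * q) := by
    intro w hw q hq
    rw [h.comm_mul_iff hw (hcj q hq) (inv_mem hq), h.comm_mul_iff hq (hcj w hw) (inv_mem hw),
      hinv, hinv, ← hcc, eq_comm, eq_comm (a := w * q), eq_comm (a := q * (α * w * α⁻¹))]
  refine ⟨?_, fun hn => ?_⟩
  · apply le_antisymm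
    · rw [closure_le]
      rintro _ ⟨q, hq, rfl⟩
      have hcQ : α * q * α⁻¹ * q⁻¹ ∈ Q := mul_mem (hcj q hq) (inv_mem hq)
      refine mem_center_map_subtype.mpr ⟨(hQ₀ _).mpr ⟨hcQ, ?_⟩, fun y hy => ?_⟩
      · have e : α * (α * q * α⁻¹ * q⁻¹) * α⁻¹ = (α * q * α⁻¹ * q⁻¹)⁻¹ := by
          calc α * (α * q * α⁻¹ * q⁻¹) * α⁻¹ = α * (α * q * α⁻¹) * α⁻¹ * (α * q⁻¹ * α⁻¹) := by group
            _ = _ := by rw [hαα]; group
        show α * (α * q * α⁻¹ * q⁻¹) * α⁻¹ * (α * q * α⁻¹ * q⁻¹)⁻¹ ∈ _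
        rw [e, mem_zpowers_of_mul_self h.sq]
        exact h.sq_eq (inv_mem hcQ)
      · obtain ⟨hy1, hy2⟩ := (hQ₀ y).mp hy
        show y * (α * q * α⁻¹ * q⁻¹) = α * q * α⁻¹ * q⁻¹ * y
        rw [hkey y hy1 q hq]
        rcases (mem_zpowers_of_mul_self h.sq).mp hy2 with h1 | h1 <;> rw [h1]
        · simp
        · exact h.cz q hq
    · intro x hx
      obtain ⟨hx1, hx2⟩ := mem_center_map_subtype.mp hx
      have hB : closure ((fun q : G => α * q * α⁻¹ * q⁻¹) '' (Q : Set G)) ≤ Q := by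
        rw [closure_le]
        rintro _ ⟨q, hq, rfl⟩
        exact mul_mem (hcj q hq) (inv_mem hq)
      have hmem : ∀ q ∈ Q, α * q * α⁻¹ * q⁻¹ ∈
          closure ((fun q : G => α * q * α⁻¹ * q⁻¹) '' (Q : Set G)) :=
        fun q hq => subset_closure ⟨q, hq, rfl⟩
      refine h.mem_of_comm hB ?_ ((hQ₀ x).mp hx1).1 fun w hw hwc => hx2 w ((hQ₀ w).mpr ⟨hw, ?_⟩)
      · obtain ⟨q, hq, hne⟩ : ∃ q ∈ Q, α * q * α⁻¹ * q⁻¹ ≠ 1 := by
          by_contra hc
          push Not at hc
          apply hαQ (hC ⟨hαC, fun q hq => ?_⟩)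
          rw [← one_mul (q * α), ← hc q hq]; group
        by_cases h1 : α * q * α⁻¹ * q⁻¹ = z
        · exact h1 ▸ hmem q hq
        · obtain ⟨r, hr, hr'⟩ := h.exists_conj_eq_mul (hB (hmem q hq)) hne h1
          have := mul_mem (inv_mem (hmem q hq)) (mul_mem (inv_mem (hmem r hr))
            (hmem _ (mul_mem hr hq)))
          rw [show (α * r * α⁻¹ * r⁻¹)⁻¹ * (α * (r * q) * α⁻¹ * (r * q)⁻¹) =
            r * (α * q * α⁻¹ * q⁻¹) * r⁻¹ by group, hr', inv_mul_cancel_left] at this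
          exact this
      · rw [mem_zpowers_of_mul_self h.sq]
        exact h.center _ (mul_mem (hcj w hw) (inv_mem hw)) fun q hq =>
          (hkey w hw q hq).mp (hwc _ (hmem q hq))
  · obtain ⟨q, hq, hq'⟩ := SetLike.not_le_iff_exists.mp hn
    obtain ⟨h1, h2⟩ := (hQ₀ q).mp hq
    refine ⟨q, h1, ?_⟩
    rcases (mem_zpowers_of_mul_self h.sq).mp h2 with h3 | h3
    · refine absurd (mem_sup_left (mem_inf.mpr ⟨h1, mem_centralizer_singleton_iff.mpr ?_⟩)) hq'
      rw [← one_mul (q * α), ← h3]; group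
    · rw [← h3, ← mul_assoc, ← mul_assoc, ← mul_assoc, hα2, one_mul, hαi]

end Cfsg.Agent.S1784
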