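import Cfsg.Statements.S1785
import Cfsg.Agent.H8.Graph

set_option autoImplicit false
open Cfsg

namespace Cfsg.Agent.S1785

open Subgroup Cfsg.Agent.H8 Cfsg.Agent.L0

theorem not_le {X : Type*} [Group X] [Finite X] (hX : IsPGroup 2 X) {E A : Subgroup X} [E.Normal]
    (hE : IsElementaryAbelian 2 E) (hE32 : 32 ≤ Nat.card E) (hA : IsElementaryAbelian 2 A)
    (hA8 : Nat.card A ≤ 8) : ¬ E ⊓ centralizer (A : Set X) ≤ A := by
  haveI : Fact (Nat.Prime 2) := ⟨Nat.prime_two⟩
  intro h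
  obtain ⟨j, hj⟩ := (hX.to_subgroup A).index ((A ⊓ E).subgroupOf A)
  have h1 := card_eq_of_relIndex (inf_le_left : A ⊓ E ≤ A) hj
  have h2 := card_inf_centralizer_le_pow hE hA le_normalizer_of_normal inf_le_left h1
  rw [inf_eq_left.mpr (le_centralizer_of_comm (elemAb_comm hE) (inf_le_right : A ⊓ E ≤ E))] at h2
  have h3 := h2.trans (Nat.pow_le_pow_left (card_le_of_le (le_inf h inf_le_left)) _)
  obtain ⟨i, hi⟩ := IsPGroup.iff_card.mp (hX.to_subgroup (A ⊓ E))
  rw [hi] at h1 h3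
  rw [h1, ← pow_add] at hA8
  have h4 : i + j ≤ 3 := (Nat.pow_le_pow_iff_right (by norm_num : 1 < 2)).mp hA8
  have h5 := hE32.trans h3
  have hi3 : i ≤ 3 := by omega
  have hj3 : j ≤ 3 := by omega
  interval_cases i <;> interval_cases j <;> omega

/-- Let X be a finite 2-group having a normal elementary abelian subgroup of order at least 32. Then (a) for any two elementary abelian subgroups A, B of X of order 8 there is a chain A = A₁, A₂, …, Aₙ = B of elementary abelian subgroups of order 8 in which consecutive members commute elementwise; and (b) every elementary abelian subgroup of X of order 4 is contained in an elementary abelian subgroup of order 8. -/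
theorem result {X : Type*} [Group X] [Finite X]
    (hX : IsPGroup 2 X) (E : Subgroup X) [E.Normal] (hE : Cfsg.IsElementaryAbelian 2 E) (hE32 : 32 ≤ Nat.card ↥E) :
    (∀ A B : Subgroup X, Cfsg.IsElementaryAbelian 2 A → Nat.card ↥A = 8 → Cfsg.IsElementaryAbelian 2 B → Nat.card ↥B = 8 →
        Relation.ReflTransGen
          (fun C D : Subgroup X => Cfsg.IsElementaryAbelian 2 C ∧ Nat.card ↥C = 8 ∧ Cfsg.IsElementaryAbelian 2 D ∧ Nat.card ↥D = 8 ∧ ⁅C, D⁆ = ⊥)
          A B) ∧
      (∀ V : Subgroup X, Cfsg.IsElementaryAbelian 2 V → Nat.card ↥V = 4 →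
        ∃ A : Subgroup X, V ≤ A ∧ Cfsg.IsElementaryAbelian 2 A ∧ Nat.card ↥A = 8) := by
  haveI : Fact (Nat.Prime 2) := ⟨Nat.prime_two⟩
  have hex : ∀ A : Subgroup X, IsElementaryAbelian 2 A → Nat.card A ≤ 8 →
      ∃ e ∈ E, e ∉ A ∧ ∀ B, B ≤ A → IsElementaryAbelian 2 (B ⊔ zpowers e) ∧
        Nat.card ↥(B ⊔ zpowers e) = Nat.card B * 2 ∧ ⁅A, B ⊔ zpowers e⁆ = ⊥ := by
    intro A hA hA8
    obtain ⟨e, he, heA⟩ := SetLike.not_le_iff_exists.mp (not_le hX hE hE32 hA hA8)
    refine ⟨e, he.1, heA, fun B hB => ⟨?_, ?_, ?_⟩⟩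
    · exact elemAb_sup (elemAb_mono hA hB) (elemAb_zpowers (hE.2 e he.1))
        fun a ha b hb => zpowers_le_of_mem he.2 hb a (hB ha)
    · exact H5.card_sup_zpowers (centralizer_le_normalizer _ (centralizer_le hB he.2))
        (fun h => heA (hB h)) (by rw [hE.2 e he.1]; exact one_mem _)
    · rw [commutator_comm, commutator_eq_bot_iff_le_centralizer]
      exact sup_le (hB.trans (le_centralizer_of_comm (elemAb_comm hA) le_rfl))
        (zpowers_le_of_mem he.2)
  refine ⟨?_, fun V hV hV4 => ?_⟩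
  swap
  · obtain ⟨e, -, -, h⟩ := hex V hV (by omega)
    exact ⟨_, le_sup_left, (h V le_rfl).1, by rw [(h V le_rfl).2.1, hV4]⟩
  set R := fun C D : Subgroup X => IsElementaryAbelian 2 C ∧ Nat.card ↥C = 8 ∧
    IsElementaryAbelian 2 D ∧ Nat.card ↥D = 8 ∧ ⁅C, D⁆ = ⊥ with hR
  have hsymm : ∀ C D, Relation.ReflTransGen R C D → Relation.ReflTransGen R D C := by
    intro C D h
    induction h with
    | refl => exact Relation.ReflTransGen.refl
    | tail _ h ih =>
      exact Relation.ReflTransGen.head ⟨h.2.2.1, h.2.2.2.1, h.1, h.2.1,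
        by rw [commutator_comm]; exact h.2.2.2.2⟩ ih
  obtain ⟨E₀, hE₀, hE₀c⟩ := exists_le_card (m := 3) (elemAb_pgroup hE) (by omega)
  have key : ∀ A : Subgroup X, IsElementaryAbelian 2 A → Nat.card A = 8 →
      Relation.ReflTransGen R A E₀ := by
    intro A hA hA8
    induction hn : 8 - Nat.card ↥(A ⊓ E) using Nat.strong_induction_on generalizing A with
    | _ n ih =>
    by_cases hAE : A ≤ E
    · exact Relation.ReflTransGen.single ⟨hA, hA8, elemAb_mono hE hE₀, hE₀c,
        commutator_eq_bot_iff_le_centralizer.mpr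
          (hAE.trans (le_centralizer_of_comm (elemAb_comm hE) hE₀))⟩
    have hlt : A ⊓ E < A := inf_lt_left.mpr hAE
    obtain ⟨D, hD1, hD2, hD3⟩ := exists_hyperplane_ge (elemAb_pgroup hA) hlt
    have hDc := card_eq_of_relIndex hD2 hD3
    obtain ⟨e, he, heA, h⟩ := hex A hA hA8.le
    obtain ⟨h1, h2, h3⟩ := h D hD2
    refine Relation.ReflTransGen.head ⟨hA, hA8, h1, by omega, h3⟩ (ih _ ?_ _ h1 (by omega) rfl)
    have h4 : A ⊓ E < (D ⊔ zpowers e) ⊓ E :=
      lt_of_le_of_ne (le_inf (hD1.trans le_sup_left) inf_le_right) fun h5 =>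
        heA (h5.ge ⟨mem_sup_right (mem_zpowers e), he⟩).1
    have h5 := card_lt_of_lt h4
    have h6 := card_lt_of_lt hlt
    omega
  exact fun A B h1 h2 h3 h4 => (key A h1 h2).trans (hsymm _ _ (key B h3 h4))

end Cfsg.Agent.S1785
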