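import Cfsg.Statements.S1786
import Cfsg.Agent.H8.TIset3
import Cfsg.Agent.H7.FStar

set_option autoImplicit false
open Cfsg

namespace Cfsg.Agent.S1786

open Subgroup Cfsg.Agent.H8 Cfsg.Agent.L0

/-- Let G be a finite group, V an elementary abelian 2-subgroup of G and M the normalizer of V; write Q for the largest normal 2-subgroup of M. Suppose (1) the generalized Fitting subgroup of M equals Q; (2) V is a maximal abelian normal subgroup of M; (3) every conjugate of V equals V or meets V trivially, and for some g ∈ G the conjugate V' = g V g⁻¹ is different from V and contained in Q. Let P be the centralizer of V in Q, W the subgroup generated by V and V', and H the subgroup generated by P and g P g⁻¹. Then: (a) V is contained in g Q g⁻¹; (b) every non-identity element of W lies in exactly one conjugate of V contained in W, H normalizes W, and H modulo the centralizer of W in H is isomorphic to the special linear group of dimension 2 over the field with |V| elements; (c) P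 = Q, and V equals the Frattini subgroup, the centre and the commutator subgroup of Q. -/
theorem result {G : Type*} [Group G] [Finite G] (V : Subgroup G)
    (hV : Cfsg.IsElementaryAbelian 2 V)
    (h1 : (Cfsg.generalizedFittingSubgroup ↥(Subgroup.normalizer (V : Set G))).map (Subgroup.normalizer (V : Set G)).subtype =
      (Cfsg.pCore 2 ↥(Subgroup.normalizer (V : Set G))).map (Subgroup.normalizer (V : Set G)).subtype)
    (h2 : ∀ A : Subgroup G, V ≤ A → A ≤ Subgroup.normalizer (V : Set G) → IsMulCommutative ↥A →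
      (∀ m ∈ Subgroup.normalizer (V : Set G), ∀ a ∈ A, m * a * m⁻¹ ∈ A) → A = V)
    (hti : ∀ x : G, V.map (MulAut.conj x).toMonoidHom = V ∨ V.map (MulAut.conj x).toMonoidHom ⊓ V = ⊥)
    (g : G) (hg : V.map (MulAut.conj g).toMonoidHom ≠ V)
    (hgQ : V.map (MulAut.conj g).toMonoidHom ≤ (Cfsg.pCore 2 ↥(Subgroup.normalizer (V : Set G))).map (Subgroup.normalizer (V : Set G)).subtype) :
    let Q : Subgroup G := (Cfsg.pCore 2 ↥(Subgroup.normalizer (V : Set G))).map (Subgroup.normalizer (V : Set G)).subtype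
    let P : Subgroup G := Q ⊓ Subgroup.centralizer (V : Set G)
    let W : Subgroup G := V ⊔ V.map (MulAut.conj g).toMonoidHom
    let H : Subgroup G := P ⊔ P.map (MulAut.conj g).toMonoidHom
    V ≤ Q.map (MulAut.conj g).toMonoidHom ∧
      (∀ w ∈ W, w ≠ 1 → ∃! U : Subgroup G, (∃ x : G, U = V.map (MulAut.conj x).toMonoidHom) ∧ U ≤ W ∧ w ∈ U) ∧
      H ≤ Subgroup.normalizer (W : Set G) ∧
      (∀ hN : ((Subgroup.centralizer (W : Set G)).subgroupOf H).Normal, ∃ (F : Type) (_ : Field F) (_ : Fintype F), Fintype.card F = Nat.card ↥V ∧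
        Nonempty (↥H ⧸ (Subgroup.centralizer (W : Set G)).subgroupOf H ≃* Matrix.SpecialLinearGroup (Fin 2) F)) ∧
      P = Q ∧ (frattini ↥Q).map Q.subtype = V ∧ (Subgroup.center ↥Q).map Q.subtype = V ∧ (commutator ↥Q).map Q.subtype = V := by
  intro Q P W H
  have hyp : TIHyp V := by
    refine ⟨fun v hv => by rw [← pow_two]; exact hV.2 v hv, ?_, fun A a1 a2 a3 a4 =>
      h2 A a1 a2 (H9.isMulCommutative_of_comm a3) fun m hm a ha =>
        conj_mem_of_le_normalizer a4 hm ha, hti⟩
    have := H7.inf_centralizer_fstarOf_le (normalizer (V : Set G))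
    rw [H7.fstarOf_def, h1] at this
    exact this
  have hp : TIPair V (cj g V) := ⟨hyp, ⟨g, rfl⟩, hg,
    le_inf hgQ (hyp.le_cent_of_le_normalizer hg (hgQ.trans (map_subtype_le _)))⟩
  have hH : H = tiP V ⊔ tiP (cj g V) := by rw [← cj_tiP]
  have hPQ : P = Q := hp.tiP_eq
  have hPQ' : tiP V = Q := hPQ
  refine ⟨?_, fun w hw h1 => ?_, ?_, fun hN => ?_, hPQ, ?_, ?_, ?_⟩
  · have := hp.symm.le.trans inf_le_left
    rwa [← cj_normalizer, ← cj_Op'] at this
  · rcases hp.mem_or_exists hw with hv | ⟨c, hc, hwc⟩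
    · refine ⟨V, ⟨⟨1, (cj_one V).symm⟩, le_sup_left, hv⟩, ?_⟩
      rintro _ ⟨⟨x, rfl⟩, -, hx⟩
      exact hyp.eq_of_mem hx hv h1
    · refine ⟨cj c (cj g V), ⟨⟨c * g, (cj_mul c g V).symm⟩,
        cj_le_of_mem_normalizer (hp.tiP_le_normalizer_sup hc) le_sup_right, hwc⟩, ?_⟩
      rintro _ ⟨⟨x, rfl⟩, -, hx⟩
      rw [← cj_mul] at hwc ⊢
      exact hyp.cj_eq_of_mem hx hwc h1
  · rw [hH]
    refine sup_le hp.tiP_le_normalizer_sup ?_
    have := hp.symm.tiP_le_normalizer_sup
    rwa [sup_comm] at this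
  · obtain ⟨A, _, e, hc, h1⟩ := hp.exists_coord
    obtain ⟨F, iF, iF', hcard, f, hf, hker⟩ := hc.exists_hom hp h1
    refine ⟨F, iF, iF', hcard, ?_⟩
    clear_value H
    subst hH
    exact ⟨(QuotientGroup.quotientMulEquivOfEq hker.symm).trans
      (QuotientGroup.quotientKerEquivOfSurjective f hf)⟩
  · refine le_antisymm (H9.map_frattini_le_of_sq_mem fun a ha => hyp.sq_mem (hPQ' ▸ ha))
      fun v hv => ?_
    obtain ⟨⟨x, hx⟩, hx1⟩ := ne_bot_iff_exists_ne_one.1 hp.ne_botU
    obtain ⟨y, hy, e⟩ := hp.exists_conj_eq_mul hx (fun e => hx1 (Subtype.ext e)) hv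
    have := H9.comm_mem_map_frattini (map_pCore_isPGroup (p := 2) (normalizer (V : Set G)))
      (inv_mem (hp.le hx).1) hy.1
    rwa [show x⁻¹ * y * x⁻¹⁻¹ * y⁻¹ = x⁻¹ * (y * x * y⁻¹) by group, e, inv_mul_cancel_left] at this
  · ext z
    rw [H9.mem_center_map_subtype, ← hPQ']
    exact ⟨fun h => hyp.mem_of_central h.1 h.2, fun h => ⟨hyp.le_tiP h, fun y hy =>
      (tiP_comm hy h).symm⟩⟩
  · rw [commutator_def, map_commutator, ← MonoidHom.range_eq_map, range_subtype, ← hPQ']
    refine le_antisymm (commutator_le.2 fun a ha b hb => hyp.comm_mem ha hb) fun v hv => ?_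
    obtain ⟨⟨x, hx⟩, hx1⟩ := ne_bot_iff_exists_ne_one.1 hp.ne_botU
    obtain ⟨y, hy, e⟩ := hp.exists_conj_eq_mul hx (fun e => hx1 (Subtype.ext e)) hv
    have := commutator_mem_commutator ((tiP V).inv_mem (hp.le hx)) hy
    rwa [commutatorElement_def, show x⁻¹ * y * x⁻¹⁻¹ * y⁻¹ = x⁻¹ * (y * x * y⁻¹) by group, e,
      inv_mul_cancel_left] at this

end Cfsg.Agent.S1786
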