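import Cfsg.Statements.S3104
import Cfsg.Agent.S3103
import Cfsg.Agent.H8.A8b
-- import your own Cfsg.Agent.* helpers here

set_option autoImplicit false
open Cfsg

namespace Cfsg.Agent.S3104

/-- Let X be a finite nonsolvable 2-constrained group with no nontrivial normal subgroup of odd order such that O₂(X) has sectional 2-rank at most 4, and write Q for X/O₂(X). Then Q is isomorphic to the projective special linear group of dimension 3 over the field with 2 elements, to an alternating group of degree n with 5 ≤ n ≤ 8, to a symmetric group of degree n with 5 ≤ n ≤ 7, or else O₃(Q) has order 3 and Q/O₃(Q) is isomorphic to the alternating or the symmetric group of degree 5 (so Q is the direct product of a group of order 3 with the alternating group of degree 5, or an extension of that direct product by a group of order 2). If moreover X itself has sectional 2-rank at most 4, then Q is not isomorphic to the symmetric group of degree 6 or 7 nor to the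 alternating group of degree 8. -/
theorem result {X : Type*} [Group X] [Finite X] (hns : ¬ Group.IsSolvable X) (hc : Cfsg.IsPConstrained 2 X) (hO : Cfsg.oddCore X = ⊥)
    (h4 : Cfsg.SectionalPRankLE 2 4 ↥(Cfsg.pCore 2 X)) :
    ((∃ (F : Type) (_ : Field F) (_ : Fintype F), Fintype.card F = 2 ∧
          Nonempty (X ⧸ Cfsg.pCore 2 X ≃* Matrix.ProjectiveSpecialLinearGroup (Fin 3) F)) ∨
        (∃ n : ℕ, 5 ≤ n ∧ n ≤ 8 ∧ Nonempty (X ⧸ Cfsg.pCore 2 X ≃* ↥(alternatingGroup (Fin n)))) ∨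
        (∃ n : ℕ, 5 ≤ n ∧ n ≤ 7 ∧ Nonempty (X ⧸ Cfsg.pCore 2 X ≃* Equiv.Perm (Fin n))) ∨
        (Nat.card ↥(Cfsg.pCore 3 (X ⧸ Cfsg.pCore 2 X)) = 3 ∧
          (Nonempty ((X ⧸ Cfsg.pCore 2 X) ⧸ Cfsg.pCore 3 (X ⧸ Cfsg.pCore 2 X) ≃* ↥(alternatingGroup (Fin 5))) ∨
            Nonempty ((X ⧸ Cfsg.pCore 2 X) ⧸ Cfsg.pCore 3 (X ⧸ Cfsg.pCore 2 X) ≃* Equiv.Perm (Fin 5))))) ∧
      (Cfsg.SectionalPRankLE 2 4 X →
        ¬ (Nonempty (X ⧸ Cfsg.pCore 2 X ≃* Equiv.Perm (Fin 6)) ∨ Nonempty (X ⧸ Cfsg.pCore 2 X ≃* Equiv.Perm (Fin 7)) ∨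
            Nonempty (X ⧸ Cfsg.pCore 2 X ≃* ↥(alternatingGroup (Fin 8))))) := by
  obtain ⟨f, hf⟩ := S3103.result hc hO h4
  have h1 : ¬ Group.IsSolvable (X ⧸ pCore 2 X) := fun a => hns ((Group.isSolvable_iff_subgroup_quotient (pCore 2 X)).2
    ⟨H8.solvable_of_pgroup L0.pCore_isPGroup, a⟩)
  refine ⟨(H8.A8.classify f hf h1 L0.pCore_quotient_pCore).imp (fun e => ⟨ZMod 2, inferInstance, inferInstance, rfl, e⟩) id,
    fun hr h => ?_⟩
  obtain ⟨Y, _, _, π, h1, h2, h3⟩ := H8.A8.ex_of (H5.centralizer_pCore_le_of_isPConstrained hc hO) hr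
  rcases h with ⟨⟨e⟩⟩ | ⟨⟨e⟩⟩ | ⟨⟨e⟩⟩
  · exact h1.s6 h3 h2 e
  · have : IsSimpleGroup (alternatingGroup (Fin 8)) := alternatingGroup.isSimpleGroup (by simp)
    have a := f.range.index_mul_card
    rw [← Nat.card_congr (MonoidHom.ofInjective hf).toEquiv, Nat.card_congr e.toEquiv, Nat.card_perm, H8.A8.cA] at a
    have b := H8.A8.idx6 (M := f.range) (by rw [H8.A8.cA]; norm_num) fun c => by
      rw [c, Subgroup.index_top] at a; simp [Nat.factorial] at a
    simp [Nat.factorial] at a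
    omega
  · exact h1.a8 h3 h2 e

end Cfsg.Agent.S3104
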