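import Cfsg.Statements.S3105
import Cfsg.Agent.H4.R3h

set_option autoImplicit false
open Cfsg

namespace Cfsg.Agent.S3105

/-- Let X be a finite nonsolvable 2-constrained group with no nontrivial normal subgroup of odd order and of sectional 2-rank at most 4, and suppose X/O₂(X) is isomorphic to the projective special linear group of dimension 3 over the field with 2 elements. Then O₂(X) is elementary abelian of order 8 or 16, or is isomorphic to the direct product of a cyclic group of order 4 and an elementary abelian group of order 8. -/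
theorem result {X : Type*} [Group X] [Finite X] (hns : ¬ Group.IsSolvable X) (hc : Cfsg.IsPConstrained 2 X) (hO : Cfsg.oddCore X = ⊥)
    (h4 : Cfsg.SectionalPRankLE 2 4 X) {F : Type*} [Field F] [Fintype F] (hF : Fintype.card F = 2)
    (hQ : Nonempty (X ⧸ Cfsg.pCore 2 X ≃* Matrix.ProjectiveSpecialLinearGroup (Fin 3) F)) :
    (Cfsg.IsElementaryAbelian 2 (Cfsg.pCore 2 X) ∧ (Nat.card ↥(Cfsg.pCore 2 X) = 8 ∨ Nat.card ↥(Cfsg.pCore 2 X) = 16)) ∨
      Nonempty (↥(Cfsg.pCore 2 X) ≃* Multiplicative (ZMod 4) × (Fin 3 → Multiplicative (ZMod 2))) := by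
  obtain ⟨e⟩ := hQ
  have := Fact.mk Nat.prime_two
  have := H1.SLn.isSimpleGroup_PSL (ι := Fin 3) (F := F) (Or.inl (by simp))
  have := e.isSimpleGroup
  obtain ⟨σ, h⟩ := H4.R3.hy_of L0.pCore_isPGroup (H4.R4.sr_of h4) ((Nat.card_congr e.toEquiv).trans (H4.R3.card_psl hF))
  exact (H4.R3.final h ((L0.isPConstrained_iff_of_pPrimeCore_eq_bot hO).1 hc)).imp_left fun k =>
    ⟨H9.isElementaryAbelian_two_iff.2 fun a ha => (pow_two a).trans (k.1 a ha), k.2⟩

end Cfsg.Agent.S3105
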