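import Cfsg.Statements.S3109
import Cfsg.Agent.H8.Dich3
import Cfsg.Agent.BS.SEMain

set_option autoImplicit false
open Cfsg

namespace Cfsg.Agent.S3109

/-- Let G be a non-abelian finite simple group in which every 2-local subgroup is 2-constrained, and suppose some Sylow 2-subgroup S of G has a self-centralizing abelian normal subgroup A (C_S(A) = A) of 2-rank at least 3. Then the centralizer of every involution of G has no nontrivial normal subgroup of odd order. -/
theorem result {G : Type*} [Group G] [Finite G] [IsSimpleGroup G] (hG : ¬ IsMulCommutative G)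
    (h2c : ∀ T : Subgroup G, IsPGroup 2 T → T ≠ ⊥ → Cfsg.IsPConstrained 2 ↥(Subgroup.normalizer (T : Set G)))
    (S : Sylow 2 G) (A : Subgroup ↥(S : Subgroup G)) (hAn : A.Normal) (hAab : IsMulCommutative ↥A)
    (hAC : Subgroup.centralizer (A : Set ↥(S : Subgroup G)) = A) (hA3 : ¬ Cfsg.PRankLE 2 2 ↥A) :
    ∀ t : G, orderOf t = 2 → Cfsg.centralizerPPrimeCore 2 t = ⊥ := by
  exact Cfsg.Agent.H8.Dich.cores_of_constrained Cfsg.Agent.BS.bs0 hG h2c S A hA3

end Cfsg.Agent.S3109
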