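import Cfsg.Statements.S3110
import Cfsg.Agent.H8.SFT4
import Cfsg.Agent.FT.Main

set_option autoImplicit false
open Cfsg

namespace Cfsg.Agent.S3110

open Subgroup Cfsg.Agent.H8 Cfsg.Agent.L0

/-- Let G be a finite group in which every 2-local subgroup is 2-constrained and some Sylow 2-subgroup has a self-centralizing abelian normal subgroup of 2-rank at least 3, and let S be any Sylow 2-subgroup of G. Then there is a subgroup W of G of odd order such that, for every subgroup B of S of 2-rank at least 2, W is generated by the largest normal odd-order subgroups O(C_G(b)) of the centralizers of the non-identity elements b of B, and W is normalized by the normalizer of every such B. -/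
theorem result {G : Type*} [Group G] [Finite G]
    (h2c : ∀ T : Subgroup G, IsPGroup 2 T → T ≠ ⊥ → Cfsg.IsPConstrained 2 ↥(Subgroup.normalizer (T : Set G)))
    (S : Sylow 2 G) (A : Subgroup ↥(S : Subgroup G)) (hAn : A.Normal) (hAab : IsMulCommutative ↥A)
    (hAC : Subgroup.centralizer (A : Set ↥(S : Subgroup G)) = A) (hA3 : ¬ Cfsg.PRankLE 2 2 ↥A) (S' : Sylow 2 G) :
    ∃ W : Subgroup G, Odd (Nat.card ↥W) ∧
      ∀ B : Subgroup G, B ≤ (S' : Subgroup G) → ¬ Cfsg.PRankLE 2 1 ↥B →
        W = (⨆ b : {b : G // b ∈ B ∧ b ≠ 1}, Cfsg.centralizerPPrimeCore 2 (b : G)) ∧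
        Subgroup.normalizer (B : Set G) ≤ Subgroup.normalizer (W : Set G) := by
  haveI : Fact (Nat.Prime 2) := Nat.fact_prime_two
  obtain ⟨F, hFA, hF, hF3⟩ := not_prankLE_iff.mp hA3
  let A' := A.map (S : Subgroup G).subtype
  have hA' : IsMulCommutative A' := by
    haveI := hAab
    infer_instance
  have hSA : (S : Subgroup G) ≤ normalizer (A' : Set G) := by
    have h := map_le_normalizer_map (A := ⊤) (K := A) le_normalizer_of_normal
      (S : Subgroup G).subtype
    rwa [← MonoidHom.range_eq_map, range_subtype] at h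
  obtain ⟨g, -, hg⟩ := (isSylowIn_top S).exists_cj_eq (isSylowIn_top S')
  have hE := H4.isElementaryAbelian_omegaOne (p := 2) hA'
  obtain ⟨W, h1, h2⟩ := SF.exists_core_closure (fun G _ _ h => FT.odd_solvable h)
    (fun t ht => SF.normalizer_zp_two ht ▸ h2c (zpowers t)
      (SF.pgroup_zpowers_of_pow (by rw [← ht]; exact pow_orderOf_eq_one t))
      (by rw [Ne, zpowers_eq_bot]; rintro rfl; simp at ht))
    (S := S') (E := cj g (omegaOne 2 A')) S'.2
    (hg ▸ cj_mono g ((H4.omegaOne_le _).trans (map_subtype_le _)))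
    (by
      rw [← cj_normalizer, ← hg]
      exact cj_mono g (hSA.trans (H4.normalizer_le_normalizer_omegaOne A')))
    (elemAb_cj hE g)
    (by
      rw [card_cj]
      refine le_trans ?_ (card_le_of_le (H4.le_omegaOne (map_mono hFA)
        fun a ha => elemAb_pow (elemAb_map hF _) ha))
      rwa [card_map_subtype])
  refine ⟨W, h1, fun B hB hB2 => ⟨h2 B hB hB2, fun x hx => mem_normalizer_of_cj_le ?_⟩⟩
  rw [h2 B hB hB2]
  refine (SF.cj_closure_le fun a _ _ => ?_).trans (by rw [cj_eq_self hx])
  rw [SF.cj_Opp', cj_centralizer_singleton]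

end Cfsg.Agent.S3110
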