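import Cfsg.Statements.S3116
import Cfsg.Agent.H9.Basic

set_option autoImplicit false
open Cfsg

namespace Cfsg.Agent.S3116

open Cfsg.Agent.H9 Subgroup

theorem aut_isPGroup {X : Type*} [Group X] [Finite X] (h2 : IsPGroup 2 X) (x : X)
    (hi : (zpowers x).index = 2) (ho : ∀ y, y ∉ zpowers x → orderOf y ≠ orderOf x) :
    IsPGroup 2 (MulAut X) := by
  classical
  have hC : ∀ σ : MulAut X, ∀ y ∈ zpowers x, σ y ∈ zpowers x := by
    rintro σ _ ⟨n, rfl⟩
    rw [map_zpow]
    apply zpow_mem
    by_contra h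
    exact ho _ h (σ.orderOf_eq x)
  obtain ⟨m, hm⟩ := IsPGroup.iff_card.1 (h2.to_subgroup (zpowers x))
  rw [IsPGroup.iff_card]
  refine ⟨_, Nat.eq_prime_pow_of_unique_prime_dvd Nat.card_pos.ne' ?_⟩
  intro r hr hrd
  by_contra hr2
  haveI : Fact r.Prime := ⟨hr⟩
  obtain ⟨σ, hσ⟩ := exists_prime_orderOf_dvd_card' r hrd
  have hσ1 : ∃ k, σ ^ r ^ k = 1 := ⟨1, by rw [pow_one, ← hσ, pow_orderOf_eq_one]⟩
  have hnd : ∀ k, ¬ r ∣ 2 ^ k := fun k h =>
    hr2 ((Nat.prime_dvd_prime_iff_eq hr Nat.prime_two).1 (hr.dvd_of_dvd_pow h))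
  -- a fixed point outside
  obtain ⟨y, hy, hy'⟩ := exists_aut_fixed_of_not_dvd hσ1 ((zpowers x : Set X)ᶜ) (fun y hy h => by
      apply hy
      have := hC σ⁻¹ _ h
      simpa using this) (by
      have h1 : Nat.card ((zpowers x : Set X)ᶜ : Set X) = Nat.card X - Nat.card (zpowers x) := by
        rw [Nat.card_coe_set_eq, Set.ncard_compl]; rfl
      have h3 := (zpowers x).card_mul_index
      rw [h1, ← h3, hi, hm]
      have : 2 ^ m * 2 - 2 ^ m = 2 ^ m := by omega
      rw [this]
      exact hnd m)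
  -- the fixed points in the cyclic subgroup
  have hx : σ x = x := by
    by_contra hne
    let F : Subgroup X := (zpowers x) ⊓ MonoidHom.eqLocus σ.toMonoidHom (MonoidHom.id X)
    have hsq : zpowers (x ^ 2) ≤ zpowers x := zpowers_le.2 (pow_mem (mem_zpowers x) 2)
    have hx2 : x ∉ zpowers (x ^ 2) := by
      intro h
      have hx1 : x ≠ 1 := by rintro rfl; simp at hne
      have := (mem_zpowers_pow_iff.1 h)
      have h3 := h2.dvd_orderOf hx1
      rw [Nat.gcd_eq_left h3] at this
      exact absurd this (by norm_num)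
    have hcard : Nat.card (zpowers (x ^ 2)) * 2 = Nat.card (zpowers x) := by
      have hx1 : x ≠ 1 := by rintro rfl; simp at hne
      rw [Nat.card_zpowers, Nat.card_zpowers, orderOf_pow' x two_ne_zero,
        Nat.gcd_eq_right (h2.dvd_orderOf hx1), Nat.div_mul_cancel (h2.dvd_orderOf hx1)]
    obtain ⟨w, hw, hw'⟩ := exists_aut_fixed_of_not_dvd hσ1
      ((zpowers x : Set X) \ (zpowers (x ^ 2) : Set X)) (fun w hw => ⟨hC σ w hw.1, fun h => by
        apply hw.2
        obtain ⟨n, hn⟩ := h
        obtain ⟨l, hl⟩ := hC σ⁻¹ x (mem_zpowers x)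
        refine ⟨l * n, ?_⟩
        have : w = σ⁻¹ (σ w) := by simp
        simp only at hn hl ⊢
        rw [this, ← hn, map_zpow, map_pow, ← hl, ← zpow_natCast, ← zpow_natCast, ← zpow_mul,
          ← zpow_mul, ← zpow_mul]
        congr 1; ring⟩) (by
        rw [Nat.card_coe_set_eq, Set.ncard_sdiff hsq]
        have e1 : (zpowers x : Set X).ncard = Nat.card (zpowers x) := rfl
        have e2 : (zpowers (x ^ 2) : Set X).ncard = Nat.card (zpowers (x ^ 2)) := rfl
        rw [e1, e2, ← hcard]
        have : Nat.card (zpowers (x ^ 2)) * 2 - Nat.card (zpowers (x ^ 2)) =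
          Nat.card (zpowers (x ^ 2)) := by omega
        rw [this]
        obtain ⟨l, hl⟩ := IsPGroup.iff_card.1 (h2.to_subgroup (zpowers (x ^ 2)))
        rw [hl]
        exact hnd l)
    -- `w` generates
    have hxw : x ∈ zpowers w := by
      obtain ⟨⟨n, hn⟩, hw2⟩ := hw
      simp only at hn
      have hodd : Odd n := by
        rw [← Int.not_even_iff_odd]
        rintro ⟨l, rfl⟩
        apply hw2
        refine ⟨l, ?_⟩
        simp only
        rw [← hn, ← zpow_natCast, ← zpow_mul]; congr 1; ring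
      rw [← hn, mem_zpowers_zpow_iff]
      obtain ⟨l, hl⟩ := IsPGroup.iff_orderOf.1 h2 x
      rw [hl, ← Int.isCoprime_iff_gcd_eq_one]
      push_cast
      exact IsCoprime.pow_right (Int.isCoprime_two_right.2 hodd)
    obtain ⟨n, hn⟩ := hxw
    apply hne
    simp only at hn
    rw [← hn, map_zpow, hw']
  have hσ' : σ = 1 := by
    ext g
    have hz : ∀ u ∈ zpowers x, σ u = u := by
      rintro _ ⟨n, rfl⟩
      simp only
      rw [map_zpow, hx]
    by_cases hg : g ∈ zpowers x
    · exact hz g hg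
    · have : g * y⁻¹ ∈ zpowers x := by
        rw [mul_mem_iff_of_index_two hi, inv_mem_iff]
        exact iff_of_false hg hy
      have := hz _ this
      rw [map_mul, map_inv, hy'] at this
      exact mul_right_cancel this
  rw [hσ', orderOf_one] at hσ
  exact hr.one_lt.ne hσ

/-- The automorphism group of a dihedral 2-group of order at least 8, or of a quasi-dihedral (semidihedral) 2-group of order at least 16, is a 2-group. -/
theorem result {X : Type*} [Group X] [Finite X] (h2 : IsPGroup 2 X)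
    (h : (∃ n : ℕ, 4 ≤ n ∧ Nonempty (X ≃* DihedralGroup n)) ∨ Cfsg.IsQuasiDihedral X) : IsPGroup 2 (MulAut X) := by
  rcases h with ⟨n, hn, ⟨e⟩⟩ | ⟨n, hn, hc, x, y, hx, hy, hxy⟩
  · haveI : NeZero n := ⟨by omega⟩
    have ho : orderOf (e.symm (DihedralGroup.r 1)) = n := by
      rw [MulEquiv.orderOf_eq, DihedralGroup.orderOf_r_one]
    refine aut_isPGroup h2 (e.symm (DihedralGroup.r 1)) ?_ ?_
    · have h1 := (zpowers (e.symm (DihedralGroup.r 1))).card_mul_index
      rw [Nat.card_zpowers, ho, Nat.card_congr e.toEquiv, DihedralGroup.nat_card] at h1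
      exact Nat.eq_of_mul_eq_mul_left (by omega : 0 < n) (by rw [h1, mul_comm])
    · intro y hy
      obtain ⟨z, rfl⟩ := e.symm.surjective y
      rw [ho, MulEquiv.orderOf_eq]
      rcases z with i | i
      · exfalso
        apply hy
        refine ⟨(i.val : ℤ), ?_⟩
        simp only
        rw [← map_zpow, DihedralGroup.r_one_zpow]
        simp
      · rw [DihedralGroup.orderOf_sr]; omega
  · have hi : (zpowers x).index = 2 := by
      have h1 := (zpowers x).card_mul_index
      rw [Nat.card_zpowers, hx, hc, pow_succ] at h1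
      exact Nat.eq_of_mul_eq_mul_left (by positivity) h1
    obtain ⟨m, rfl⟩ : ∃ m, n = m + 3 := ⟨n - 3, by omega⟩
    have hxy' : y * x * y⁻¹ = x ^ ((4 * 2 ^ m - 1 : ℤ)) := by
      rw [hxy, ← zpow_natCast]
      congr 1
      have : m + 3 - 1 = m + 2 := by omega
      rw [this, Nat.cast_sub Nat.one_le_two_pow]
      push_cast; ring
    have hpos : (1 : ℤ) ≤ 2 ^ m := one_le_pow₀ (by norm_num)
    have hyx : y ∉ zpowers x := by
      rintro ⟨k, rfl⟩
      simp only at hxy'
      have : x ^ (1 : ℤ) = x ^ (4 * 2 ^ m - 1 : ℤ) := by rw [← hxy']; group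
      rw [zpow_eq_zpow_iff_modEq, hx] at this
      have h3 := this.dvd
      push_cast at h3
      have h4 := Int.le_of_dvd (by omega) h3
      rw [pow_add] at h4
      omega
    refine aut_isPGroup h2 x hi ?_
    intro u hu
    have : y⁻¹ * u ∈ zpowers x := by
      rw [mul_mem_iff_of_index_two hi, inv_mem_iff]
      exact iff_of_false hyx hu
    obtain ⟨k, hk⟩ := this
    simp only at hk
    have hu' : u = y * x ^ k := by rw [hk]; group
    have hy2 : y * y = 1 := by rw [← pow_two, ← hy, pow_orderOf_eq_one]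
    have h4 : u ^ 4 = 1 := by
      have e1 : u ^ 2 = x ^ (4 * 2 ^ m * k) := by
        have : u ^ 2 = (y * x * y⁻¹) ^ k * (y * y) * x ^ k := by
          rw [hu', conj_zpow, pow_two]; group
        rw [this, hy2, hxy', ← zpow_mul, mul_one, ← zpow_add]
        congr 1; ring
      have : u ^ 4 = (u ^ 2) ^ 2 := by rw [← pow_mul]
      rw [this, e1, ← zpow_natCast, ← zpow_mul, ← orderOf_dvd_iff_zpow_eq_one, hx]
      exact ⟨k, by push_cast; ring⟩
    have h5 := Nat.le_of_dvd (by norm_num) (orderOf_dvd_of_pow_eq_one h4)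
    rw [hx, pow_add]
    have : 1 ≤ 2 ^ m := Nat.one_le_two_pow
    omega

end Cfsg.Agent.S3116
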