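import Cfsg.Statements.S3117
import Cfsg.Agent.H1.Singer
import Cfsg.Agent.H1.SingInv
import Cfsg.Agent.H1.Squares
import Cfsg.Agent.H8.PxQ
import Cfsg.Agent.L0.Char5
import Cfsg.Agent.H5.PBasic

set_option autoImplicit false
open Cfsg

namespace Cfsg.Agent.S3117

open scoped commutatorElement
open Cfsg.Agent.H1 Finset

section deg
variable {V : Type*} [CommGroup V]

/-- polynomial functions of degree `< n` -/
def Deg : ℕ → (V → ZMod 2) → Prop
  | 0, f => ∀ x, f x = 0
  | n + 1, f => ∀ a, Deg n fun x => f (x * a) + f x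

theorem Deg.add : ∀ {n : ℕ} {f g : V → ZMod 2}, Deg n f → Deg n g → Deg n fun x => f x + g x
  | 0, f, g, hf, hg => fun x => by simp [hf x, hg x]
  | n + 1, f, g, hf, hg => fun a => by
    have := (hf a).add (hg a)
    convert this using 2; ring

theorem Deg.shift : ∀ {n : ℕ} {f : V → ZMod 2}, Deg n f → ∀ b, Deg n fun x => f (x * b)
  | 0, f, hf, b => fun x => hf _
  | n + 1, f, hf, b => fun a => by
    have := (hf a).shift b
    convert this using 4; rw [mul_right_comm]

theorem deg_zero : ∀ (n : ℕ) {f : V → ZMod 2}, (∀ x, f x = 0) → Deg n f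
  | 0, _, hf => hf
  | n + 1, f, hf => fun a => deg_zero n fun x => by simp [hf]

theorem Deg.mul : ∀ (k m n : ℕ) {f g : V → ZMod 2}, m + n = k + 1 → Deg m f → Deg n g →
    Deg k fun x => f x * g x
  | k, 0, n, f, g, _, hf, _ => deg_zero k fun x => by rw [hf x, zero_mul]
  | k, m + 1, 0, f, g, _, _, hg => deg_zero k fun x => by rw [hg x, mul_zero]
  | 0, m + 1, n + 1, f, g, h, _, _ => by omega
  | k + 1, m + 1, n + 1, f, g, h, hf, hg => fun a => by
    have h1 := Deg.mul k m (n + 1) (by omega) (hf a) (hg.shift a)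
    have h2 := Deg.mul k (m + 1) n (by omega) hf (hg a)
    convert h1.add h2 using 2
    rename_i x
    have : (2 : ZMod 2) = 0 := rfl
    linear_combination (- f x * g (x * a)) * this

open Classical in
theorem Deg.sum [Fintype V] (hV : IsPGroup 2 V) : ∀ (n : ℕ) {f : V → ZMod 2}, Deg n f →
    ∀ H : Subgroup V, Nat.card H = 2 ^ n → ∑ x ∈ univ.filter (· ∈ H), f x = 0
  | 0, f, hf, H, _ => by simp [show ∀ x, f x = 0 from hf]
  | n + 1, f, hf, H, hH => by
    obtain ⟨H', hle, hc⟩ := Sylow.exists_subgroup_le_card_pow_prime_of_le_card (n := n) Nat.prime_two hV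
      (H := H) (by rw [hH]; exact Nat.pow_le_pow_right (by norm_num) (Nat.le_succ n))
    obtain ⟨a, ha, ha'⟩ : ∃ a ∈ H, a ∉ H' := by
      by_contra hne
      push Not at hne
      have := Subgroup.card_le_of_le (show H ≤ H' from hne)
      rw [hH, hc, pow_succ] at this
      have := Nat.two_pow_pos n
      omega
    have hd : Disjoint (univ.filter (· ∈ H')) ((univ.filter (· ∈ H')).image (· * a)) := by
      rw [disjoint_left]
      intro x hx hx'
      obtain ⟨y, hy, rfl⟩ := mem_image.mp hx'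
      rw [mem_filter_univ] at hx hy
      exact ha' ((H'.mul_mem_cancel_left hy).mp hx)
    have cH : ∀ K : Subgroup V, (univ.filter (· ∈ K)).card = Nat.card K := fun K => by
      rw [Nat.card_eq_fintype_card, Fintype.card_subtype]
    have hu : univ.filter (· ∈ H') ∪ (univ.filter (· ∈ H')).image (· * a) = univ.filter (· ∈ H) := by
      apply eq_of_subset_of_card_le
      · intro x hx
        rw [mem_filter_univ]
        rcases mem_union.mp hx with h | h
        · exact hle (by simpa using h)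
        · obtain ⟨y, hy, rfl⟩ := mem_image.mp h
          exact mul_mem (hle (by simpa using hy)) ha
      · rw [card_union_of_disjoint hd, card_image_of_injective _ (mul_left_injective a), cH, cH, hH, hc]
        omega
    rw [← hu, sum_union hd, sum_image (fun x _ y _ h => mul_left_injective a h), add_comm,
      ← sum_add_distrib]
    exact Deg.sum hV n (hf a) H' hc

end deg

theorem count_mod {V : Type*} [Fintype V] [DecidableEq V] {r : ℕ} (hr : r.Prime) (β : V → V)
    (hβ : ∀ x, β^[r] x = x) (P : V → Prop) [DecidablePred P] (hP : ∀ x, P x → P (β x)) :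
    (univ.filter P).card % r = (univ.filter fun x => P x ∧ β x = x).card % r := by
  haveI := Fact.mk hr
  let f : Function.End {x // P x} := fun x => ⟨β x, hP _ x.2⟩
  have hf : ∀ k x, ((f ^ k) x : V) = β^[k] x := fun k x => by
    induction k with
    | zero => rfl
    | succ k ih => rw [pow_succ', Function.iterate_succ_apply', ← ih]; rfl
  have := Equiv.Perm.card_fixedPoints_modEq (f := f) (p := r) (n := 1)
    (funext fun x => Subtype.ext (by rw [pow_one, hf, hβ]; rfl))
  rw [← Fintype.card_subtype, ← Fintype.card_subtype, this]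
  congr 1
  exact Fintype.card_congr
    { toFun := fun x => ⟨x.1.1, x.1.2, congrArg Subtype.val x.2⟩
      invFun := fun x => ⟨⟨x.1, x.2.1⟩, Subtype.ext x.2.2⟩
      left_inv := fun _ => rfl
      right_inv := fun _ => rfl }

structure Act {X : Type*} [Group X] (r : ℕ) (α : X →* X) : Prop where
  pw : ∀ x, α^[r] x = x
  ne : ∃ x, α x ≠ x
  fx : ∀ x, x * x = 1 → α x = x

def Bad (X : Type*) [Group X] : Prop :=
  (∃ r, ∃ α : X →* X, r.Prime ∧ r ≠ 2 ∧ r ≠ 3 ∧ r ≠ 5 ∧ Act r α) ∨
    ((∃ α : X →* X, Act 3 α) ∧ ∃ α : X →* X, Act 5 α)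

theorem fix_of {X : Type*} [Group X] (hX : IsPGroup 2 X) {r : ℕ} (hr : Odd r) {α : X →* X}
    (pw : ∀ x, α^[r] x = x) {x : X} (h : α (x⁻¹ * α x) = x⁻¹ * α x) : α x = x := by
  set c := x⁻¹ * α x with hc
  have e : ∀ k, α^[k] x = x * c ^ k := fun k => by
    induction k with
    | zero => simp
    | succ k ih => rw [Function.iterate_succ_apply', ih, map_mul, map_pow, h, pow_succ', ← mul_assoc, hc,
        mul_inv_cancel_left]
  have e1 : c ^ r = 1 := by simpa [pw] using (e r).symm
  obtain ⟨k, hk⟩ := hX c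
  have : orderOf c ∣ Nat.gcd r (2 ^ k) := Nat.dvd_gcd (orderOf_dvd_of_pow_eq_one e1)
    (orderOf_dvd_of_pow_eq_one hk)
  rw [(Nat.Coprime.pow_right k (Nat.coprime_two_right.mpr hr) : Nat.Coprime r (2 ^ k)), Nat.dvd_one,
    orderOf_eq_one_iff, hc, inv_mul_eq_one] at this
  exact this.symm

theorem Bad.restrict {X : Type*} [Group X] [Finite X] (H : Subgroup X)
    (hinv : ∀ α : MulAut X, ∀ x ∈ H, α x ∈ H)
    (hf : ∀ r (α : MulAut X), Odd r → (∀ x, α^[r] x = x) → (∀ x ∈ H, α x = x) → ∀ x, α x = x)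
    (h : Bad X) : Bad H := by
  have key : ∀ r (α : X →* X), Odd r → Act r α → ∃ β : H →* H, Act r β := by
    intro r α hr h
    obtain ⟨k, rfl⟩ := hr
    let a : MulAut X := MulEquiv.ofBijective α (Finite.injective_iff_bijective.mp
      (Function.LeftInverse.injective (g := α^[2 * k]) h.pw))
    let β : H →* H := (α.comp H.subtype).codRestrict H (fun x => hinv a x x.2)
    have e : ∀ j (x : H), (β^[j] x : X) = α^[j] x := fun j x => by
      induction j with
      | zero => rfl
      | succ j ih => rw [Function.iterate_succ_apply', Function.iterate_succ_apply', ← ih]; rfl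
    refine ⟨β, fun x => Subtype.ext ((e _ x).trans (h.pw x)), ?_,
      fun x hx => Subtype.ext (h.fx x (congrArg Subtype.val hx))⟩
    by_contra hne
    push Not at hne
    obtain ⟨x, hx⟩ := h.ne
    exact hx (hf _ a ⟨k, rfl⟩ h.pw (fun x hx => congrArg Subtype.val (hne ⟨x, hx⟩)) x)
  rcases h with ⟨r, α, h1, h2, h3, h4, h5⟩ | ⟨⟨α, ha⟩, β, hb⟩
  · obtain ⟨β, hb⟩ := key r α (h1.odd_of_ne_two h2) h5
    exact Or.inl ⟨r, β, h1, h2, h3, h4, hb⟩
  · exact Or.inr ⟨key 3 α (by decide) ha, key 5 β (by decide) hb⟩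

structure Three {X : Type*} [Group X] (z t : X) : Prop where
  z1 : z ≠ 1
  t1 : t ≠ 1
  zt : z ≠ t
  iff : ∀ x, x * x = 1 ↔ x = 1 ∨ x = z ∨ x = t ∨ x = z * t

theorem core {E : Type*} [Group E] [Finite E] (hE : IsPGroup 2 E) {z t : E} (h : Three z t)
    (hc : ∀ x : E, x * x = 1 → x ∈ Subgroup.center E) (h4 : ∀ x : E, x * x * (x * x) = 1)
    (hcm : ∀ x y : E, ⁅x, y⁆ * ⁅x, y⁆ = 1) : ¬ Bad E := by
  classical
  let I : Subgroup E :=
    { carrier := {x | x * x = 1}
      mul_mem' := fun {a b} ha hb => by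
        change a * b * (a * b) = 1
        rw [mul_assoc, ← mul_assoc b, ← Subgroup.mem_center_iff.mp (hc b hb) a, mul_assoc,
          show b * b = 1 from hb, mul_one, show a * a = 1 from ha]
      one_mem' := mul_one 1
      inv_mem' := fun {a} ha => by
        change a⁻¹ * a⁻¹ = 1
        rw [← mul_inv_rev, show a * a = 1 from ha, inv_one] }
  haveI : I.Normal := ⟨fun u hu g => by
    rw [Subgroup.mem_center_iff.mp (hc u hu) g, mul_inv_cancel_right]; exact hu⟩
  have hVe : ∀ v : E ⧸ I, v * v = 1 := fun v => by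
    obtain ⟨x, rfl⟩ := QuotientGroup.mk_surjective v
    exact (QuotientGroup.eq_one_iff _).mpr (h4 x)
  letI : CommGroup (E ⧸ I) := { (inferInstance : Group (E ⧸ I)) with mul_comm := Squares.comm_of_sq hVe }
  have hV : IsPGroup 2 (E ⧸ I) := hE.to_quotient I
  letI := Fintype.ofFinite (E ⧸ I)
  let q : E ⧸ I → E := fun v => v.out * v.out
  have hq : ∀ x : E, q x = x * x := fun x => by
    obtain ⟨c, e⟩ := QuotientGroup.mk_out_eq_mul I x
    simp only [q, e]
    rw [mul_assoc, ← mul_assoc (c : E), ← Subgroup.mem_center_iff.mp (hc c c.2) x, mul_assoc,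
      show (c : E) * c = 1 from c.2, mul_one]
  have hq1 : ∀ v, q v = 1 ↔ v = 1 := fun v => by
    obtain ⟨x, rfl⟩ := QuotientGroup.mk_surjective v
    rw [hq, QuotientGroup.eq_one_iff]; rfl
  have hzz := (h.iff z).mpr (by simp)
  have htt := (h.iff t).mpr (by simp)
  have htz : t * z = z * t := Subgroup.mem_center_iff.mp (hc z hzz) t
  have n1 : z * t ≠ 1 := fun e => h.zt (mul_left_cancel (hzz.trans e.symm))
  have n2 : z * t ≠ z := fun e => h.t1 (by simpa using e)
  have n3 : z * t ≠ t := fun e => h.z1 (by simpa using e)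
  have m1 : z * (z * t) = t := by rw [← mul_assoc, hzz, one_mul]
  have m2 : t * (z * t) = z := by rw [← mul_assoc, htz, mul_assoc, htt, mul_one]
  have m3 : z * t * z = t := by rw [mul_assoc, htz, m1]
  have m4 : z * t * t = z := by rw [mul_assoc, htt, mul_one]
  have m5 : z * t * (z * t) = 1 := (h.iff _).mpr (by simp)
  let lam : E → E → ZMod 2 := fun w y => if y = 1 ∨ y = w then 0 else 1
  have hz1 := h.z1
  have ht1 := h.t1
  have hzt := h.zt
  have ladd : ∀ w, (w = z ∨ w = t ∨ w = z * t) → ∀ y y', y * y = 1 → y' * y' = 1 →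
      lam w (y * y') = lam w y + lam w y' := by
    intro w hw y y' hy hy'
    rw [h.iff] at hy hy'
    have two : (1 : ZMod 2) + 1 = 0 := rfl
    rcases hw with rfl | rfl | rfl <;> rcases hy with rfl | rfl | rfl | rfl <;>
      rcases hy' with rfl | rfl | rfl | rfl <;>
      simp [lam, hzz, htt, htz, m1, m2, m3, m4, m5, n1, n2, n3, n2.symm, n3.symm, hz1, ht1, hzt,
        hzt.symm, two]
  have hcc : ∀ x y : E, ⁅x, y⁆ ∈ Subgroup.center E := fun x y => hc _ (hcm x y)
  have deg3 : ∀ w, (w = z ∨ w = t ∨ w = z * t) → Deg 3 fun v => lam w (q v) := by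
    intro w hw a b c x
    obtain ⟨a, rfl⟩ := QuotientGroup.mk_surjective a
    obtain ⟨b, rfl⟩ := QuotientGroup.mk_surjective b
    obtain ⟨c, rfl⟩ := QuotientGroup.mk_surjective c
    obtain ⟨x, rfl⟩ := QuotientGroup.mk_surjective x
    have e1 : ∀ x a : E, lam w (x * a * (x * a)) = lam w (x * x) + lam w (a * a) + lam w ⁅a, x⁆ := by
      intro x a
      rw [SingInv.sq_mul_of_comm (hcc _ _), ladd w hw _ _ (I.mul_mem (h4 x) (h4 a)) (hcm _ _),
        ladd w hw _ _ (h4 x) (h4 a)]
    have e2 : ∀ a x y : E, lam w ⁅a, x * y⁆ = lam w ⁅a, x⁆ + lam w ⁅a, y⁆ := by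
      intro a x y
      rw [Singer.comm_mul_right (hcc _ _), ladd w hw _ _ (hcm _ _) (hcm _ _)]
    simp only [← QuotientGroup.mk_mul, hq, e1, e2]
    generalize lam w = f
    grind
  -- at most sixteen elements
  have c16 : Nat.card (E ⧸ I) ≤ 16 := by
    by_contra hlt
    obtain ⟨m, hm⟩ := IsPGroup.iff_card.mp hV
    have : 2 ^ 5 ≤ Nat.card (E ⧸ I) := by
      rw [hm] at hlt ⊢
      apply Nat.pow_le_pow_right (by norm_num)
      by_contra h5
      have : 2 ^ m ≤ 2 ^ 4 := Nat.pow_le_pow_right (by norm_num) (by omega)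
      omega
    obtain ⟨H, hH⟩ := Sylow.exists_subgroup_card_pow_prime_of_le_card Nat.prime_two hV this
    have one : Deg 3 fun _ : E ⧸ I => (1 : ZMod 2) := fun a => deg_zero _ fun _ => rfl
    have := (Deg.mul 5 3 3 rfl ((deg3 z (by simp)).add one) ((deg3 t (by simp)).add one)).sum hV 5 H hH
    rw [sum_eq_single_of_mem 1 (by simp)] at this
    · simp [lam, (hq1 1).mpr rfl] at this
    · intro v _ hv
      obtain ⟨x, rfl⟩ := QuotientGroup.mk_surjective v
      have e1 := mt (hq1 _).mp hv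
      have e2 := (h.iff _).mp (h4 x)
      rw [← hq] at e2
      have two : (1 : ZMod 2) + 1 = 0 := rfl
      rcases e2 with e | e | e | e
      · exact absurd e e1
      all_goals simp [lam, e, hz1, ht1, hzt, hzt.symm, n1, n2, n3, two]
  -- counting
  let N : E → Subgroup (E ⧸ I) → ℕ := fun w H => (univ.filter fun v => v ∈ H ∧ lam w (q v) = 1).card
  have Neven : ∀ w, (w = z ∨ w = t ∨ w = z * t) → ∀ H : Subgroup (E ⧸ I),
      (Nat.card H = 8 ∨ Nat.card H = 16) → 2 ∣ N w H := by
    intro w hw H hH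
    have d4 : Deg 4 fun v => lam w (q v) := fun a => ((deg3 w hw).shift a).add (deg3 w hw)
    have : ∑ x ∈ univ.filter (· ∈ H), lam w (q x) = 0 := by
      rcases hH with e | e
      · exact (deg3 w hw).sum hV 3 H e
      · exact d4.sum hV 4 H e
    simp only [N]
    rw [← ZMod.natCast_eq_zero_iff, ← this, ← filter_filter, card_filter]
    push_cast
    exact sum_congr rfl fun x _ => (by decide : ∀ a : ZMod 2, (if a = 1 then 1 else 0) = a) _
  have cH : ∀ K : Subgroup (E ⧸ I), (univ.filter (· ∈ K)).card = Nat.card K := fun K => by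
    rw [Nat.card_eq_fintype_card, Fintype.card_subtype]
  have Nsum : ∀ H, N z H + N t H + N (z * t) H + 2 = 2 * Nat.card H := by
    intro H
    have : ∑ x ∈ univ.filter (· ∈ H), ((if lam z (q x) = 1 then 1 else 0) +
        (if lam t (q x) = 1 then 1 else 0) + (if lam (z * t) (q x) = 1 then 1 else 0) +
        (if x = 1 then 2 else 0)) = ∑ x ∈ univ.filter (· ∈ H), 2 := by
      refine sum_congr rfl fun v _ => ?_
      by_cases hv : v = 1
      · simp [lam, hv, (hq1 1).mpr rfl]
      obtain ⟨x, rfl⟩ := QuotientGroup.mk_surjective v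
      have e1 := mt (hq1 _).mp hv
      have e2 := (h.iff _).mp (h4 x)
      rw [← hq] at e2
      rcases e2 with e | e | e | e
      · exact absurd e e1
      all_goals simp [lam, e, hv, hz1, ht1, hzt, hzt.symm, n1, n2, n3, n2.symm, n3.symm]
    rw [sum_const, cH, sum_add_distrib, sum_add_distrib, sum_add_distrib, ← card_filter, ← card_filter,
      ← card_filter, filter_filter, filter_filter, filter_filter, sum_ite_eq', if_pos (by simp)] at this
    simp only [N]
    rw [this, smul_eq_mul, mul_comm]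
  have Nlt : ∀ w H, N w H < Nat.card H := by
    intro w H
    rw [← cH]
    refine card_lt_card ⟨fun v hv => by simp at hv ⊢; exact hv.1, fun hs => ?_⟩
    have := hs (show 1 ∈ univ.filter (· ∈ H) by simp)
    simp [lam, (hq1 1).mpr rfl] at this
  -- induced action
  have ind : ∀ r (α : E →* E), r.Prime → r ≠ 2 → Act r α → ∃ β : E ⧸ I →* E ⧸ I, (∀ v, β^[r] v = v) ∧
      (∀ v, q (β v) = q v) ∧ ∃ v, β (v⁻¹ * β v) ≠ v⁻¹ * β v := by
    intro r α hr hr2 ha
    let β : E ⧸ I →* E ⧸ I := QuotientGroup.map _ _ α (fun u hu => by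
      rw [Subgroup.mem_comap, ha.fx u hu]; exact hu)
    have hβ : ∀ u : E, β u = (α u : E) := fun u => rfl
    have hpw : ∀ v, β^[r] v = v := by
      intro u
      obtain ⟨u, rfl⟩ := QuotientGroup.mk_surjective u
      have : ∀ k, β^[k] (u : E ⧸ I) = (α^[k] u : E) := fun k => by
        induction k with
        | zero => rfl
        | succ k ih => rw [Function.iterate_succ_apply', Function.iterate_succ_apply', ih, hβ]
      rw [this, ha.pw]
    refine ⟨β, hpw, fun v => ?_, ?_⟩
    · obtain ⟨u, rfl⟩ := QuotientGroup.mk_surjective v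
      rw [hβ, hq, hq, ← map_mul, ha.fx _ (h4 u)]
    · by_contra hne
      push Not at hne
      obtain ⟨x, hx⟩ := ha.ne
      refine hx (fix_of hE (hr.odd_of_ne_two hr2) ha.pw (ha.fx _ ?_))
      have := fix_of hV (hr.odd_of_ne_two hr2) hpw (hne x)
      rw [hβ, eq_comm, QuotientGroup.eq] at this
      exact this
  have fixc : ∀ r (β : E ⧸ I →* E ⧸ I), r.Prime → (∀ v, β^[r] v = v) → (∀ v, q (β v) = q v) →
      ∀ H : Subgroup (E ⧸ I), (∀ v ∈ H, β v ∈ H) →
      Nat.card H % r = Nat.card ↥(H ⊓ SingInv.fixS β) % r ∧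
        ∀ w, N w H % r = N w (H ⊓ SingInv.fixS β) % r := by
    intro r β hr h1 h2 H hH
    constructor
    · rw [← cH, ← cH, count_mod hr β h1 (· ∈ H) hH]
      congr 2; ext v; simp [SingInv.mem_fixS]
    · intro w
      simp only [N]
      rw [count_mod hr β h1 (fun v => v ∈ H ∧ lam w (q v) = 1) (fun v hv => ⟨hH v hv.1, by rw [h2]; exact hv.2⟩)]
      congr 2; ext v; simp [SingInv.mem_fixS]; tauto
  have pw2 : ∀ H : Subgroup (E ⧸ I), Nat.card H = 1 ∨ Nat.card H = 2 ∨ Nat.card H = 4 ∨ Nat.card H = 8 ∨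
      Nat.card H = 16 := by
    intro H
    obtain ⟨m, hm⟩ := IsPGroup.iff_card.mp (hV.to_subgroup H)
    have h1 := (Subgroup.card_le_card_group H).trans c16
    rw [hm] at h1 ⊢
    have : m < 5 := by
      by_contra h5
      have : 2 ^ 5 ≤ 2 ^ m := Nat.pow_le_pow_right (by norm_num) (by omega)
      omega
    interval_cases m <;> simp
  have proper : ∀ (β : E ⧸ I →* E ⧸ I) (H : Subgroup (E ⧸ I)), (∃ v ∈ H, β v ≠ v) →
      Nat.card ↥(H ⊓ SingInv.fixS β) < Nat.card H := by
    rintro β H ⟨v, hv, hv'⟩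
    exact H8.card_lt_of_lt (lt_of_le_of_ne inf_le_left fun e => hv' (e.ge hv).2)
  have N0 : ∀ w (H : Subgroup (E ⧸ I)), Nat.card H = 1 → N w H = 0 := fun w H e => by
    have := Nlt w H; omega
  rintro (⟨r, α, h1, h2, h3, h5, ha⟩ | ⟨⟨α, ha⟩, α', ha'⟩)
  · obtain ⟨β, b1, b2, v, hv⟩ := ind r α h1 h2 ha
    let U := (SingInv.dl β).range
    have hU : ∀ u ∈ U, β u ∈ U := by
      rintro _ ⟨u, rfl⟩
      exact ⟨β u, by simp [SingInv.dl_apply]⟩
    obtain ⟨f1, f2⟩ := fixc r β h1 b1 b2 U hU
    have f3 := proper β U ⟨_, ⟨v, rfl⟩, hv⟩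
    have f4 := (Nat.modEq_iff_dvd' f3.le).mp f1.symm
    have f5 : r = 7 ∧ Nat.card U = 8 ∧ Nat.card ↥(U ⊓ SingInv.fixS β) = 1 := by
      have hr : ∀ k, k ∣ 2 * (3 * 5) → ¬ r ∣ k := by
        intro k hk hd
        rcases (Nat.Prime.dvd_mul h1).mp (hd.trans hk) with e | e
        · exact h2 ((Nat.prime_dvd_prime_iff_eq h1 (by norm_num)).mp e)
        rcases (Nat.Prime.dvd_mul h1).mp e with e | e
        · exact h3 ((Nat.prime_dvd_prime_iff_eq h1 (by norm_num)).mp e)
        · exact h5 ((Nat.prime_dvd_prime_iff_eq h1 (by norm_num)).mp e)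
      have hr7 : r ∣ 7 → r = 7 := (Nat.prime_dvd_prime_iff_eq h1 (by norm_num)).mp
      have e1 := Subgroup.card_eq_card_quotient_mul_card_subgroup (SingInv.dl β).ker
      rw [Nat.card_congr (QuotientGroup.quotientKerEquivRange _).toEquiv] at e1
      have e2 : Nat.card ↥(U ⊓ SingInv.fixS β) ≤ Nat.card (SingInv.dl β).ker :=
        Subgroup.card_le_of_le fun x hx => by
          rw [MonoidHom.mem_ker, SingInv.dl_apply, show β x = x from hx.2, inv_mul_cancel]
      have e3 : Nat.card U * Nat.card ↥(U ⊓ SingInv.fixS β) ≤ 16 :=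
        (Nat.mul_le_mul_left _ e2).trans (e1 ▸ c16)
      rcases pw2 U with a | a | a | a | a <;> rcases pw2 (U ⊓ SingInv.fixS β) with b | b | b | b | b <;>
        rw [a, b] at f3 f4 e3 <;>
        first | omega | exact ⟨hr7 f4, a, b⟩ | exact absurd f4 (hr _ (by decide))
    obtain ⟨rfl, a, b⟩ := f5
    have := Nsum U
    have k : ∀ w, (w = z ∨ w = t ∨ w = z * t) → N w U = 0 := fun w hw => by
      have := Neven w hw U (Or.inl a)
      have := f2 w
      have := N0 w _ b
      have := Nlt w U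
      omega
    rw [k z (by simp), k t (by simp), k (z * t) (by simp), a] at this
    omega
  · obtain ⟨β, b1, b2, v, hv⟩ := ind 3 α (by norm_num) (by norm_num) ha
    obtain ⟨γ, c1, c2, w, hw⟩ := ind 5 α' (by norm_num) (by norm_num) ha'
    obtain ⟨f1, f2⟩ := fixc 3 β (by norm_num) b1 b2 ⊤ (fun _ _ => trivial)
    obtain ⟨g1, g2⟩ := fixc 5 γ (by norm_num) c1 c2 ⊤ (fun _ _ => trivial)
    have f3 := proper β ⊤ ⟨_, trivial, hv⟩
    have g3 := proper γ ⊤ ⟨_, trivial, hw⟩
    have a : Nat.card (⊤ : Subgroup (E ⧸ I)) = 16 ∧ Nat.card ↥(⊤ ⊓ SingInv.fixS γ) = 1 := by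
      have := pw2 ⊤
      have := pw2 (⊤ ⊓ SingInv.fixS γ)
      omega
    have k : ∀ w, (w = z ∨ w = t ∨ w = z * t) → N w ⊤ = 0 ∨ N w ⊤ = 10 := fun w hw => by
      have := Neven w hw ⊤ (Or.inr a.1)
      have := g2 w
      have := N0 w _ a.2
      have := Nlt w ⊤
      omega
    have s1 := Nsum ⊤
    have s2 := Nsum (⊤ ⊓ SingInv.fixS β)
    have := k z (by simp)
    have := k t (by simp)
    have := k (z * t) (by simp)
    have := f2 z
    have := f2 t
    have := f2 (z * t)
    have := Nlt z (⊤ ⊓ SingInv.fixS β)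
    have := Nlt t (⊤ ⊓ SingInv.fixS β)
    have := Nlt (z * t) (⊤ ⊓ SingInv.fixS β)
    have := pw2 (⊤ ⊓ SingInv.fixS β)
    omega

theorem Three.sub {X : Type*} [Group X] {z t : X} (h : Three z t) (H : Subgroup X) (hz : z ∈ H) (ht : t ∈ H) :
    Three (⟨z, hz⟩ : H) ⟨t, ht⟩ :=
  ⟨fun e => h.z1 (congrArg Subtype.val e), fun e => h.t1 (congrArg Subtype.val e),
    fun e => h.zt (congrArg Subtype.val e), fun x => by
      simp only [Subtype.ext_iff]; exact h.iff x⟩

theorem fix_of_selfcent {X : Type*} [Group X] (hX : IsPGroup 2 X) (N : Subgroup X) [N.Normal]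
    (hN : Subgroup.centralizer (N : Set X) ≤ N) {r : ℕ} (hr : Odd r) {α : X →* X}
    (pw : ∀ x, α^[r] x = x) (h : ∀ x ∈ N, α x = x) (x : X) : α x = x := by
  refine fix_of hX hr pw (h _ (hN ?_))
  intro n hn
  have := h _ (Subgroup.Normal.conj_mem inferInstance n hn x)
  rw [map_mul, map_mul, map_inv, h n hn] at this
  calc n * (x⁻¹ * α x) = x⁻¹ * (x * n * x⁻¹) * α x := by group
    _ = _ := by rw [← this]; group

theorem central {X : Type*} [Group X] [Finite X] (hX : IsPGroup 2 X) {z t : X} (h : Three z t)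
    (hc : ∀ x : X, x * x = 1 → x ∈ Subgroup.center X) : ¬ Bad X := by
  obtain ⟨C, hC, h1, h2, h3⟩ := H8.exists_critical X hX
  have k1 : ∀ x ∈ C, ∀ y ∈ C, ∀ u ∈ C, u * ⁅x, y⁆ = ⁅x, y⁆ * u := fun x hx y _ u hu =>
    (h1 (Subgroup.commutator_mem_commutator hx (Subgroup.mem_top y))).2 u hu
  have k2 : ∀ x ∈ C, ∀ y ∈ C, ⁅x, y⁆ * ⁅x, y⁆ = 1 := fun x hx y hy => by
    have e := h2 x hx y hy
    rw [sq] at e
    calc ⁅x, y⁆ * ⁅x, y⁆ = ⁅x, y⁆ * x * x⁻¹ * ⁅x, y⁆ := by group
      _ = x * x * y * (x * x)⁻¹ * y⁻¹ := by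
        rw [← k1 x hx y hy x hx]; simp only [commutatorElement_def]; group
      _ = 1 := by rw [← e]; group
  have k3 : ∀ x ∈ C, ∀ y ∈ C, x * y * (x * y) = x * x * (y * y) * ⁅y, x⁆ := fun x hx y hy => by
    have := k1 y hy x hx _ (mul_mem hx (mul_mem hy hy))
    calc x * y * (x * y) = x * (⁅y, x⁆ * (x * (y * y))) * y⁻¹ * y * y⁻¹ * y := by
          simp only [commutatorElement_def]; group
      _ = _ := by rw [← this]; group
  let E : Subgroup X :=
    { carrier := {x | x ∈ C ∧ x * x * (x * x) = 1}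
      mul_mem' := fun {a b} ha hb => ⟨mul_mem ha.1 hb.1, by
        have e1 := Subgroup.mem_center_iff.mp (hc _ ha.2)
        have e2 := Subgroup.mem_center_iff.mp (hc _ hb.2)
        have e3 := k2 b hb.1 a ha.1
        have e4 := ha.2
        have e5 := hb.2
        rw [k3 a ha.1 b hb.1]
        generalize ⁅b, a⁆ = D at e3 ⊢
        generalize a * a = A at e1 e4 ⊢
        generalize b * b = B at e2 e5 ⊢
        calc A * B * D * (A * B * D) = A * (B * D * A) * B * D := by group
          _ = A * A * B * (D * B) * D := by rw [e1 (B * D)]; group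
          _ = (A * A) * (B * B) * (D * D) := by rw [e2 D]; group
          _ = 1 := by rw [e4, e5, e3]; simp⟩
      one_mem' := ⟨one_mem _, by simp⟩
      inv_mem' := fun {a} ha => ⟨inv_mem ha.1, by
        rw [← mul_inv_rev, ← mul_inv_rev, ha.2, inv_one]⟩ }
  have hI : ∀ x, x * x = 1 → x ∈ E := fun x hx =>
    ⟨h3 (fun y _ => Subgroup.mem_center_iff.mp (hc x hx) y), by rw [hx, mul_one]⟩
  have hCinv : ∀ α : MulAut X, ∀ x ∈ C, α x ∈ C := fun α x hx =>
    (Subgroup.characteristic_iff_le_comap.mp hC α) hx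
  intro hb
  refine core (hX.to_subgroup E) (h.sub E (hI z ((h.iff z).mpr (by simp))) (hI t ((h.iff t).mpr (by simp))))
    (fun x hx => Subgroup.mem_center_iff.mpr fun y => Subtype.ext
      (Subgroup.mem_center_iff.mp (hc x (congrArg Subtype.val hx)) y))
    (fun x => Subtype.ext x.2.2) (fun x y => Subtype.ext (k2 x x.2.1 y y.2.1)) (hb.restrict E ?_ ?_)
  · intro α x hx
    exact ⟨hCinv α x hx.1, by rw [← map_mul, ← map_mul, hx.2, map_one]⟩
  · intro r α hr pw hE
    refine fix_of_selfcent hX C h3 hr (α := α.toMonoidHom) pw fun x hx => ?_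
    obtain ⟨k, hk⟩ := hX x
    induction k generalizing x with
    | zero => rw [pow_zero, pow_one] at hk; rw [hk, map_one]
    | succ k ih =>
      have e := ih (x * x) (mul_mem hx hx) (by rw [← sq, ← pow_mul, ← pow_succ', hk])
      refine fix_of hX hr pw (hE _ ⟨mul_mem (inv_mem hx) (hCinv α x hx), ?_⟩)
      have hc' : x⁻¹ * α x ∈ C := mul_mem (inv_mem hx) (hCinv α x hx)
      have e1 := k3 x hx _ hc'
      rw [mul_inv_cancel_left, ← map_mul, show α (x * x) = x * x from e, mul_assoc (x * x), left_eq_mul,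
        mul_eq_one_iff_eq_inv] at e1
      change x⁻¹ * α x * (x⁻¹ * α x) * (x⁻¹ * α x * (x⁻¹ * α x)) = 1
      rw [e1, ← mul_inv_rev, k2 _ hc' x hx, inv_one]

theorem not_bad {X : Type*} [Group X] [Finite X] (hX : IsPGroup 2 X) {z t : X} (h : Three z t)
    (hz : z ∈ Subgroup.center X) : ¬ Bad X := by
  let N := Subgroup.centralizer {x : X | x * x = 1}
  have hI : ∀ x, x * x = 1 → x ∈ N := by
    intro x hx y hy
    have hz' := Subgroup.mem_center_iff.mp hz
    rcases (h.iff x).mp hx with rfl | rfl | rfl | rfl <;> rcases (h.iff y).mp hy with rfl | rfl | rfl | rfl <;>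
      simp [hz', ← mul_assoc] <;> simp [hz', mul_assoc]
  have hinv : ∀ α : MulAut X, ∀ x ∈ N, α x ∈ N := by
    intro α x hx y hy
    obtain ⟨y, rfl⟩ := α.surjective y
    rw [← map_mul, ← map_mul, hx y (α.injective (by rw [map_mul, map_one]; exact hy))]
  haveI : N.Normal := ⟨fun n hn g => hinv (MulAut.conj g) n hn⟩
  intro hb
  refine central (hX.to_subgroup N) (h.sub N (hI z ((h.iff z).mpr (by simp))) (hI t ((h.iff t).mpr (by simp))))
    (fun x hx => Subgroup.mem_center_iff.mpr fun y => Subtype.ext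
      (y.2 x (congrArg Subtype.val hx)).symm) (hb.restrict N hinv ?_)
  intro r α hr pw hN
  exact fix_of_selfcent hX N (Subgroup.centralizer_le hI) hr (α := α.toMonoidHom) pw hN


/-- If X is a finite 2-group containing exactly three involutions, then the automorphism group of X is solvable. -/
theorem result {X : Type*} [Group X] [Finite X] (h2 : IsPGroup 2 X) (h3 : Nat.card {x : X // orderOf x = 2} = 3) : Group.IsSolvable (MulAut X) := by
  classical
  have := Fintype.ofFinite X
  have c3 : (univ.filter fun x : X => orderOf x = 2).card = 3 := by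
    rw [← h3, Nat.card_eq_fintype_card, Fintype.card_subtype]
  haveI : Nontrivial X := by
    obtain ⟨x, hx⟩ := card_pos.mp (c3 ▸ (by norm_num : 0 < 3))
    exact ⟨x, 1, by rintro rfl; simp at hx⟩
  obtain ⟨z, -, hz, hzc⟩ := H5.exists_mem_center_of_normal h2 (N := ⊤) top_ne_bot
  obtain ⟨t, ht, htz⟩ := exists_mem_ne (c3 ▸ (by norm_num : 1 < 3)) z
  rw [mem_filter_univ] at ht
  have o2 : ∀ x : X, orderOf x = 2 ↔ x * x = 1 ∧ x ≠ 1 := fun x => by
    rw [orderOf_eq_prime_iff, sq]
  have hz' := (o2 z).mp hz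
  have ht' := (o2 t).mp ht
  have hzt : z * t * (z * t) = 1 := by
    rw [mul_assoc, ← mul_assoc t, Subgroup.mem_center_iff.mp hzc t, mul_assoc, ht'.1, mul_one, hz'.1]
  have h : Three z t := by
    refine ⟨hz'.2, ht'.2, htz.symm, fun x => ⟨fun hx => ?_, ?_⟩⟩
    · by_cases h1 : x = 1
      · exact Or.inl h1
      right
      have e : ({z, t, z * t} : Finset X) = univ.filter fun x : X => orderOf x = 2 := by
        apply eq_of_subset_of_card_le
        · intro y hy
          simp only [mem_insert, mem_singleton] at hy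
          rw [mem_filter_univ]
          rcases hy with rfl | rfl | rfl
          · exact hz
          · exact ht
          · exact (o2 _).mpr ⟨hzt, fun e => htz (mul_left_cancel (e.trans hz'.1.symm))⟩
        · rw [c3, card_eq_three.mpr ⟨_, _, _, htz.symm, fun e => ht'.2 (by simpa using e),
            fun e => hz'.2 (by simpa using e), rfl⟩]
      have : x ∈ univ.filter fun x : X => orderOf x = 2 := by simpa using (o2 x).mpr ⟨hx, h1⟩
      rw [← e] at this
      simpa using this
    · rintro (rfl | rfl | rfl | rfl)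
      · simp
      · exact hz'.1
      · exact ht'.1
      · exact hzt
  have nb := not_bad h2 h hzc
  let f : MulAut X →* Equiv.Perm {x : X // orderOf x = 2} := MonoidHom.mk'
    (fun α => α.toEquiv.subtypeEquiv fun x => (MulEquiv.orderOf_eq α x).symm ▸ Iff.rfl) fun _ _ => rfl
  haveI : Finite (MulAut X) := Finite.of_injective _ (DFunLike.coe_injective (F := X ≃* X))
  haveI : Group.IsSolvable (Equiv.Perm {x : X // orderOf x = 2}) :=
    L0.isSolvable_of_primes Nat.prime_two Nat.prime_three fun r hr hd => by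
      rw [Nat.card_perm, h3] at hd
      have := Nat.le_of_dvd (by norm_num) hd
      have := hr.two_le
      change r ∣ 6 at hd
      change r ≤ 6 at *
      interval_cases r <;> first | omega | (norm_num at hr)
  have act : ∀ r, r.Prime → r ∣ Nat.card f.ker → ∃ α : X →* X, Act r α := by
    intro r hr hd
    haveI := Fact.mk hr
    obtain ⟨α, hα⟩ := exists_prime_orderOf_dvd_card' r hd
    refine ⟨α.1.toMonoidHom, fun x => ?_, ?_, fun x hx => ?_⟩
    · have e1 : ∀ k, (α.1.toMonoidHom)^[k] x = (α.1 ^ k) x := fun k => by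
        induction k with
        | zero => rfl
        | succ k ih => rw [Function.iterate_succ_apply', ih, pow_succ', MulAut.mul_apply]; rfl
      rw [e1, ← hα, ← Subgroup.orderOf_coe, pow_orderOf_eq_one]; rfl
    · by_contra hne
      push Not at hne
      have : α = 1 := Subtype.ext (MulEquiv.ext hne)
      rw [this, orderOf_one] at hα
      exact hr.one_lt.ne hα
    · by_cases h1 : x = 1
      · rw [h1, map_one]
      exact congrArg Subtype.val (DFunLike.congr_fun α.2 ⟨x, (o2 x).mpr ⟨hx, h1⟩⟩)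
  haveI : Group.IsSolvable f.ker := by
    by_cases h3 : 3 ∣ Nat.card f.ker
    · refine L0.isSolvable_of_primes Nat.prime_two Nat.prime_three fun r hr hd => ?_
      by_contra hne
      push Not at hne
      by_cases h5 : r = 5
      · exact nb (Or.inr ⟨act 3 (by norm_num) h3, act 5 (by norm_num) (h5 ▸ hd)⟩)
      · obtain ⟨α, ha⟩ := act r hr hd
        exact nb (Or.inl ⟨r, α, hr, hne.1, hne.2, h5, ha⟩)
    · refine L0.isSolvable_of_primes Nat.prime_two Nat.prime_five fun r hr hd => ?_
      by_contra hne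
      push Not at hne
      obtain ⟨α, ha⟩ := act r hr hd
      exact nb (Or.inl ⟨r, α, hr, hne.1, fun e => h3 (e ▸ hd), hne.2, ha⟩)
  exact solvable_of_ker_le_range f.ker.subtype f (by rw [Subgroup.range_subtype])

end Cfsg.Agent.S3117
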