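import Cfsg.Statements.S3121
import Cfsg.Agent.WA.ZdM
import Cfsg.Agent.H7.FStar

set_option autoImplicit false
open Cfsg

namespace Cfsg.Agent.S3121

open Subgroup MulAction Cfsg.Agent.FT Cfsg.Agent.L0 Cfsg.Agent.H8 Cfsg.Agent.BS Cfsg.Agent.WA.Te Cfsg.Agent.WA.Zd
open scoped Pointwise commutatorElement

theorem inv_conj_pow_aux {G : Type*} [Group G] (x s : G) (n : ℕ) : (x⁻¹ * s * x) ^ n = x⁻¹ * s ^ n * x := by
  simpa using conj_pow (a := x⁻¹) (b := s) (i := n)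

/-- Let G be a finite group whose generalized Fitting subgroup F*(G) is a non-abelian simple group, let H be a tightly embedded subgroup of G and N its normalizer. If H^g ∩ N has odd order for every element g of G outside N, then either H is normal in G or F*(G) has a strongly embedded subgroup. -/
theorem result {G : Type*} [Group G] [Finite G]
    (hF : IsSimpleGroup ↥(Cfsg.generalizedFittingSubgroup G)) (hF' : ¬ IsMulCommutative ↥(Cfsg.generalizedFittingSubgroup G))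
    (H : Subgroup G) (hH : Cfsg.IsTightlyEmbedded H)
    (hodd : ∀ g : G, g ∉ Subgroup.normalizer (H : Set G) →
      Odd (Nat.card ↥(H.map (MulAut.conj g).toMonoidHom ⊓ Subgroup.normalizer (H : Set G)))) :
    H.Normal ∨ ∃ M : Subgroup ↥(Cfsg.generalizedFittingSubgroup G), Cfsg.IsStronglyEmbedded M := by
  refine or_iff_not_imp_left.2 fun hn => ?_
  set N := 𝐍(H) with hN
  have hfix : ∀ s g : G, s • (g : G ⧸ N) = g ↔ g⁻¹ * s * g ∈ N := fun s g => by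
    rw [MulAction.Quotient.smul_mk, eq_comm, QuotientGroup.eq, smul_eq_mul, mul_assoc]
  let 𝒮 : Set G := {s | (∃ n, s ^ 2 ^ n = 1) ∧ ∃ g : G, g⁻¹ * s * g ∈ H}
  have uq : ∀ s g x : G, (∃ n, s ^ 2 ^ n = 1) → s ≠ 1 → g⁻¹ * s * g ∈ H → x⁻¹ * s * x ∈ N → x⁻¹ * g ∈ N :=
    fun s g x h1 h2 h3 h4 => by
      by_contra h5
      obtain ⟨n, i⟩ := exists_invo_pow_of_two_elt h1 h2
      refine not_invo_of_odd (hodd _ h5) (s := x⁻¹ * s ^ n * x) ⟨⟨_, pow_mem h3 n, ?_⟩, ?_⟩ (i.conj' x)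
      · rw [inv_conj_pow_aux]; simp [mul_assoc]
      · exact inv_conj_pow_aux x s n ▸ pow_mem h4 n
  have fx : ∀ s ∈ 𝒮, s ≠ 1 → ∃! a : G ⧸ N, s • a = a := fun s ⟨h1, g, h3⟩ h2 =>
    ⟨g, (hfix s g).2 (le_normalizer h3), fun y hy => by
      obtain ⟨x, rfl⟩ := QuotientGroup.mk_surjective y
      exact QuotientGroup.eq.2 (uq s g x h1 h2 h3 ((hfix s x).1 hy))⟩
  obtain ⟨d0, hd0, i0⟩ := exists_invo_of_even hH.1
  have two : ∀ s : G, Invo s → ∃ n, s ^ 2 ^ n = 1 := fun s i => ⟨1, by rw [pow_one, sq, i.1]⟩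
  have cov : ∀ a : G ⧸ N, a ∈ Cov (G ⧸ N) {d | d ∈ 𝒮 ∧ Invo d} := fun a => by
    obtain ⟨g, rfl⟩ := QuotientGroup.mk_surjective a
    have m : g⁻¹ * (g * d0 * g⁻¹) * g ∈ H := by simpa [mul_assoc] using hd0
    exact ⟨g * d0 * g⁻¹, ⟨⟨two _ (i0.conj g), g, m⟩, i0.conj g⟩, (hfix _ g).2 (le_normalizer m)⟩
  have odd : ¬ 2 ∣ Nat.card (G ⧸ N) := by
    obtain ⟨a, ha, hu⟩ := fx d0 ⟨two _ i0, 1, by simpa using hd0⟩ i0.2
    have h1 := i0.pgroup_zpowers.card_modEq_card_fixedPoints (G ⧸ N)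
    have h2 : fixedPoints (zpowers d0) (G ⧸ N) = {a} := Set.eq_singleton_iff_unique_mem.2
      ⟨fun x => mem_Fx_zpowers.2 ha x x.2, fun b hb => hu b (hb ⟨d0, mem_zpowers _⟩)⟩
    rw [h2, Nat.card_coe_set_eq, Set.ncard_singleton] at h1
    intro hd
    exact absurd ((h1.dvd_iff dvd_rfl).1 hd) (by decide)
  have pfix : ∀ P : Subgroup G, IsPGroup 2 P → ∃ g : G, ∀ x ∈ P, g⁻¹ * x * g ∈ N := fun P hP => by
    obtain ⟨a, ha⟩ := hP.nonempty_fixed_point_of_prime_not_dvd_card (G ⧸ N) odd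
    obtain ⟨g, rfl⟩ := QuotientGroup.mk_surjective a
    exact ⟨g, fun x hx => (hfix x g).1 (ha ⟨x, hx⟩)⟩
  have conj : ∀ s ∈ 𝒮, ∀ g : G, g * s * g⁻¹ ∈ 𝒮 := fun s ⟨⟨n, h1⟩, x, h2⟩ g =>
    ⟨⟨n, by rw [conj_pow, h1]; simp⟩, g * x, by simpa [mul_assoc] using h2⟩
  have mul : ∀ P : Subgroup G, IsPGroup 2 P → ∀ s ∈ 𝒮, ∀ s' ∈ 𝒮, s ∈ P → s' ∈ P → s * s' ∈ 𝒮 :=
    fun P hP s hs s' hs' h1 h2 => by
      obtain ⟨g, hg⟩ := pfix P hP
      have key : ∀ s ∈ 𝒮, s ∈ P → g⁻¹ * s * g ∈ H := fun s ⟨h3, x, h4⟩ h5 => by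
        by_cases h6 : s = 1
        · simp [h6]
        simpa [mul_assoc] using (mem_normalizer_iff.1 (uq s x g h3 h6 h4 (hg s h5)) _).1 h4
      exact ⟨(hP ⟨_, mul_mem h1 h2⟩).imp fun _ e => congrArg Subtype.val e, g,
        by simpa [mul_assoc] using mul_mem (key s hs h1) (key s' hs' h2)⟩
  have zd : ZD (G ⧸ N) 𝒮 {d | d ∈ 𝒮 ∧ Invo d} :=
    ⟨⟨fun d hd => hd.2, fun d hd g => ⟨conj d hd.1 g, hd.2.conj g⟩, fun d hd => fx d hd.1 hd.2.2,
      fun d hd e he hc hne => ⟨mul _ (T4.four_pgroup hd.2 he.2 hc) d hd.1 e he.1 (subset_closure (by simp))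
        (subset_closure (by simp)), hd.2.mul_of_comm he.2 hc hne⟩⟩,
      fun _ => Iff.rfl, ⟨⟨0, one_pow _⟩, 1, by simp⟩, fun s hs => hs.1, conj, mul⟩
  have co := zd.co
  set D := {d | d ∈ 𝒮 ∧ Invo d}
  set F := generalizedFittingSubgroup G
  have nF : F.Normal := H7.fstar_normal
  have nX : (closure D).Normal := normalizer_eq_top_iff.1 (eq_top_iff.2 (by simpa using zd.td.norm_closure ⊤))
  have hX : F ≤ closure D := by
    rcases (inferInstance : ((closure D).subgroupOf F).Normal).eq_bot_or_eq_top with e | e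
    · have m : d0 ∈ closure D := subset_closure ⟨⟨two _ i0, 1, by simpa using hd0⟩, i0⟩
      have key : ∀ x ∈ F, x ∈ closure D → x = 1 := fun x h1 h2 =>
        congrArg Subtype.val (show (⟨x, h1⟩ : F) = 1 from mem_bot.1 (e.le h2))
      refine absurd (key d0 (H7.centralizer_fstar_le (mem_centralizer_iff.2 fun x hx => ?_)) m) i0.2
      exact commutatorElement_eq_one_iff_mul_comm.1 (key _ (by
        rw [commutatorElement_def, mul_assoc, mul_assoc, ← mul_assoc d0]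
        exact F.mul_mem hx (nF.conj_mem _ (F.inv_mem hx) d0)) (by
        rw [commutatorElement_def]
        exact (closure D).mul_mem (nX.conj_mem _ m x) ((closure D).inv_mem m)))
    · exact subgroupOf_eq_top.1 e
  have one : ∀ t ∈ F, Invo t → ∀ x y : G, x⁻¹ * t * x ∈ N → y⁻¹ * t * y ∈ N → x⁻¹ * y ∈ N := fun t ht i x y h1 h2 =>
    QuotientGroup.eq.1 (co t (hX ht) i x (cov _) y (cov _) ((hfix t x).2 h1) ((hfix t y).2 h2))
  obtain ⟨t, ht, i⟩ : ∃ t ∈ F, Invo t := exists_invo_of_even (Nat.not_odd_iff_even.1 fun ho => by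
    have := T4.solv_odd ho
    exact hF' ⟨⟨IsSimpleGroup.comm_iff_isSolvable.2 this⟩⟩)
  refine ⟨N.subgroupOf F, fun e => hn (normalizer_eq_top_iff.1 (eq_top_iff.2 fun g _ => ?_)), ?_, fun g hg => ?_⟩
  · have h1 := subgroupOf_eq_top.1 e
    simpa using one t ht i 1 g (h1 (nF.conj_mem' t ht 1)) (h1 (nF.conj_mem' t ht g))
  · obtain ⟨g, hg⟩ := pfix _ i.pgroup_zpowers
    have := orderOf_dvd_natCard (N.subgroupOf F) (x := ⟨_, nF.conj_mem' t ht g⟩) (hg t (mem_zpowers t))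
    rw [← orderOf_coe, (i.conj' g).orderOf_eq] at this
    exact even_iff_two_dvd.2 this
  · refine odd_card_of_no_invo ?_
    rintro _ ⟨h1, u, hu, rfl⟩ iu
    refine hg (mem_subgroupOf.2 ?_)
    simpa using one _ (g * u * g⁻¹).2 ⟨congrArg Subtype.val iu.1, fun e => iu.2 (Subtype.ext e)⟩ 1 g
      (by simpa using mem_subgroupOf.1 h1) (by simpa [mul_assoc] using mem_subgroupOf.1 hu)

end Cfsg.Agent.S3121
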